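import Cfsg.Agent.GW.B4
import Cfsg.Agent.Lin.GL2

/-!
# Brauer's characterisation of `PSL₃(q)` and `M₁₁`: the local hypothesis
-/

set_option autoImplicit false
set_option linter.unusedSectionVars false

open Cfsg Subgroup

namespace CA.Br

universe u v

variable {F : Type v} [Field F]

/-- the matrix `!![a,b;c,d]` as an element of `GL₂` -/
noncomputable def mk2 (a b c d : F) (h : a * d - b * c ≠ 0) : GL (Fin 2) F :=
  Matrix.GeneralLinearGroup.mkOfDetNeZero !![a, b; c, d] (by rwa [Matrix.det_fin_two_of])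

@[simp] theorem mk2_val (a b c d : F) (h : a * d - b * c ≠ 0) :
    ((mk2 a b c d h : GL (Fin 2) F) : Matrix (Fin 2) (Fin 2) F) = !![a, b; c, d] := rfl

theorem gl_ext {g h : GL (Fin 2) F} (h00 : g 0 0 = h 0 0) (h01 : g 0 1 = h 0 1) (h10 : g 1 0 = h 1 0)
    (h11 : g 1 1 = h 1 1) : g = h := by
  ext i j
  fin_cases i <;> fin_cases j <;> assumption

/-- diagonal matrices -/
noncomputable def dgH : Fˣ × Fˣ →* GL (Fin 2) F where
  toFun a := mk2 (a.1 : F) 0 0 (a.2 : F) (by simp)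
  map_one' := by apply gl_ext <;> simp
  map_mul' a b := by apply gl_ext <;> simp [Matrix.mul_apply, Fin.sum_univ_two]

/-- `diag(a, d)` -/
noncomputable def dg (a d : Fˣ) : GL (Fin 2) F := dgH (a, d)

@[simp] theorem dg_val (a d : Fˣ) :
    ((dg a d : GL (Fin 2) F) : Matrix (Fin 2) (Fin 2) F) = !![(a : F), 0; 0, (d : F)] := rfl

/-- upper unitriangular matrices -/
noncomputable def xpH : Multiplicative F →* GL (Fin 2) F where
  toFun c := mk2 1 c.toAdd 0 1 (by simp)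
  map_one' := by apply gl_ext <;> simp
  map_mul' a b := by apply gl_ext <;> simp [Matrix.mul_apply, Fin.sum_univ_two, add_comm]

/-- lower unitriangular matrices -/
noncomputable def xmH : Multiplicative F →* GL (Fin 2) F where
  toFun c := mk2 1 0 c.toAdd 1 (by simp)
  map_one' := by apply gl_ext <;> simp
  map_mul' a b := by apply gl_ext <;> simp [Matrix.mul_apply, Fin.sum_univ_two]

/-- `!![1,c;0,1]` -/
noncomputable def xp (c : F) : GL (Fin 2) F := xpH (Multiplicative.ofAdd c)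

/-- `!![1,0;c,1]` -/
noncomputable def xm (c : F) : GL (Fin 2) F := xmH (Multiplicative.ofAdd c)

@[simp] theorem xp_val (c : F) :
    ((xp c : GL (Fin 2) F) : Matrix (Fin 2) (Fin 2) F) = !![1, c; 0, 1] := rfl

@[simp] theorem xm_val (c : F) :
    ((xm c : GL (Fin 2) F) : Matrix (Fin 2) (Fin 2) F) = !![1, 0; c, 1] := rfl

/-- the permutation matrix `!![0,1;1,0]` -/
noncomputable def ww (F : Type v) [Field F] : GL (Fin 2) F := mk2 0 1 1 0 (by simp)

@[simp] theorem ww_val : ((ww F : GL (Fin 2) F) : Matrix (Fin 2) (Fin 2) F) = !![0, 1; 1, 0] := rfl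

/-- the non-split torus attached to a non-square `e`: the matrices `!![a, b e; b, a]` -/
def nsT (e : F) : Subgroup (GL (Fin 2) F) where
  carrier := {g | g 0 0 = g 1 1 ∧ g 0 1 = g 1 0 * e}
  one_mem' := by simp
  mul_mem' := by
    rintro a b ⟨h1, h2⟩ ⟨h3, h4⟩
    simp only [Set.mem_setOf_eq, Units.val_mul, Matrix.mul_apply, Fin.sum_univ_two, h1, h2, h3, h4]
    constructor <;> ring
  inv_mem' := by
    rintro a ⟨h1, h2⟩
    simp only [Set.mem_setOf_eq, Matrix.GeneralLinearGroup.coe_inv, Matrix.inv_def, Matrix.adjugate_fin_two,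
      Matrix.smul_apply, Matrix.of_apply, Matrix.cons_val', Matrix.cons_val_zero, Matrix.cons_val_one,
      Matrix.cons_val_fin_one, smul_eq_mul, h1, h2]
    exact ⟨trivial, by ring⟩

theorem mem_nsT {e : F} {g : GL (Fin 2) F} : g ∈ nsT e ↔ g 0 0 = g 1 1 ∧ g 0 1 = g 1 0 * e := Iff.rfl

variable {G : Type u} [Group G] (φ : GL (Fin 2) F →* G)

/-- the central involution `t = φ(-1)` -/
noncomputable def tt : G := φ (dg (-1) (-1))
/-- `u = φ(diag(1,-1))` -/
noncomputable def uu : G := φ (dg 1 (-1))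
/-- `w = φ(!![0,1;1,0])` -/
noncomputable def wt : G := φ (ww F)
/-- the image of the scalars -/
noncomputable def Zt : Subgroup G := (center (GL (Fin 2) F)).map φ
/-- the image of the diagonal matrices -/
noncomputable def Tt : Subgroup G := (φ.comp dgH).range
/-- the image of the matrices `diag(a, a⁻¹)` -/
noncomputable def Ht : Subgroup G := (φ.comp (dgH.comp ((MonoidHom.id Fˣ).prod invMonoidHom))).range
/-- upper root group -/
noncomputable def Xp : Subgroup G := (φ.comp xpH).range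
/-- lower root group -/
noncomputable def Xm : Subgroup G := (φ.comp xmH).range
/-- the image of the non-split torus -/
noncomputable def Yt (e : F) : Subgroup G := (nsT e).map φ

variable [Fintype F]

/-- `φ` has a central kernel of odd order (`q` odd) -/
structure BK : Prop where
  odd : Odd (Fintype.card F)
  kerc : φ.ker ≤ center (GL (Fin 2) F)
  kero : Odd (Nat.card φ.ker)

/-- Brauer's local hypothesis: `C(t) = GL₂(q)/Z` and `t` is fused to a non-central involution -/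
structure BL : Prop extends BK φ where
  rng : φ.range = centralizer {tt φ}
  fus : IsConj (tt φ) (uu φ)

/-- `r` permutes `t → u → t u → t` -/
structure Rho (r : G) : Prop where
  rt : r * tt φ * r⁻¹ = uu φ
  ru : r * uu φ * r⁻¹ = tt φ * uu φ

/-- six root groups in hexagon position (think `X i j = {1 + c e_ij}` in `SL₃`, `φ g = diag(det g⁻¹, g)`);
`r` acts as the 3-cycle `0 → 1 → 2 → 0`. -/
structure Hex (r : G) (X : Fin 3 → Fin 3 → Subgroup G) : Prop extends Rho φ r where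
  p12 : X 1 2 = Xp φ
  p21 : X 2 1 = Xm φ
  rX : ∀ i j, i ≠ j → (X i j).map (MulAut.conj r).toMonoidHom = X (i + 1) (j + 1)
  row : ∀ i j k, i ≠ j → i ≠ k → X i j ≤ centralizer (X i k : Set G)
  col : ∀ i j k, i ≠ j → k ≠ j → X i j ≤ centralizer (X k j : Set G)
  comm : ∀ i j k, i ≠ j → j ≠ k → i ≠ k → ⁅X i j, X j k⁆ ≤ X i k

/-- the squares in `Ht` (the odd part of `Ht` when `q ≡ 3 mod 4`) -/
noncomputable def Ho : Subgroup G :=
  (φ.comp (dgH.comp (((MonoidHom.id Fˣ).prod invMonoidHom).comp (powMonoidHom 2)))).range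

/-- the norm one elements of the non-split torus -/
noncomputable def Y1t (e : F) : Subgroup G := (nsT e ⊓ (Matrix.GeneralLinearGroup.det).ker).map φ

/-- `Zt ⊔ Xp` -/
noncomputable def Ut : Subgroup G := Zt φ ⊔ Xp φ

/-- the Borel subgroup -/
noncomputable def Bt : Subgroup G := Tt φ ⊔ Xp φ

theorem realizeEqns_Br_Defs : True := by
  have := @CA.Br.xp.eq_1.{0}
  have := @CA.Br.xp.eq_def.{0}
  have := @CA.Br.xp.congr_simp.{0}
  have := @CA.Br.ww.eq_1.{0}
  have := @CA.Br.ww.eq_def.{0}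
  have := @CA.Br.ww.congr_simp.{0}
  have := @CA.Br.xpH.eq_1.{0}
  have := @CA.Br.xpH.eq_def.{0}
  have := @CA.Br.xpH.congr_simp.{0}
  have := @CA.Br.dgH.eq_1.{0}
  have := @CA.Br.dgH.eq_def.{0}
  have := @CA.Br.dgH.congr_simp.{0}
  have := @CA.Br.Zt.eq_1.{0,0}
  have := @CA.Br.Zt.eq_def.{0,0}
  have := @CA.Br.Zt.congr_simp.{0,0}
  have := @CA.Br.Ut.eq_1.{0,0}
  have := @CA.Br.Ut.eq_def.{0,0}
  have := @CA.Br.Ut.congr_simp.{0,0}
  have := @CA.Br.Xm.eq_1.{0,0}
  have := @CA.Br.Xm.eq_def.{0,0}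
  have := @CA.Br.Xm.congr_simp.{0,0}
  have := @CA.Br.uu.eq_1.{0,0}
  have := @CA.Br.uu.eq_def.{0,0}
  have := @CA.Br.uu.congr_simp.{0,0}
  have := @CA.Br.tt.eq_1.{0,0}
  have := @CA.Br.tt.eq_def.{0,0}
  have := @CA.Br.tt.congr_simp.{0,0}
  have := @CA.Br.xmH.eq_1.{0}
  have := @CA.Br.xmH.eq_def.{0}
  have := @CA.Br.xmH.congr_simp.{0}
  have := @CA.Br.Bt.eq_1.{0,0}
  have := @CA.Br.Bt.eq_def.{0,0}
  have := @CA.Br.Bt.congr_simp.{0,0}
  have := @CA.Br.nsT.eq_1.{0}
  have := @CA.Br.nsT.eq_def.{0}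
  have := @CA.Br.nsT.congr_simp.{0}
  have := @CA.Br.mk2.eq_1.{0}
  have := @CA.Br.mk2.eq_def.{0}
  have := @CA.Br.mk2.congr_simp.{0}
  have := @CA.Br.Ht.eq_1.{0,0}
  have := @CA.Br.Ht.eq_def.{0,0}
  have := @CA.Br.Ht.congr_simp.{0,0}
  have := @CA.Br.Y1t.eq_1.{0,0}
  have := @CA.Br.Y1t.eq_def.{0,0}
  have := @CA.Br.Y1t.congr_simp.{0,0}
  have := @CA.Br.Tt.eq_1.{0,0}
  have := @CA.Br.Tt.eq_def.{0,0}
  have := @CA.Br.Tt.congr_simp.{0,0}
  have := @CA.Br.dg.eq_1.{0}
  have := @CA.Br.dg.eq_def.{0}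
  have := @CA.Br.dg.congr_simp.{0}
  have := @CA.Br.Xp.eq_1.{0,0}
  have := @CA.Br.Xp.eq_def.{0,0}
  have := @CA.Br.Xp.congr_simp.{0,0}
  have := @CA.Br.xm.eq_1.{0}
  have := @CA.Br.xm.eq_def.{0}
  have := @CA.Br.xm.congr_simp.{0}
  have := @CA.Br.wt.eq_1.{0,0}
  have := @CA.Br.wt.eq_def.{0,0}
  have := @CA.Br.wt.congr_simp.{0,0}
  have := @CA.Br.Ho.eq_1.{0,0}
  have := @CA.Br.Ho.eq_def.{0,0}
  have := @CA.Br.Ho.congr_simp.{0,0}
  have := @CA.Br.Yt.eq_1.{0,0}
  have := @CA.Br.Yt.eq_def.{0,0}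
  have := @CA.Br.Yt.congr_simp.{0,0}
  trivial

end CA.Br
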