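import Cfsg.Agent.Br.Base1
import Cfsg.Agent.Blk.ZCor

/-!
# Involutions, fusion and the arithmetic lemma
-/

set_option autoImplicit false
set_option linter.unusedSectionVars false

open Cfsg Subgroup CA.Dih CA.FG

namespace CA.Br

universe u v

variable {F : Type v} [Field F]

section Mat

variable {m : GL (Fin 2) F}

theorem unit_sq {a : Fˣ} (h : a * a = 1) : a = 1 ∨ a = -1 := by
  exact (mul_self_eq_one_iff.1 (show (a : F) * a = 1 from congrArg Units.val h)).imp Units.ext Units.ext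

theorem cen_sq (hz : m ∈ center (GL (Fin 2) F)) (hm : m * m = 1) : m = 1 ∨ m = dg (-1) (-1) := by
  obtain ⟨a, rfl⟩ := mem_cen'.1 hz
  rw [dg_mul, ← dg_one] at hm
  rcases unit_sq (dg_inj hm).1 with rfl | rfl
  exacts [.inl dg_one, .inr rfl]

theorem inv_conj0 (h2 : (2 : F) ≠ 0) (hm : m * m = 1) (hz : m ∉ center (GL (Fin 2) F)) :
    ∃ c, c * dg 1 (-1) * c⁻¹ = m := by
  have e : ∀ i j, m i 0 * m 0 j + m i 1 * m 1 j = (1 : GL (Fin 2) F) i j := fun i j => by rw [← mul_ent, hm]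
  have e00 := e 0 0
  have e01 := e 0 1
  have e10 := e 1 0
  have e11 := e 1 1
  simp at e00 e01 e10 e11
  have tr : m 1 1 = - m 0 0 := by
    by_contra k
    have k : m 0 0 + m 1 1 ≠ 0 := fun e => k (by linear_combination e)
    have b : m 0 1 = 0 := mul_left_cancel₀ k (by linear_combination e01)
    have c : m 1 0 = 0 := mul_left_cancel₀ k (by linear_combination e10)
    exact hz (mem_cen.2 ⟨b, c, mul_left_cancel₀ k (by linear_combination e00 - e11)⟩)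
  simp only [mul_inv_eq_iff_eq_mul]
  by_cases b : m 0 1 = 0
  · rw [b, zero_mul, add_zero] at e00
    rcases mul_self_eq_one_iff.1 e00 with a | a
    · refine ⟨mk2 2 0 (m 1 0) 1 (by simpa using h2), gl_ext ?_ ?_ ?_ ?_⟩ <;> simp [mul_ent, tr, a, b]
      ring
    · refine ⟨mk2 0 (-2) 1 (m 1 0) (by simpa using h2), gl_ext ?_ ?_ ?_ ?_⟩ <;> simp [mul_ent, tr, a, b]
      ring
  · refine ⟨mk2 (m 0 1) (m 0 1) (1 - m 0 0) (-1 - m 0 0) fun k => mul_ne_zero h2 b (by linear_combination -k),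
      gl_ext ?_ ?_ ?_ ?_⟩ <;> simp [mul_ent, tr]
    · ring
    · ring
    · linear_combination -e00
    · linear_combination -e00

theorem nsT_sq (h2 : (2 : F) ≠ 0) {e : F} (he : ¬ IsSquare e) (hy : m ∈ nsT e) (hm : m * m = 1) :
    m ∈ center (GL (Fin 2) F) := by
  by_contra hz
  obtain ⟨c, rfl⟩ := inv_conj0 h2 hm hz
  exact TY0 h2 he (dg_mem_dT _ _) (fun k => hz ((inferInstance : (center _).Normal).conj_mem _ k c)) hy

end Mat

variable [Fintype F] {G : Type u} [Group G] {φ : GL (Fin 2) F →* G} {g m : GL (Fin 2) F} {e : F}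

theorem cj (φ : GL (Fin 2) F →* G) (c g : GL (Fin 2) F) : φ c * φ g * (φ c)⁻¹ = φ (c * g * c⁻¹) := by
  rw [map_mul, map_mul, map_inv]

theorem tt_mul : tt φ * tt φ = 1 := by rw [tt, ← map_mul, dg_mul]; simp [dg_one]

theorem uu_mul : uu φ * uu φ = 1 := by rw [uu, ← map_mul, dg_mul]; simp [dg_one]

theorem tu_eq : tt φ * uu φ = φ (dg (-1) 1) := by rw [tt, uu, ← map_mul, dg_mul]; simp

theorem tt_Zt : tt φ ∈ Zt φ := mem_Zt'.2 ⟨_, rfl⟩

theorem uu_Tt : uu φ ∈ Tt φ := mem_Tt'.2 ⟨_, _, rfl⟩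

theorem tt_comm {c : G} (hc : c ∈ φ.range) : tt φ * c = c * tt φ := BK.cen tt_Zt hc

theorem tt_conj {c : G} (hc : c ∈ φ.range) : c * tt φ * c⁻¹ = tt φ := by rw [← tt_comm hc, mul_inv_cancel_right]

theorem w_u : wt φ * uu φ * (wt φ)⁻¹ = tt φ * uu φ := by rw [tu_eq, wt, uu, cj, ww_dg]

theorem conj_mul' (x a b : G) : x * (a * b) * x⁻¹ = x * a * x⁻¹ * (x * b * x⁻¹) := by group

theorem w_tu : wt φ * (tt φ * uu φ) * (wt φ)⁻¹ = uu φ := by
  rw [conj_mul', w_u, tt_conj (c := wt φ) ⟨_, rfl⟩, ← mul_assoc, tt_mul, one_mul]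

theorem Rho.rtu {r : G} (h : Rho φ r) : r * (tt φ * uu φ) * r⁻¹ = tt φ := by
  rw [conj_mul', h.rt, h.ru, ← mul_assoc, ← tt_comm (c := uu φ) ⟨_, rfl⟩, mul_assoc, uu_mul, mul_one]

namespace BK

variable (h : BK φ)
include h

theorem lift2 (e : φ m * φ m = 1) : ∃ k : ℕ, φ (m ^ k) = φ m ∧ m ^ k * m ^ k = 1 := by
  obtain ⟨a, ha, k⟩ := h.lift (show φ (m * m) = φ 1 by rw [map_mul, e, map_one])
  obtain ⟨j, hj⟩ := h.ker_odd ha
  refine ⟨orderOf a, by rw [map_pow, hj, pow_succ, pow_mul, sq, e, one_pow, one_mul], ?_⟩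
  rw [← mul_pow' , k, mul_one, dg_pow, pow_orderOf_eq_one, dg_one]
where mul_pow' {k : ℕ} : (m * m) ^ k = m ^ k * m ^ k := (Commute.refl m).mul_pow k

theorem t1 : tt φ ≠ 1 := fun e => h.neg_ne (h.eq_one_of_sq e (by simp))

theorem uZ : uu φ ∉ Zt φ := fun k =>
  h.neg_ne (Units.ext (by simpa using (mem_cen.1 (h.mem_Zt.1 k)).2.2.symm))

theorem invZ {i : G} (hi : i ∈ Zt φ) (e : i * i = 1) : i = 1 ∨ i = tt φ := by
  obtain ⟨m, hm, rfl⟩ := hi
  obtain ⟨k, k1, k2⟩ := h.lift2 e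
  rcases cen_sq (pow_mem hm k) k2 with a | a
  · left; rw [← k1, a, map_one]
  · right; rw [← k1, a, tt]

theorem inv_cj {i : G} (hi : i ∈ φ.range) (e : i * i = 1) (i1 : i ≠ 1) (it : i ≠ tt φ) :
    ∃ c ∈ φ.range, c * uu φ * c⁻¹ = i := by
  obtain ⟨m, rfl⟩ := hi
  obtain ⟨k, k1, k2⟩ := h.lift2 e
  obtain ⟨c, hc⟩ := inv_conj0 h.two k2 fun a => (h.invZ (k1 ▸ h.mem_Zt.2 a) e).elim i1 it
  exact ⟨_, ⟨c, rfl⟩, by rw [uu, cj, hc, k1]⟩

theorem invY (he : ¬ IsSquare e) {i : G} (hi : i ∈ Yt φ e) (e : i * i = 1) : i = 1 ∨ i = tt φ := by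
  obtain ⟨m, hm, rfl⟩ := hi
  obtain ⟨k, k1, k2⟩ := h.lift2 e
  exact h.invZ (k1 ▸ h.mem_Zt.2 (nsT_sq h.two he (pow_mem hm k) k2)) e

theorem invT {i : G} (hi : i ∈ Tt φ) (e : i * i = 1) : i = 1 ∨ i = tt φ ∨ i = uu φ ∨ i = tt φ * uu φ := by
  obtain ⟨a, d, rfl⟩ := mem_Tt'.1 hi
  obtain ⟨k, k1, k2⟩ := h.lift2 e
  rw [dg_pow, dg_mul, ← dg_one] at k2
  rw [← k1, dg_pow, tu_eq]
  rcases unit_sq (dg_inj k2).1 with a | a <;> rcases unit_sq (dg_inj k2).2 with b | b <;> rw [a, b]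
  exacts [.inl (by rw [dg_one, map_one]), .inr (.inr (.inl rfl)), .inr (.inr (.inr rfl)), .inr (.inl rfl)]

theorem cent_u : φ.range ⊓ 𝒞[uu φ] = Tt φ := by
  ext x
  refine ⟨fun ⟨⟨c, hc⟩, k⟩ => ?_, fun k => ?_⟩
  · subst hc
    have k := h.conj_lift (mul_inv_eq_iff_eq_mul.2 (mem_centralizer_singleton_iff.1 k))
    have a := ents k 0 1
    have b := ents k 1 0
    simp at a b
    exact h.mem_Tt.2 (mem_dT.2 ⟨mul_left_cancel₀ h.two (by linear_combination -a),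
      mul_left_cancel₀ h.two (by linear_combination b)⟩)
  · obtain ⟨a, d, rfl⟩ := mem_Tt'.1 k
    exact ⟨⟨_, rfl⟩, mem_centralizer_singleton_iff.2 (by
      rw [uu, ← map_mul, ← map_mul, dT_comm (dg_mem_dT _ _) (dg_mem_dT _ _)])⟩

theorem exists_ns : ∃ e : F, ¬ IsSquare e :=
  FiniteField.exists_nonsquare fun k => h.two (by exact_mod_cast k ▸ ringChar.Nat.cast_ringChar (R := F))

theorem relT : (Tt φ).relIndex φ.range = Fintype.card F * (Fintype.card F + 1) := by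
  obtain ⟨e, he⟩ := h.exists_ns
  have c := h.cs he
  have k := card_mul_relIndex c.TC
  have : Finite φ.range := Finite.of_surjective _ φ.rangeRestrict_surjective
  have z : 0 < Nat.card (Zt φ) := have := Finite.Set.subset _ (c.ZT.trans c.TC); Nat.card_pos
  obtain ⟨n, hn⟩ : ∃ n, Fintype.card F = n + 2 := ⟨_, (Nat.sub_add_cancel (by have := c.q3; omega)).symm⟩
  rw [c.kT, c.kC, hn, show (n + 2) ^ 2 - 1 = (n + 1) * (n + 3) from Nat.sub_eq_of_eq_add (by ring)] at k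
  rw [hn]
  exact Nat.eq_of_mul_eq_mul_left (Nat.mul_pos (Nat.succ_pos n) z) (k.trans (by rw [Nat.succ_eq_add_one]; ring))

end BK

namespace BL

variable (h : BL φ)
include h

theorem mem_C {x : G} : x ∈ φ.range ↔ x * tt φ = tt φ * x := by rw [h.rng, mem_centralizer_singleton_iff]

theorem mem_T {x : G} : x ∈ Tt φ ↔ x * tt φ * x⁻¹ = tt φ ∧ x * uu φ * x⁻¹ = uu φ := by
  rw [← h.toBK.cent_u, mem_inf, h.mem_C, mem_centralizer_singleton_iff, mul_inv_eq_iff_eq_mul, mul_inv_eq_iff_eq_mul]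

theorem exists_rho : ∃ r, Rho φ r := by
  obtain ⟨g, hg⟩ := isConj_iff.1 h.fus.symm
  obtain ⟨c, hc, e⟩ := h.toBK.inv_cj (i := g * tt φ * g⁻¹) (h.mem_C.2 (by
      rw [← hg]; nth_rewrite 1 [hg]; nth_rewrite 3 [hg]
      rw [← conj_mul', ← conj_mul', tt_comm (c := uu φ) ⟨_, rfl⟩]))
    (by rw [← conj_mul', tt_mul]; simp) (by simpa using h.toBK.t1) fun e => h.toBK.uZ (by
      rw [← hg] at e; nth_rewrite 1 [hg] at e
      rw [← mul_left_cancel (mul_right_cancel e)]; exact tt_Zt)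
  have n1 : c⁻¹ * g * tt φ * (c⁻¹ * g)⁻¹ = uu φ := by
    rw [show c⁻¹ * g * tt φ * (c⁻¹ * g)⁻¹ = c⁻¹ * (g * tt φ * g⁻¹) * c by group, ← e]; group
  have n2 : c⁻¹ * g * uu φ * (c⁻¹ * g)⁻¹ = tt φ := by
    rw [show c⁻¹ * g * uu φ * (c⁻¹ * g)⁻¹ = c⁻¹ * (g * uu φ * g⁻¹) * c⁻¹⁻¹ by group, hg, tt_conj (inv_mem hc)]
  generalize c⁻¹ * g = n at n1 n2
  have k : ∀ x, n * wt φ * x * (n * wt φ)⁻¹ = n * (wt φ * x * (wt φ)⁻¹) * n⁻¹ := fun x => by group
  exact ⟨n * wt φ, by rw [k, tt_conj (c := wt φ) ⟨_, rfl⟩, n1],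
    by rw [k, w_u, conj_mul', n1, n2, tt_comm (c := uu φ) ⟨_, rfl⟩]⟩

theorem syl [Finite G] {S : Subgroup G} (hS : IsSylowOf 2 S φ.range) : IsSylowOf 2 S ⊤ := by
  refine IsSylowOf.of_norm_le hS Nat.prime_two le_top fun n hn => h.mem_C.2 (mul_inv_eq_iff_eq_mul.1 ?_)
  have tS : tt φ ∈ S := zpowers_le.1 (hS.le_of_norm_le (π := {2})
    (piGrp_zpowers_iff.2 (pElt_of_pow_eq_one Nat.prime_two (by rw [sq, tt_mul]))) (zpowers_le.2 ⟨_, rfl⟩)
    fun s hs => centralizer_le_normalizer _ (by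
      rw [mem_centralizer_iff]; rintro _ ⟨k, rfl⟩
      exact (Commute.zpow_left (tt_comm (hS.le hs)) k).eq)) 
  by_contra ne
  obtain ⟨c, hc, e⟩ := h.toBK.inv_cj (i := n * tt φ * n⁻¹) (hS.le ((mem_normalizer_iff.1 hn.2 _).1 tS))
    (by rw [← conj_mul', tt_mul]; simp) (by simpa using h.toBK.t1) ne
  have le : S :^ c⁻¹ ≤ Tt φ := by
    rw [← h.toBK.cent_u]
    refine le_inf (hS.conjg_of_mem (inv_mem hc)).le fun x hx => mem_centralizer_singleton_iff.2 ?_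
    have k := tt_comm (hS.le ((mem_normalizer_iff.1 (inv_mem hn.2) _).1 (mem_conjg.1 hx)))
    have e' : uu φ = c⁻¹ * (n * tt φ * n⁻¹) * c := by rw [← e]; group
    rw [e']
    calc x * (c⁻¹ * (n * tt φ * n⁻¹) * c) = c⁻¹ * n * (n⁻¹ * (c⁻¹⁻¹ * x * c⁻¹) * n⁻¹⁻¹ * tt φ) * n⁻¹ * c := by group
      _ = _ := by rw [← k]; group
  refine IsSylowOf.not_dvd_index (hS.conjg_of_mem (inv_mem hc)) Nat.prime_two
    (Dvd.dvd.trans ?_ (relIndex_dvd_of_le_left _ le))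
  rw [h.toBK.relT]
  exact (Nat.even_mul_succ_self _).two_dvd

theorem oddC [Finite G] : ¬ 2 ∣ φ.range.index := fun k => by
  obtain ⟨S, hS⟩ := sylow_exists Nat.prime_two φ.range
  refine IsSylowOf.not_dvd_index (h.syl hS) Nat.prime_two (k.trans ?_)
  rw [relIndex_top_right]
  exact index_dvd_of_le hS.le

theorem cjt [Finite G] {i : G} (e : i * i = 1) (i1 : i ≠ 1) : IsConj (tt φ) i := by
  obtain ⟨S, hS⟩ := sylow_exists Nat.prime_two φ.range
  obtain ⟨x, -, hx⟩ := sylow_Jsub Nat.prime_two (h.syl hS)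
    (piGrp_zpowers_iff.2 (pElt_of_pow_eq_one Nat.prime_two (show i ^ 2 = 1 by rw [sq, e]))) le_top
  refine IsConj.trans ?_ (isConj_iff.2 ⟨x, rfl⟩ : IsConj i (x * i * x⁻¹)).symm
  by_cases k : x * i * x⁻¹ = tt φ
  · rw [k]
  obtain ⟨c, -, hc⟩ := h.toBK.inv_cj (hS.le (hx (conj_mem_conjg x (mem_zpowers i))))
    (by rw [← conj_mul', e]; simp) (by simpa using i1) k
  exact h.fus.trans (isConj_iff.2 ⟨c, hc⟩)

end BL

theorem exists_BL [Finite G] [IsSimpleGroup G] (hF : Odd (Fintype.card F)) (Z : Subgroup (GL (Fin 2) F))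
    [Z.Normal] (hZc : Z ≤ center (GL (Fin 2) F)) (hZo : Odd (Nat.card Z)) (t : G) (ht : orderOf t = 2)
    (hC : Nonempty (centralizer ({t} : Set G) ≃* (GL (Fin 2) F ⧸ Z))) : ∃ φ : GL (Fin 2) F →* G, BL φ := by
  obtain ⟨e⟩ := hC
  let φ : GL (Fin 2) F →* G := (centralizer {t}).subtype.comp (e.symm.toMonoidHom.comp (QuotientGroup.mk' Z))
  have k : φ.ker = Z := by
    ext x; simp [φ]
  have r : φ.range = centralizer {t} := by
    rw [MonoidHom.range_comp, MonoidHom.range_eq_top.2 (e.symm.surjective.comp (QuotientGroup.mk'_surjective Z)),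
      ← MonoidHom.range_eq_map, range_subtype]
  have h : BK φ := ⟨hF, k ▸ hZc, k ▸ hZo⟩
  have t2 : t * t = 1 := by rw [← sq, ← ht, pow_orderOf_eq_one]
  have t1 : t ≠ 1 := by rintro rfl; simp at ht
  have et : t = tt φ := by
    obtain ⟨m, hm⟩ : t ∈ φ.range := r ▸ mem_centralizer_singleton_iff.2 rfl
    refine (h.invZ ⟨m, mem_center_iff.2 fun c => mul_inv_eq_iff_eq_mul.1 (h.conj_lift ?_), hm⟩ t2).resolve_left t1
    rw [hm]
    exact mul_inv_eq_iff_eq_mul.2 (mem_centralizer_singleton_iff.1 (r ▸ ⟨c, rfl⟩))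
  obtain ⟨g, g1, g2⟩ := CA.Blk.exists_fused_of_simple (fun a => h.uZ ⟨_, mem_center_iff.2 fun c =>
    mul_inv_eq_iff_eq_mul.1 (h.conj_lift (mul_inv_eq_iff_eq_mul.2 (a.1.1 _ _))), rfl⟩) ht
  obtain ⟨c, -, hc⟩ := h.inv_cj (r ▸ mem_centralizer_singleton_iff.2 g1.eq.symm)
    (by rw [← conj_mul', t2]; simp) (by simpa using t1) (et ▸ g2)
  exact ⟨φ, h, et ▸ r, et ▸ (isConj_iff.2 ⟨g, rfl⟩).trans (isConj_iff.2 ⟨c, hc⟩).symm⟩

theorem arith {q p f n : ℕ} (hp : p.Prime) (hq : q = p ^ f) (qo : Odd q) (q3 : 3 ≤ q) {y z : ℤ}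
    (hy : y ∣ q * (q ^ 2 - 1)) (hz : z ∣ q * (q + 1) ^ 2) (e : y + z = q + 1)
    (hn : (n : ℤ) = (q ^ 2 - 1 + y) * (q ^ 2 + q + y)) (h2 : ¬ 2 ∣ n)
    (hr : ∀ r : ℕ, r.Prime → r ≠ 2 → r ∣ q + 1 → ¬ r ∣ n) : y = 1 ∨ y = q := by
  have co : IsCoprime y (q + 1 : ℤ) := by
    rw [Int.isCoprime_iff_gcd_eq_one]
    by_contra ne
    obtain ⟨r, hr1, hr2⟩ := Nat.exists_prime_and_dvd ne
    have a : (r : ℤ) ∣ y := (Int.natCast_dvd_natCast.2 hr2).trans (Int.gcd_dvd_left ..)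
    have b : (r : ℤ) ∣ q + 1 := (Int.natCast_dvd_natCast.2 hr2).trans (Int.gcd_dvd_right ..)
    have c : r ∣ n := Int.natCast_dvd_natCast.1 (hn ▸ Dvd.dvd.mul_left (dvd_add
      (by rw [show (q : ℤ) ^ 2 + q = (q + 1) * q by ring]; exact b.mul_right _) a) _)
    by_cases r2 : r = 2
    · exact h2 (r2 ▸ c)
    · exact hr r hr1 r2 (by exact_mod_cast b) c
  have cz : IsCoprime z (q + 1 : ℤ) := by
    rw [show z = -y + (q + 1) * 1 by linear_combination e]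
    exact co.neg_left.add_mul_left_left _
  have zq : z ∣ q := (cz.pow_right (n := 2)).dvd_of_dvd_mul_right hz
  have yq : y ∣ q * (q - 1) := co.dvd_of_dvd_mul_right (by rwa [show (q : ℤ) * (q - 1) * (q + 1) = q * (q ^ 2 - 1) by ring])
  have q3' : (3 : ℤ) ≤ q := by exact_mod_cast q3
  obtain ⟨k, hk⟩ := qo
  have hk' : (q : ℤ) = 2 * k + 1 := by exact_mod_cast hk
  by_cases pz : (p : ℤ) ∣ z
  · left
    have f0 : f ≠ 0 := by rintro rfl; simp at hq; omega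
    have pq : (p : ℤ) ∣ q := by rw [hq]; exact_mod_cast dvd_pow_self p f0
    have cy : IsCoprime y (q : ℤ) := by
      rw [hq]; push_cast
      obtain ⟨a, ha⟩ := dvd_sub pq pz
      exact IsCoprime.pow_right (by
        rw [show y = 1 + p * a by linear_combination e + ha]; exact isCoprime_one_left.add_mul_left_left _)
    obtain ⟨a, ha⟩ := cy.dvd_of_dvd_mul_left yq
    obtain ⟨b, hb⟩ := zq
    have b0 : b ≠ 0 := by rintro rfl; omega
    by_cases b1 : b = 1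
    · subst b1; omega
    exfalso
    have z3 : 3 * z ≤ q := by
      rcases lt_or_ge 0 z with z0 | z0
      · have : b ≠ 2 := by rintro rfl; omega
        have : 0 < b := by by_contra c; nlinarith
        nlinarith [show 3 ≤ b by omega]
      · omega
    have y0 : 0 < y := by omega
    have a0 : 0 < a := by by_contra c; nlinarith
    have a1 : a = 1 := by by_contra c; nlinarith [show 2 ≤ a by omega]
    have : z = 2 := by subst a1; omega
    subst this; omega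
  · have : IsCoprime z (q : ℤ) := by
      rw [hq]; push_cast
      exact ((Int.prime_iff_natAbs_prime.2 (by simpa)).coprime_iff_not_dvd.2 pz).symm.pow_right
    rcases Int.isUnit_iff.1 (this.isUnit_of_dvd' dvd_rfl zq) with rfl | rfl
    · right; omega
    · exfalso
      have : y ∣ 6 := by
        have := dvd_sub yq (Dvd.intro (q - 3) rfl : y ∣ y * (q - 3))
        rwa [show (q : ℤ) * (q - 1) - y * (q - 3) = 6 by rw [show y = q + 2 by omega]; ring] at this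
      have l := Int.le_of_dvd (by decide) this
      obtain rfl : y = 5 := by omega
      omega

end CA.Br
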