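import Cfsg.Agent.Br.Base3

/-!
# The shape `CS2` under Brauer's hypothesis
-/

set_option autoImplicit false
set_option linter.unusedSectionVars false

open Cfsg Subgroup CA.Dih CA.FG

namespace CA.Br

universe u v

variable {F : Type v} [Field F] [Fintype F] {G : Type u} [Group G] {φ : GL (Fin 2) F →* G} {e : F} {r : G}

local notation "dt" => Matrix.GeneralLinearGroup.det

theorem Rho.rT (hr : Rho φ r) (h : BL φ) {g : G} (hg : g ∈ Tt φ) : r * g * r⁻¹ ∈ Tt φ := by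
  obtain ⟨a, b⟩ := h.mem_T.1 hg
  have k : ∀ x, r * g * r⁻¹ * (r * x * r⁻¹) * (r * g * r⁻¹)⁻¹ = r * (g * x * g⁻¹) * r⁻¹ := fun x => by group
  exact h.mem_T.2 ⟨by rw [← hr.rtu, k, conj_mul' g, a, b], by rw [← hr.rt, k, a]⟩

theorem Rho.r3 (hr : Rho φ r) (h : BL φ) : r * r * r ∈ Tt φ := by
  have k : ∀ x, r * r * r * x * (r * r * r)⁻¹ = r * (r * (r * x * r⁻¹) * r⁻¹) * r⁻¹ := fun x => by group
  exact h.mem_T.2 ⟨by rw [k, hr.rt, hr.ru, hr.rtu], by rw [k, hr.ru, hr.rtu, hr.rt]⟩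

theorem wt_inv : (wt φ)⁻¹ = wt φ := by rw [wt, ← map_inv, ww_inv]

theorem Rho.wr (hr : Rho φ r) (h : BL φ) : wt φ * r * (wt φ)⁻¹ * r ∈ Tt φ := by
  have k : ∀ x, wt φ * r * (wt φ)⁻¹ * r * x * (wt φ * r * (wt φ)⁻¹ * r)⁻¹ =
      wt φ * (r * ((wt φ)⁻¹ * (r * x * r⁻¹) * (wt φ)⁻¹⁻¹) * r⁻¹) * (wt φ)⁻¹ := fun x => by group
  have k' : ∀ x, (wt φ)⁻¹ * x * (wt φ)⁻¹⁻¹ = wt φ * x * (wt φ)⁻¹ := fun x => by rw [wt_inv, wt_inv]
  exact h.mem_T.2 ⟨by rw [k, k', hr.rt, w_u, hr.rtu, tt_conj (c := wt φ) ⟨_, rfl⟩],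
    by rw [k, k', hr.ru, w_tu, hr.ru, w_tu]⟩

theorem BK.extY (h : BK φ) (he : ¬ IsSquare e) (θ : Yt φ e →* ℂˣ)
    (hθ : ∀ y y' : Yt φ e, (y' : G) = uu φ * y * (uu φ)⁻¹ → θ y' = θ y) :
    ∃ μ : φ.range →* ℂˣ, ∀ (y : Yt φ e) (g : φ.range), (g : G) = y → μ g = θ y := by
  have e0 : e ≠ 0 := fun k => he (by rw [k]; exact IsSquare.zero)
  let ψ : nsT e →* ℂˣ := θ.comp (φ.subgroupMap (nsT e))
  let d : nsT e →* Fˣ := (dt).comp (nsT e).subtype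
  have sd : Function.Surjective d := fun a => let ⟨y, k, l⟩ := norm_surj h.odd e0 a; ⟨⟨y, k⟩, l⟩
  have kd : d.ker ≤ ψ.ker := fun y hy => by
    obtain ⟨x, hx, k⟩ := hilb h.two e0 y.2 hy
    have : ψ (y * ⟨x, hx⟩) = ψ ⟨x, hx⟩ := hθ _ _ (show φ (y * x) = uu φ * φ x * (uu φ)⁻¹ by rw [uu, cj, k])
    rwa [map_mul, mul_eq_right] at this
  have l : ∀ y, d.liftOfSurjective sd ⟨ψ, kd⟩ (d y) = ψ y := MonoidHom.liftOfRightInverse_comp_apply _ _ _ _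
  obtain ⟨μ, hμ⟩ := BK.exists_lin (φ := φ) (d.liftOfSurjective sd ⟨ψ, kd⟩) fun g k =>
    (l ⟨g, cen_le_nsT (h.kerc k)⟩).trans ((congrArg θ (Subtype.ext k)).trans (map_one θ))
  refine ⟨μ, ?_⟩
  rintro ⟨_, y, hy, rfl⟩ g k
  rw [show g = φ.rangeRestrict y from Subtype.ext k, hμ]
  exact l ⟨y, hy⟩

theorem odd_or (hn : ¬ IsSquare (-1 : F)) :
    ∃ k, Odd k ∧ ∀ a : Fˣ, a ^ k = 1 ∨ (-1 * a) ^ k = 1 := by
  have h4 : Fintype.card F % 4 = 3 := by simpa [FiniteField.isSquare_neg_one_iff] using hn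
  have o : Odd (Fintype.card F / 2) := Nat.odd_iff.2 (by omega)
  refine ⟨Fintype.card F / 2, o, fun a => (unit_sq ?_).imp_right fun k => by rw [mul_pow, k, o.neg_one_pow]; simp⟩
  rw [← pow_add, show Fintype.card F / 2 + Fintype.card F / 2 = Nat.card Fˣ by
    rw [Nat.card_units, Nat.card_eq_fintype_card]; omega, pow_card_eq_one']

theorem BL.cs2 [Fintype G] (h : BL φ) (he : ¬ IsSquare e) (hr : Rho φ r) :
    ∃ lam θ1 θ2, CS2 (Fintype.card F) φ.range (Zt φ) (Tt φ) (Yt φ e) (Ut φ) (Xp φ) (Ht φ) (Y1t φ e) (tt φ) (wt φ)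
      (uu φ) (φ (xp 1)) r lam θ1 θ2 := by
  have k := h.toBK
  have c := k.cs he
  have e0 : e ≠ 0 := fun k => he (by rw [k]; exact IsSquare.zero)
  obtain ⟨l, hl⟩ := exists_theta Fˣ
  have := k.cycY he
  obtain ⟨θ, hθ⟩ := exists_theta (Yt φ e)
  have l1 : l (-1) = -1 := neg_of_sq (by rw [← map_mul]; simp) fun a => k.neg_ne (by
    have := odd_of_pow (a := (-1 : Fˣ)) odd_one (by simpa using (hl _).1 a)
    simpa using (this.neg_one_pow (α := Fˣ)).symm.trans (pow_orderOf_eq_one _))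
  have ko : ∀ g, φ g = 1 → Odd (orderOf (dt g)) := fun g a => by
    obtain ⟨b, rfl⟩ := mem_cen'.1 (k.kerc a)
    rw [det_dg, ← sq]
    exact (k.ker_odd a).of_dvd_nat (orderOf_pow_dvd 2)
  obtain ⟨lam, hlam⟩ := BK.exists_lin (φ := φ) l fun g a => (hl _).2 (ko g a)
  let tY : Yt φ e := ⟨tt φ, c.ZY tt_Zt⟩
  have θt : θ tY = -1 := neg_of_sq (by rw [← map_mul, ← map_one θ]; exact congrArg θ (Subtype.ext tt_mul)) fun a => by
    have := (hθ _).1 a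
    rw [← orderOf_coe, orderOf_eq_prime (show tt φ ^ 2 = 1 by rw [sq, tt_mul]) k.t1] at this
    exact absurd this (by decide)
  have ne : (-1 : ℂˣ) ≠ 1 := by simp
  let Y : nsT e →* Yt φ e := φ.subgroupMap (nsT e)
  let U : nsT e → nsT e := fun y => ⟨_, u_nsT y.2⟩
  have YU : ∀ y, (Y (U y) : G) = uu φ * Y y * (uu φ)⁻¹ := fun y => (cj φ _ _).symm
  have ut : (tY : G) = uu φ * tY * (uu φ)⁻¹ := (tt_conj ⟨_, rfl⟩).symm
  have hb : ∀ j : nsT e, dt j.1 = 1 → ∃ x, θ (Y (U x)) = θ (Y j) * θ (Y x) := fun j a => by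
    obtain ⟨x, hx, b⟩ := hilb k.two e0 j.2 a
    exact ⟨⟨x, hx⟩, by rw [← map_mul, ← map_mul]; exact congrArg (θ ∘ Y) (Subtype.ext b)⟩
  obtain ⟨x1, h1⟩ := hb ⟨_, cen_le_nsT (dg_cen (-1))⟩ (by simp [det_dg])
  rw [show Y ⟨_, cen_le_nsT (dg_cen (-1))⟩ = tY from rfl, θt] at h1
  obtain ⟨y, hy, dy⟩ := norm_surj k.odd e0 (-1)
  have h2 : Y ⟨y, hy⟩ * Y (U ⟨y, hy⟩) = tY := by
    rw [← map_mul]; exact Subtype.ext (congrArg φ ((mul_u hy).trans (by rw [dy])))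
  have P : Pr θ := fun g a => (hθ g).2 a
  refine ⟨lam, θ, θ⁻¹, c, k.odd, h.rng, tt_mul, k.t1, tt_Zt, uu_Tt, fun _ => k.invY he, fun _ => k.invT,
    fun _ => h.cjt, h.oddC, hr.rt, hr.ru, fun _ => hr.rT h, hr.r3 h, hr.wr h, fun μ a => ?_, fun μ a => ?_, ?_, ?_,
    k.extY he, fun _ ⟨a, b⟩ => mem_Tt'.2 ⟨_, _, b⟩, k.kH, ⟨-1, by simp [tt, dg]⟩, ?_, ?_, map_mono inf_le_left, k.kY1 he,
    ⟨_, ⟨cen_le_nsT (dg_cen _), by simp [det_dg]⟩, rfl⟩, ?_, ?_, ?_, h.rrt, h.rrtx, fun _ => h.rrZ,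
    fun _ a b => h.rrT a b, fun _ a b => h.rrY he a b, ?_, ?_, P, fun g a => by simp [P g a],
    ⟨_, _, YU x1, by rw [h1]; simp⟩, ⟨_, _, YU x1, by simp [h1]⟩, fun a => ?_, ⟨_, _, YU ⟨y, hy⟩, fun a => ?_⟩,
    fun y a => by rw [show y = tY from Subtype.ext a, θt], ?_⟩
  · ext g
    obtain ⟨g, rfl⟩ := φ.rangeRestrict_surjective g
    rw [k.lin_eq (g' := dg 1 (dt g)) (by rw [det_dg, one_mul]), a _ (mem_Tt'.2 ⟨_, _, rfl⟩)]; rfl
  · ext g
    obtain ⟨g, rfl⟩ := φ.rangeRestrict_surjective g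
    obtain ⟨y, hy, dy⟩ := norm_surj k.odd e0 (dt g)
    rw [k.lin_eq dy.symm, a _ ⟨y, hy, rfl⟩]; rfl
  · rintro μ ⟨_, hg⟩ ⟨a, rfl⟩
    exact k.lin (g := dg a a⁻¹) (by simp [det_dg])
  · rintro μ ⟨_, hg⟩ ⟨a, ⟨-, b⟩, rfl⟩
    exact k.lin b
  · rintro _ ⟨a, rfl⟩
    exact k.SL_Z (g := dg a a⁻¹) (by simp [det_dg])
  · rintro _ ⟨a, rfl⟩ b
    have b : dg a a⁻¹ * dg a a⁻¹ = 1 := k.eq_of_det (by rw [map_mul, map_one]; exact b) (by simp [det_dg])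
    rw [dg_mul, ← dg_one] at b
    rcases unit_sq (dg_inj b).1 with rfl | rfl
    · exact .inl (map_one _)
    · exact .inr (by simp [tt, dg])
  · rintro _ ⟨a, ⟨-, b⟩, rfl⟩
    exact k.SL_Z b
  · rintro _ ⟨a, b, rfl⟩
    exact ⟨_, ⟨(nsT e).mul_mem ((nsT e).inv_mem b) (u_nsT b), by simp [det_cj]⟩, by rw [map_mul, map_inv, uu, cj]⟩
  · rintro _ ⟨a, ⟨b, d⟩, rfl⟩
    rw [uu, cj, eq_inv_iff_mul_eq_one, ← map_mul, ← nsT_comm b (u_nsT b), mul_u b, show dt a = 1 from d, dg_one, map_one]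
  · intro g a
    obtain ⟨g, rfl⟩ := φ.rangeRestrict_surjective g
    rw [hlam, hl]
    exact odd_of_pow a (by
      rw [← map_pow]; exact ko _ (by rw [map_pow]; exact congrArg Subtype.val (pow_orderOf_eq_one (φ.rangeRestrict g))))
  · intro g a
    rw [show g = φ.rangeRestrict (dg 1 (-1)) from Subtype.ext a, hlam, det_dg, one_mul, l1]
  · have b : θ (Y ⟨y, hy⟩ * Y ⟨y, hy⟩) = 1 := by
      rw [map_mul]; nth_rewrite 1 [a]; simp
    obtain ⟨n, o, hn⟩ : ∃ n, Odd n ∧ φ y ^ n * φ y ^ n = 1 := ⟨_, (hθ _).1 b, by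
      rw [← (Commute.refl _).mul_pow]; exact congrArg Subtype.val (pow_orderOf_eq_one (Y ⟨y, hy⟩ * Y ⟨y, hy⟩))⟩
    have h3 : φ y ^ n * (uu φ * φ y ^ n * (uu φ)⁻¹) = tt φ := by
      have := congrArg Subtype.val (congrArg (· ^ n) h2)
      simp only [(show Commute (Y ⟨y, hy⟩) (Y (U ⟨y, hy⟩)) from c.cY.1.1 _ _).mul_pow, Subgroup.coe_mul,
        Subgroup.coe_pow, YU, conj_pow] at this
      obtain ⟨j, rfl⟩ := o
      exact this.trans (by rw [pow_succ, pow_mul, sq]; simp [tY, tt_mul])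
    rcases k.invY he (pow_mem (show φ y ∈ Yt φ e from ⟨y, hy, rfl⟩) n) hn with b | b <;> rw [b] at h3
    · exact k.t1 (by simpa using h3.symm)
    · exact k.t1 (by rw [tt_conj (c := uu φ) ⟨_, rfl⟩, tt_mul] at h3; exact h3.symm)
  · exact ne (by rw [← θt, ← h2, map_mul, a]; simp)
  · by_cases hn : IsSquare (-1 : F)
    · obtain ⟨i, hi⟩ := hn
      have i0 : i ≠ 0 := by rintro rfl; simp at hi
      refine .inl fun a => ne ?_
      have := DFunLike.congr_fun a (φ.rangeRestrict (dg 1 (Units.mk0 i i0)))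
      rwa [MonoidHom.mul_apply, hlam, det_dg, one_mul, ← map_mul,
        show Units.mk0 i i0 * Units.mk0 i i0 = -1 from Units.ext hi.symm, l1] at this
    refine .inr ⟨fun g hg => ?_, θ * θ, fun g a => by simp [P g a], ?_, fun a => ?_, fun a => ?_,
      ⟨_, _, ut, by simp [θt]⟩, ⟨_, _, ut, by simp [θt]⟩⟩
    · obtain ⟨a, d, rfl⟩ := mem_Tt'.1 hg
      obtain ⟨n, o, hn⟩ := odd_or hn
      have : ∀ a d : Fˣ, a ^ n = 1 → d ^ n = 1 → Odd (orderOf (φ (dg a d))) := fun a d p q =>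
        o.of_dvd_nat (orderOf_dvd_of_pow_eq_one (by rw [← map_pow, dg_pow, p, q, dg_one, map_one]))
      rw [tu_eq, tt, uu, ← map_mul, ← map_mul, ← map_mul, dg_mul, dg_mul, dg_mul, one_mul, one_mul]
      rcases hn a with p | p <;> rcases hn d with q | q
      exacts [.inl (this _ _ p q), .inr (.inr (.inl (this _ _ p q))), .inr (.inr (.inr (this _ _ p q))),
        .inr (.inl (this _ _ p q))]
    · obtain ⟨s, hs⟩ : IsSquare (-1 * e) := by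
        classical
        have p := quadraticChar_neg_one_iff_not_isSquare.2 hn
        have q := quadraticChar_neg_one_iff_not_isSquare.2 he
        exact (quadraticChar_one_iff_isSquare (by simpa using e0)).1 (by rw [map_mul, p, q]; rfl)
      have s0 : s ≠ 0 := by rintro rfl; simp [e0] at hs
      have d : 0 * 0 - s⁻¹ * e * s⁻¹ = 1 := by field_simp; linear_combination hs
      let j : nsT e := ⟨mk2 0 (s⁻¹ * e) s⁻¹ 0 (d ▸ one_ne_zero), rfl, rfl⟩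
      obtain ⟨x, hx⟩ := hb j (Units.ext (by rw [det_ent]; exact d))
      have jj : Y j * Y j = tY := by
        rw [← map_mul]
        refine Subtype.ext (congrArg φ (gl_ext ?_ ?_ ?_ ?_)) <;> simp [j, mul_ent]
        · linear_combination -d
        · linear_combination -d
      refine ⟨_, _, YU x, fun a => ne ?_⟩
      rwa [MonoidHom.mul_apply, MonoidHom.mul_apply, hx, mul_mul_mul_comm, mul_eq_right, ← map_mul, jj, θt] at a
    · simpa [θt] using DFunLike.congr_fun a tY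
    · simpa [θt] using DFunLike.congr_fun a tY

end CA.Br
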