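import Cfsg.Agent.Br.Ch8
import Cfsg.Agent.Br.Base4

/-!
# Brauer's order formula
-/

set_option autoImplicit false
set_option linter.unusedSectionVars false
set_option linter.unusedVariables false

open Cfsg Subgroup CA.Chr CA.Dih CA.Blk Finset
open scoped ComplexConjugate Classical

namespace CA.Br

universe u v

variable {G : Type u} [Group G] [Fintype G]

theorem eq_three {A x y z : G → ℂ} (hn : nrm A ≤ 3) (hx : Dirr x) (hy : Dirr y) (hz : Dirr z) (xy : ⟪x, y⟫ = 0)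
    (xz : ⟪x, z⟫ = 0) (yz : ⟪y, z⟫ = 0) (h1 : ⟪A, x⟫ = 1) (h2 : ⟪A, y⟫ = 1) (h3 : ⟪A, z⟫ = 1) : A = x + y + z := by
  have e1 := nrm_sub_of_dot_one hx.dot_self h1
  have e2 := nrm_sub_of_dot_one (θ := A - x) hy.dot_self (by rw [dot_sub_left, h2, xy, sub_zero])
  have e3 := nrm_sub_of_dot_one (θ := A - x - y) hz.dot_self (by rw [dot_sub_left, dot_sub_left, h3, xz, yz]; simp)
  have := nrm_eq_zero.1 (le_antisymm (by linarith) (nrm_nonneg (A - x - y - z)))
  rw [← sub_eq_zero, ← this]; abel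

namespace CS2

variable {q : ℕ} {C Z T Y U X H Y1 : Subgroup G} {t w u x r : G} {lam : C →* ℂˣ} {θ1 θ2 : Y →* ℂˣ}
  (h : CS2 q C Z T Y U X H Y1 t w u x r lam θ1 θ2)
include h

theorem al_odd (θ : Y →* ℂˣ) {g : G} (o : Odd (orderOf g)) : h.al θ g = 0 := h.Ph_odd _ _ o

theorem nrm_al {θ : Y →* ℂˣ} (P : Pr θ) (e : θ ≠ 1) : nrm (h.al θ - 1) = if h.cu θ = θ then 3 else 2 := by
  rw [nrm_sub_one (n := if h.cu θ = θ then 4 else 3) _ (h.al_one P e)]
  · split_ifs <;> norm_num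
  · rw [h.al_al P P e e]; split_ifs <;> simp_all <;> norm_num

theorem alpha0 : ∃ (a b : G → ℂ) (s : ℤ), Dirr a ∧ Dirr b ∧ ⟪a, b⟫ = 0 ∧ ⟪a, 1⟫ = 0 ∧ ⟪b, 1⟫ = 0 ∧
    h.al θ1 = 1 + a + b ∧ ⟪b, h.al θ2⟫ = 0 ∧ (∀ θ, Pr θ → θ ≠ 1 → ⟪a, h.al θ⟫ = 1) ∧ a 1 = -s ∧ a t = -q ∧
    (C.index : ℤ) * (s - q) ^ 2 = q * (q + 1) ^ 2 * (q - 1) * s * (s - 1) ∧ (3 * q - 2 ≤ s ∨ s ≤ -3 * q) ∧ Odd s := by
  have a1 := h.cu_ne h.n1
  have a2 := h.cu_ne h.n2
  have a3 := h.cu_ne h.n12'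
  have z1 := h.al_ZIrr h.P1
  have z2 := h.al_ZIrr h.P2
  have : ∃ a b, Dirr a ∧ Dirr b ∧ ⟪a, b⟫ = 0 ∧ ⟪a, 1⟫ = 0 ∧ ⟪b, 1⟫ = 0 ∧ h.al θ1 = 1 + a + b ∧
      proj (B0 2 G) b = b ∧ ⟪h.al θ2 - 1, b⟫ = 0 := by
    obtain ⟨a, b, ha, hb, ab, a0, b0, e, pa, pb⟩ := three z1 (by
      rw [h.al_al h.P1 h.P1 (h.ne_one a1) (h.ne_one a1)]; simp [a1]; norm_num) (h.al_one h.P1 (h.ne_one a1))
      fun g => h.al_odd _
    rcases two_split (sub_mem z2 (one_mem _)) (by rw [h.nrm_al h.P2 (h.ne_one a2), if_neg a2]; norm_num) ha hb (by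
      rw [show a + b = h.al θ1 - 1 by rw [e]; abel, dot_sub_left, dot_sub_right, dot_sub_right,
        ZIrr.dot_comm z2 z1, h.al_al h.P1 h.P2 (h.ne_one a1) (h.ne_one a2), h.al_one h.P1 (h.ne_one a1),
        ZIrr.dot_comm z2 (one_mem _), h.al_one h.P2 (h.ne_one a2), dot_one_one]
      simp [a3, h.n12]; norm_num) with k | k
    · exact ⟨a, b, ha, hb, ab, a0, b0, e, pb, k.2⟩
    · exact ⟨b, a, hb, ha, dot_comm_zero ab, b0, a0, by rw [e]; abel, pa, k.1⟩
  obtain ⟨a, b, ha, hb, ab, a0, b0, e, pb, k⟩ := this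
  have k2 : ⟪b, h.al θ2⟫ = 0 := by
    rw [dot_sub_left, dot_comm_zero b0, sub_zero] at k; exact dot_comm_zero k
  have k1 : ⟪b, h.al θ1⟫ = 1 := by rw [e, dot_add_right, dot_add_right, b0, dot_comm_zero ab, hb.dot_self]; simp
  obtain ⟨v, bt⟩ := h.detY hb pb k1 k2
  have at' : a t = -q := by
    have := h.al_t
    rw [e] at this
    simp only [Pi.add_apply, Pi.one_apply, bt] at this
    linear_combination this
  obtain ⟨d, hd⟩ := ZIrr.deg_int ha.mem_ZIrr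
  have b1 : b 1 = ((-d - 1 : ℤ) : ℂ) := by
    have := h.al_odd θ1 (g := 1) (by simp)
    rw [e] at this
    simp only [Pi.add_apply, Pi.one_apply, hd] at this
    push_cast; linear_combination this
  have d0 : d ≠ 0 := fun e => ha.deg_ne_zero (by rw [hd, e]; simp)
  have d1 : -d - 1 ≠ 0 := fun e => hb.deg_ne_zero (by rw [b1, e]; simp)
  have D1 := h.deg3 ha hd (e := -q) (by simpa using at')
  have D2 := h.deg3 hb b1 (e := 1 - q) (by simpa using bt)
  refine ⟨a, b, -d, ha, hb, ab, a0, b0, e, k2, fun θ P t1 => ?_, by simp [hd], at', ?_, by omega, ?_⟩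
  · have := h.al_al h.P1 P (h.ne_one a1) t1
    rw [e, dot_add_left, dot_add_left, h.al_one P t1] at this
    by_cases c1 : θ = θ1
    · rw [c1] at this ⊢; simp only [k1, a1, if_true, if_false] at this; linear_combination this
    by_cases c2 : θ = h.cu θ1
    · have k3 : ⟪b, h.al θ⟫ = 1 := by
        rw [c2, h.ndY hb.mem_ZIrr (θ := h.cu θ1) (h.P1.comp _), h.nd_u (ZIrr.mem_CF hb.mem_ZIrr),
          ← h.ndY hb.mem_ZIrr h.P1, k1]
      rw [k3, if_neg (Ne.symm c1), if_pos c2.symm] at this; linear_combination this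
    · rw [v θ P c1 c2, if_neg (Ne.symm c1), if_neg (Ne.symm c2)] at this; linear_combination this
  · have := h.Phi_three ha hb (e ▸ h.Phi_al)
    rw [hd, b1, at', bt] at this
    refine Int.cast_injective (α := ℂ) ?_
    push_cast at this ⊢
    linear_combination -this
  · obtain ⟨k, hk⟩ := h.qo
    obtain ⟨l, hl⟩ := D1.1
    exact ⟨-3 * k - 2 * l - 2, by omega⟩

theorem alpha : ∃ (ψ χ1 χ2 : G → ℂ) (s : ℤ), Dirr ψ ∧ Dirr χ1 ∧ Dirr χ2 ∧ ⟪ψ, 1⟫ = 0 ∧ ⟪χ1, 1⟫ = 0 ∧ ⟪χ2, 1⟫ = 0 ∧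
    ⟪ψ, χ1⟫ = 0 ∧ ⟪ψ, χ2⟫ = 0 ∧ ⟪χ1, χ2⟫ = 0 ∧ ψ 1 = s ∧ ψ t = q ∧ (q : ℤ) ≤ |s| ∧
    (C.index : ℤ) * (s - q) ^ 2 = q * (q + 1) ^ 2 * (q - 1) * s * (s - 1) ∧
    ∀ g, (Odd (orderOf g) ∨ (g ∈ T ∧ g ∉ Z ∧ t ∈ zpowers g)) → 1 + χ1 g - ψ g = 0 ∧ 1 + χ2 g - ψ g = 0 := by
  obtain ⟨a, b, s, ha, hb, ab, a0, b0, e, k, v, a1, at', A, bd, -⟩ := h.alpha0
  have a2 := h.cu_ne h.n2
  have z2 := h.al_ZIrr h.P2
  have k1 : ⟪h.al θ2 - 1, a⟫ = 1 := by
    rw [dot_sub_left, dot_comm_zero a0, ZIrr.dot_comm z2 ha.mem_ZIrr, v _ h.P2 (h.ne_one a2), sub_zero]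
  have hc := dirr_sub (sub_mem z2 (one_mem _)) (by rw [h.nrm_al h.P2 (h.ne_one a2), if_neg a2]) ha k1
  have val : ∀ θ g, (Odd (orderOf g) ∨ (g ∈ T ∧ g ∉ Z ∧ t ∈ zpowers g)) → h.al θ g = 0 := fun θ g hg =>
    hg.elim (h.al_odd θ) fun k => h.toCS.Ph_T h.td (fun _ _ => rfl) _ k.1 k.2.1 k.2.2
  refine ⟨-a, b, h.al θ2 - 1 - a, s, ha.neg, hb, hc, by simp [dot_neg_left, a0], b0, ?_, by simp [dot_neg_left, ab],
    ?_, ?_, by simp [a1], by simp [at'], ?_, A, fun g hg => ⟨?_, ?_⟩⟩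
  · rw [dot_sub_left, dot_sub_left, a0, ZIrr.dot_comm z2 (one_mem _), h.al_one h.P2 (h.ne_one a2), dot_one_one]; simp
  · rw [dot_neg_left, dot_sub_right, dot_sub_right, v _ h.P2 (h.ne_one a2), a0, ha.dot_self]; simp
  · rw [dot_sub_right, dot_sub_right, k, b0, dot_comm_zero ab]; simp
  · have := h.q3
    rcases bd with e | e
    · exact le_trans (by omega) (le_abs_self s)
    · exact le_trans (by omega) (neg_le_abs s)
  · have := val θ1 g hg
    rw [e] at this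
    simp only [Pi.add_apply, Pi.one_apply, Pi.neg_apply] at this ⊢
    linear_combination this
  · simp [val θ2 g hg]; ring

theorem beta : ∃ b : ℤ, (C.index : ℤ) * (b + q) ^ 2 = q * (q + 1) ^ 3 * b * (b - 1) ∧
    (3 * q ≤ b ∨ b ≤ -3 * q - 2) := by
  obtain ⟨a, b, s, ha, hb, ab, a0, b0, e, -, v, a1, -, -, -, so⟩ := h.alpha0
  have n1 := h.cu_ne h.n1
  have lY : Pr (h.sY lam) := h.lP.comp _
  have zb := h.be_ZIrr
  have : ∃ c d, Dirr c ∧ Dirr d ∧ ⟪c, d⟫ = 0 ∧ ⟪c, 1⟫ = 0 ∧ ⟪d, 1⟫ = 0 ∧ h.be = 1 + c + d ∧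
      proj (B0 2 G) c = c ∧ proj (B0 2 G) d = d ∧ ⟪h.al (h.sY lam) - 1, d⟫ = 1 := by
    obtain ⟨c, d, hc, hd, cd, c0, d0, e, pc, pd⟩ := three zb h.be_be h.be_one fun g => h.Ph_odd _ _
    have z := h.al_ZIrr lY
    rcases two_split (sub_mem z (one_mem _)) (by rw [h.nrm_al lY (h.sY1 h.lam1), if_pos (h.cu_sY _)]; norm_num) hc hd
      (by
      rw [show c + d = h.be - 1 by rw [e]; abel, dot_sub_left, dot_sub_right, dot_sub_right,
        ZIrr.dot_comm z zb, h.be_al lY (h.sY1 h.lam1), h.be_one,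
        ZIrr.dot_comm z (one_mem _), h.al_one lY (h.sY1 h.lam1), dot_one_one]
      simp) with k | k
    · exact ⟨d, c, hd, hc, dot_comm_zero cd, d0, c0, by rw [e]; abel, pd, pc, k.1⟩
    · exact ⟨c, d, hc, hd, cd, c0, d0, e, pc, pd, k.2⟩
  obtain ⟨c, d, hc, hd, cd, c0, d0, eb, pc, pd, k⟩ := this
  have zB := add_mem hc.mem_ZIrr hd.mem_ZIrr
  have nB : nrm (c + d) = 2 := by rw [nrm_add_of_orth cd, hc.nrm, hd.nrm]; norm_num
  have ab1 : a 1 + b 1 = -1 := by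
    have := h.al_odd θ1 (g := 1) (by simp)
    rw [e] at this
    simp only [Pi.add_apply, Pi.one_apply] at this
    linear_combination this
  have cd1 : c 1 + d 1 = -1 := by
    have : h.be 1 = 0 := h.Ph_odd _ _ (by simp)
    rw [eb] at this
    simp only [Pi.add_apply, Pi.one_apply] at this
    linear_combination this
  have dB : ∀ θ, Pr θ → θ ≠ 1 → h.sY lam ≠ θ → ⟪c, h.al θ⟫ + ⟪d, h.al θ⟫ = 0 := fun θ P t1 t2 => by
    have := h.be_al P t1
    rw [eb, dot_add_left, dot_add_left, h.al_one P t1, if_neg t2] at this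
    linear_combination this
  have Ba : ⟪c + d, a⟫ = 0 := by
    have := dB θ1 h.P1 (h.ne_one n1) (h.ne_sY n1 lam).1
    rw [← dot_add_left, e, dot_add_right, dot_add_right, dot_add_left c d 1, c0, d0] at this
    rcases ZIrr.dot_cases_of_nrm_lt_four zB (by rw [nB]; norm_num) ha with k | k | k
    · have := congrFun (eq_add_two zB nB ha.neg hb (by rw [dot_neg_right, k, neg_neg])
        (by rw [k] at this; linear_combination this) (by rw [dot_neg_left, ab, neg_zero])) 1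
      simp only [Pi.add_apply, Pi.neg_apply] at this
      exact absurd (by linear_combination (this + ab1 - cd1) / 2) ha.deg_ne_zero
    · exact k
    · have := congrFun (eq_add_two zB nB ha hb.neg k (by rw [k] at this; rw [dot_neg_right]; linear_combination -this)
        (by rw [dot_neg_right, ab, neg_zero])) 1
      simp only [Pi.add_apply, Pi.neg_apply] at this
      exact absurd (by linear_combination (this + ab1 - cd1) / 2) hb.deg_ne_zero
  have ac := orth_of hc ha (by rw [dot_add_left, hc.dot_self, dot_comm_zero cd, add_zero]) Ba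
  have ad := orth_of hd ha (by rw [dot_add_left, hd.dot_self, cd, zero_add]) Ba
  obtain ⟨m, hm⟩ := ZIrr.deg_int hd.mem_ZIrr
  have c1 : c 1 = ((-m - 1 : ℤ) : ℂ) := by push_cast; rw [← hm]; linear_combination cd1
  have dt := h.detB hc hd pc pd eb fun θ P t1 => by
    have z := h.al_ZIrr P
    have sw : ∀ y, Dirr y → ⟪y, 1⟫ = 0 → ⟪h.al θ - 1, y⟫ = ⟪y, h.al θ⟫ := fun y hy y0 => by
      rw [dot_sub_left, dot_comm_zero y0, ZIrr.dot_comm z hy.mem_ZIrr, sub_zero]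
    split_ifs with t2
    · rw [← sw d hd d0, ← t2, k]
    have k1 := dB θ P t1 t2
    have n3 : nrm (h.al θ - 1) ≤ 3 := by rw [h.nrm_al P t1]; split_ifs <;> norm_num
    have ka := (sw a ha a0).trans (v θ P t1)
    have o1 : (h.al θ - 1) 1 = -1 := by simp [h.al_odd θ (g := 1) (by simp)]
    obtain ⟨j, hj⟩ := so
    rcases ZIrr.dot_cases_of_nrm_lt_four (sub_mem z (one_mem _)) (n3.trans_lt (by norm_num)) hd with k | k | k
    · have := congrFun (eq_three n3 ha hc hd.neg ac (by rw [dot_neg_right, ad, neg_zero])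
        (by rw [dot_neg_right, cd, neg_zero]) ka (by rw [sw d hd d0] at k; rw [sw c hc c0]; linear_combination k1 - k)
        (by rw [dot_neg_right, k, neg_neg])) 1
      simp only [o1, Pi.add_apply, Pi.neg_apply, a1, c1, hm] at this
      have : (-1 : ℤ) = -s + (-m - 1) + -m := by exact_mod_cast this
      omega
    · rw [← sw d hd d0, k]
    · have := congrFun (eq_three n3 ha hc.neg hd (by rw [dot_neg_right, ac, neg_zero]) ad
        (by rw [dot_neg_left, cd, neg_zero]) ka (by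
          rw [sw d hd d0] at k; rw [dot_neg_right, sw c hc c0]; linear_combination k - k1) k) 1
      simp only [o1, Pi.add_apply, Pi.neg_apply, a1, c1, hm] at this
      have : (-1 : ℤ) = -s + -(-m - 1) + m := by exact_mod_cast this
      omega
  have ct : c t = q + 1 := by
    have := h.be_t
    rw [eb] at this
    simp only [Pi.add_apply, Pi.one_apply, dt] at this
    linear_combination this
  have m0 : m ≠ 0 := fun e => hd.deg_ne_zero (by rw [hm, e]; simp)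
  have m1 : -m - 1 ≠ 0 := fun e => hc.deg_ne_zero (by rw [c1, e]; simp)
  have D1 := h.deg3 hd hm (e := q) (by simpa using dt)
  have D2 := h.deg3 hc c1 (e := q + 1) (by simpa using ct)
  refine ⟨-m, ?_, by omega⟩
  have := h.Phi_three hc hd (eb ▸ h.Phi_be)
  rw [hm, c1, dt, ct] at this
  refine Int.cast_injective (α := ℂ) ?_
  push_cast at this ⊢
  linear_combination -this

theorem main : ∃ y z : ℤ, y ∣ q * (q ^ 2 - 1) ∧ z ∣ q * (q + 1) ^ 2 ∧ y + z = q + 1 ∧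
    (C.index : ℤ) = (q ^ 2 - 1 + y) * (q ^ 2 + q + y) ∧ -((q : ℤ) ^ 2 - 1) ≤ 4 * y ∧ 2 * y ≤ q * (q + 1) := by
  obtain ⟨-, -, s, -, -, -, -, -, -, -, -, -, -, A, bs, -⟩ := h.alpha0
  obtain ⟨b, B, bb⟩ := h.beta
  have q3 : (3 : ℤ) ≤ q := by exact_mod_cast h.q3
  generalize (q : ℤ) = q at *
  generalize (C.index : ℤ) = n at *
  have k0 : s - q ≠ 0 := by omega
  have l0 : b + q ≠ 0 := by omega
  obtain ⟨y, hy⟩ := int_root (M := q * (q ^ 2 - 1)) (c := (2 * q - 1) * (q + 1)) k0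
    ⟨n - q * (q + 1) ^ 2 * (q - 1), by linear_combination -A⟩
  obtain ⟨z, hz⟩ := int_root (M := q * (q + 1) ^ 2) (c := -(2 * q + 1) * (q + 1)) l0
    ⟨n - q * (q + 1) ^ 3, by linear_combination -B⟩
  have e1 : n = (q ^ 2 - 1 + y) * (q ^ 2 + q + y) := mul_right_cancel₀ (pow_ne_zero 2 k0) (by
    linear_combination A + ((2 * q - 1) * (q + 1) * (s - q) + q * (q ^ 2 - 1) + (s - q) * y) * hy)
  have e2 : n = (q ^ 2 - 1 + (q + 1 - z)) * (q ^ 2 + q + (q + 1 - z)) := mul_right_cancel₀ (pow_ne_zero 2 l0) (by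
    linear_combination B + (-(2 * q + 1) * (q + 1) * (b + q) + q * (q + 1) ^ 2 + (b + q) * z) * hz)
  have p1 : 0 < q ^ 2 - 1 := by nlinarith
  have p2 : 0 < q * (q ^ 2 - 1) := by positivity
  have y1 : -(q ^ 2 - 1) ≤ 4 * y := by
    by_contra k
    rcases bs with e | e
    · nlinarith [mul_pos (show 0 < s - q by omega) (show 0 < -y by omega)]
    · nlinarith [mul_le_mul (show 4 * q ≤ q - s by omega) (show q ^ 2 ≤ -(4 * y) by omega) (by positivity) (by omega)]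
  have y2 : 2 * y ≤ q * (q + 1) := by
    by_contra k
    have : 0 < q * (q + 1) := by positivity
    rcases bs with e | e
    · nlinarith [mul_le_mul (show 2 * (q - 1) ≤ s - q by omega) (show q * (q + 1) + 1 ≤ 2 * y by omega)
        (by positivity) (by omega)]
    · nlinarith [mul_pos (show 0 < q - s by omega) (show 0 < y by omega)]
  have z1 : 4 * z ≤ (q + 1) ^ 2 := by
    by_contra k
    have : 0 < (q + 1) ^ 2 := by positivity
    have : 0 < q * (q + 1) ^ 2 := by positivity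
    rcases bb with e | e
    · nlinarith [mul_le_mul (show 4 * q ≤ b + q by omega) (show (q + 1) ^ 2 + 1 ≤ 4 * z by omega)
        (by positivity) (by omega)]
    · nlinarith [mul_pos (show 0 < -(b + q) by omega) (show 0 < z by omega)]
  refine ⟨y, z, Dvd.intro_left _ hy.symm, Dvd.intro_left _ hz.symm, ?_, e1, y1, y2⟩
  have : (y - (q + 1 - z)) * (y + (q + 1 - z) + 2 * q ^ 2 + q - 1) = 0 := by linear_combination e2 - e1
  rcases mul_eq_zero.1 this with e | e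
  · linarith
  · nlinarith

end CS2

variable {F : Type v} [Field F] [Fintype F] {φ : GL (Fin 2) F →* G}

theorem BL.main (h : BL φ) : ∃ y z : ℤ, y ∣ (Fintype.card F : ℤ) * (Fintype.card F ^ 2 - 1) ∧
    z ∣ (Fintype.card F : ℤ) * (Fintype.card F + 1) ^ 2 ∧ y + z = Fintype.card F + 1 ∧
    (φ.range.index : ℤ) = (Fintype.card F ^ 2 - 1 + y) * (Fintype.card F ^ 2 + Fintype.card F + y) ∧
    -((Fintype.card F : ℤ) ^ 2 - 1) ≤ 4 * y ∧ 2 * y ≤ Fintype.card F * (Fintype.card F + 1) := by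
  obtain ⟨e, he⟩ := h.toBK.exists_ns
  obtain ⟨r, hr⟩ := h.exists_rho
  obtain ⟨lam, θ1, θ2, k⟩ := h.cs2 he hr
  exact k.main

theorem BL.noA [IsSimpleGroup G] (h : BL φ) : Zt φ ⊓ centralizer (centralizer {uu φ} : Subgroup G) = ⊥ := by
  rw [eq_bot_iff]
  rintro a ⟨aZ, au⟩
  by_contra a1
  set M : Subgroup G := centralizer {a}
  have CM : ∀ g, φ g ∈ M := fun g => mem_centralizer_singleton_iff.2 (BK.cen aZ ⟨g, rfl⟩).symm
  obtain ⟨r, hr⟩ := h.exists_rho
  have wu : r * wt φ * r⁻¹ ∈ M := mem_centralizer_singleton_iff.2 (au _ (mem_centralizer_singleton_iff.2 (by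
    rw [← hr.rt, ← conj_mul', ← conj_mul', tt_comm (c := wt φ) ⟨_, rfl⟩])))
  let ψ := φ.codRestrict M CM
  have kψ : ψ.ker = φ.ker := MonoidHom.ker_codRestrict _ _ _
  have hψ : BL ψ := ⟨⟨h.odd, kψ ▸ h.kerc, kψ ▸ h.kero⟩, by
    ext g
    rw [mem_centralizer_singleton_iff, Subtype.ext_iff]
    exact ⟨fun ⟨m, hm⟩ => h.mem_C.1 ⟨m, congrArg Subtype.val hm⟩, fun e => by
      obtain ⟨m, hm⟩ := h.mem_C.2 e
      exact ⟨m, Subtype.ext hm⟩⟩, isConj_iff.2 ⟨⟨_, CM (ww F)⟩ * ⟨_, wu⟩, Subtype.ext (by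
        show wt φ * (r * wt φ * r⁻¹) * tt φ * (wt φ * (r * wt φ * r⁻¹))⁻¹ = uu φ
        rw [← w_tu (φ := φ), ← hr.ru, ← w_tu (φ := φ)]
        conv_lhs => rw [← hr.rtu]
        group)⟩⟩
  obtain ⟨y, -, -, -, -, e, b0, b⟩ := h.main
  obtain ⟨y', -, -, -, -, e', b', -⟩ := hψ.main
  have i : ψ.range.index * M.index = φ.range.index := by
    rw [← relIndex_mul_index (H := φ.range) (K := M) (by rintro _ ⟨g, rfl⟩; exact CM g)]
    congr 2
    ext g
    exact ⟨fun ⟨m, hm⟩ => ⟨m, congrArg Subtype.val hm⟩, fun ⟨m, hm⟩ => ⟨m, Subtype.ext hm⟩⟩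
  have q3 := h.toBK.q3
  have nc : ¬ IsMulCommutative G := fun cm => by
    obtain ⟨g, hg⟩ := isConj_iff.1 h.fus
    rw [cm.is_comm.comm g, mul_inv_cancel_right] at hg
    exact h.toBK.uZ (hg ▸ tt_Zt)
  have M1 : M ≠ ⊤ := fun e => by
    rcases IsSimpleGroup.eq_bot_or_eq_top_of_normal (center G) inferInstance with k | k
    · exact a1 (k ▸ mem_center_iff.2 fun g => mem_centralizer_singleton_iff.1 (e ▸ mem_top g : g ∈ M))
    · exact nc ⟨⟨fun x y => mem_center_iff.1 (k ▸ mem_top y : y ∈ center G) x⟩⟩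
  have i4 : M.index ≤ 4 := by
    by_contra k
    have k5 : (5 : ℤ) ≤ M.index := by omega
    have i' : (ψ.range.index : ℤ) * M.index = φ.range.index := by exact_mod_cast i
    have q3' : (3 : ℤ) ≤ Fintype.card F := by exact_mod_cast q3
    generalize (Fintype.card F : ℤ) = q at *
    have f1 := mul_le_mul (show 2 * (q ^ 2 - 1 + y) ≤ 3 * q ^ 2 + q - 2 by linarith)
      (show 2 * (q ^ 2 + q + y) ≤ 3 * q ^ 2 + 3 * q by linarith) (by nlinarith) (by nlinarith)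
    have f2 := mul_le_mul (show 3 * q ^ 2 - 3 ≤ 4 * (q ^ 2 - 1 + y') by linarith)
      (show 3 * q ^ 2 + 4 * q + 1 ≤ 4 * (q ^ 2 + q + y') by linarith) (by nlinarith) (by nlinarith)
    have f3 := mul_le_mul_of_nonneg_left k5 (Int.natCast_nonneg ψ.range.index)
    have f4 : 0 < (q + 1) ^ 2 * (3 * q ^ 2 - 2 * q - 5) := mul_pos (by positivity) (by nlinarith)
    nlinarith
  have d := Nat.le_of_dvd (Nat.factorial_pos _) (two_mul_card_dvd_factorial nc M1)
  have := Nat.factorial_le i4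
  obtain ⟨e, he⟩ := h.toBK.exists_ns
  have k := (h.toBK.cs he).kC
  have := card_le_card_group φ.range
  have : 0 < Nat.card (Zt φ) := Nat.card_pos
  have : 8 ≤ Fintype.card F ^ 2 - 1 := by have : 9 ≤ Fintype.card F ^ 2 := by nlinarith
                                          omega
  have : 3 * 8 * 1 ≤ Nat.card φ.range := k ▸ Nat.mul_le_mul (Nat.mul_le_mul q3 this) ‹_›
  simp only [Nat.factorial] at *
  omega

end CA.Br
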