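import Cfsg.Agent.Br.Id1
import Cfsg.Agent.Br.Base2

/-!
# The hexagon of root groups gives `PSL₃(q)`
-/

set_option autoImplicit false
set_option linter.unusedSectionVars false

open Cfsg Subgroup

namespace CA.Br

universe u v

variable {F : Type v} [Field F] {G : Type u} [Group G]

theorem nm_aux {x y : F → MulAut G} {A B : Subgroup G} (cAB : ∀ a ∈ A, ∀ b ∈ B, a * b = b * a)
    (xA : ∀ s, ∀ a ∈ A, x s a = a) (xB : ∀ s, ∀ b ∈ B, x s b * b⁻¹ ∈ A) (yB : ∀ s, ∀ b ∈ B, y s b = b)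
    (yA : ∀ s, ∀ a ∈ A, y s a * a⁻¹ ∈ B) (fB : ∀ b ∈ B, (∀ s, x s b = b) → b = 1) {c d : F}
    (rel : ∀ s, ∃ s', x s * (x c * y d * x c) = x c * y d * x c * y s') {b : G} (hb : b ∈ B) :
    (x c * y d * x c) b = x c b * b⁻¹ := by
  have a1 := xB c b hb
  have b2 := mul_mem (yA d _ a1) hb
  have a2 := xB c _ b2
  have e : y d (x c b) = x c b * b⁻¹ * (y d (x c b * b⁻¹) * (x c b * b⁻¹)⁻¹ * b) := by
    rw [← mul_assoc, cAB _ a1 _ (yA d _ a1), inv_mul_cancel_right, map_mul, map_inv, yB d b hb, inv_mul_cancel_right]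
  generalize y d (x c b * b⁻¹) * (x c b * b⁻¹)⁻¹ * b = k at e b2 a2
  have e2 : (x c * y d * x c) b = x c b * b⁻¹ * (x c k * k⁻¹) * k := by
    rw [MulAut.mul_apply, MulAut.mul_apply, e, map_mul, xA c _ a1]; group
  have : k = 1 := fB k b2 fun s => by
    obtain ⟨s', hs⟩ := rel s
    have : x s ((x c * y d * x c) b) = (x c * y d * x c) (y s' b) := congrArg (fun f : MulAut G => f b) hs
    rwa [yB s' b hb, e2, map_mul, xA s _ (mul_mem a1 a2), mul_left_cancel_iff] at this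
  rw [e2, this]; simp

/-- `n(c)` -/
noncomputable def nG (c : F) : GL (Fin 2) F := xp c * xm (-c⁻¹) * xp c

theorem nG_val {c : F} (hc : c ≠ 0) : (nG c : Matrix (Fin 2) (Fin 2) F) = !![0, c; -c⁻¹, 0] := by
  ext i j; fin_cases i <;> fin_cases j <;> simp [nG, Matrix.mul_apply, Fin.sum_univ_two, hc]

theorem nG_eq {c : F} (hc : c ≠ 0) : nG c = xm (-c⁻¹) * xp c * xm (-c⁻¹) := by
  apply gl_ext <;> simp [nG_val hc, Matrix.mul_apply, Fin.sum_univ_two, hc]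

theorem xp_nG {c : F} (hc : c ≠ 0) (s : F) : xp s * nG c = nG c * xm (-(s * c⁻¹ * c⁻¹)) := by
  apply gl_ext <;> simp [nG_val hc, Matrix.mul_apply, Fin.sum_univ_two, hc]
  field_simp

theorem xm_nG {c : F} (hc : c ≠ 0) (s : F) : xm s * nG c = nG c * xp (-(s * c * c)) := by
  apply gl_ext <;> simp [nG_val hc, Matrix.mul_apply, Fin.sum_univ_two, hc]
  field_simp

theorem nG_sq : nG (1 : F) * nG 1 = dg (-1) (-1) := by
  apply gl_ext <;> simp [nG_val, Matrix.mul_apply, Fin.sum_univ_two]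

theorem nG_3 {a s : F} (ha : a ≠ 0) (hs : s ≠ 0) : nG a * (nG (-1) * nG s) = nG (a * s) := by
  apply gl_ext <;> simp [nG_val, Matrix.mul_apply, Fin.sum_univ_two, ha, hs, mul_comm]

theorem nG_2 {a s : F} (ha : a ≠ 0) (hs : s ≠ 0) : nG (-a⁻¹) * nG s = nG (-1) * nG (a * s) := by
  apply gl_ext <;> simp [nG_val, Matrix.mul_apply, Fin.sum_univ_two, ha, hs, mul_comm]

theorem dg_nG (d : Fˣ) {s : F} (hs : s ≠ 0) : dg d d⁻¹ * nG s = nG (d * s) := by
  apply gl_ext <;> simp [nG_val, Matrix.mul_apply, Fin.sum_univ_two, hs, mul_comm]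

/-- the natural module -/
theorem natMod (ρ : GL (Fin 2) F →* MulAut G) {A B : Subgroup G} (cAB : ∀ a ∈ A, ∀ b ∈ B, a * b = b * a)
    (xA : ∀ s, ∀ a ∈ A, ρ (xp s) a = a) (xB : ∀ s, ∀ b ∈ B, ρ (xp s) b * b⁻¹ ∈ A)
    (yB : ∀ s, ∀ b ∈ B, ρ (xm s) b = b) (yA : ∀ s, ∀ a ∈ A, ρ (xm s) a * a⁻¹ ∈ B)
    (tA : ∀ a ∈ A, ρ (dg (-1) (-1)) a = a → a = 1) (tB : ∀ a ∈ B, ρ (dg (-1) (-1)) a = a → a = 1)
    {b : G} (hb : b ∈ B) (b1 : b ≠ 1) :
    ∃ α β : F → G, (∀ s t, α (s + t) = α s * α t) ∧ (∀ s, α s ∈ A) ∧ (∀ s, β s ∈ B) ∧ (∀ s, α s = 1 → s = 0) ∧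
      (∀ s, β s = ρ (nG (-1)) (α s)) ∧ (∀ a s, ρ (xp a) (β s) = α (a * s) * β s) ∧
      (∀ a s, ρ (xm a) (α s) = β (a * s) * α s) ∧ ∀ (d : Fˣ) s, ρ (dg d d⁻¹) (α s) = α (d * s) := by
  have fx (k : G) (h1 : ∀ s, ρ (xp s) k = k) (h2 : ∀ s, ρ (xm s) k = k) : ρ (dg (-1) (-1)) k = k := by
    simp only [← nG_sq, nG, map_mul, MulAut.mul_apply, h1, h2]
  have N1 {c : F} (hc : c ≠ 0) {k : G} (hk : k ∈ B) : ρ (nG c) k = ρ (xp c) k * k⁻¹ := by
    rw [nG, map_mul, map_mul]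
    exact nm_aux (x := fun s => ρ (xp s)) (y := fun s => ρ (xm s)) cAB xA xB yB yA
      (fun k hk h => tB k hk (fx k h fun s => yB s k hk)) 
      (fun s => ⟨_, by simpa only [nG, map_mul] using congrArg ρ (xp_nG hc s)⟩) hk
  have N2 {c : F} (hc : c ≠ 0) {k : G} (hk : k ∈ A) : ρ (nG c) k = ρ (xm (-c⁻¹)) k * k⁻¹ := by
    rw [nG_eq hc, map_mul, map_mul]
    exact nm_aux (x := fun s => ρ (xm s)) (y := fun s => ρ (xp s)) (fun a ha b hb => (cAB b hb a ha).symm) yB yA xA xB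
      (fun k hk h => tA k hk (fx k (fun s => xA s k hk) h)) 
      (fun s => ⟨_, by simpa only [nG_eq hc, map_mul] using congrArg ρ (xm_nG hc s)⟩) hk
  have m1 : (-1 : F) ≠ 0 := by simp
  have hB (s : F) : ρ (nG (-1)) (ρ (xp s) b * b⁻¹) ∈ B := N2 m1 (xB s b hb) ▸ yA _ _ (xB s b hb)
  refine ⟨fun s => ρ (xp s) b * b⁻¹, fun s => ρ (nG (-1)) (ρ (xp s) b * b⁻¹), fun s t => ?_, fun s => xB s b hb, hB,
    fun s hs => by_contra fun h => b1 ?_, fun _ => rfl, fun a s => ?_, fun a s => ?_, fun d s => ?_⟩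
  · have := xA t _ (xB s b hb)
    rw [map_mul, map_inv, mul_inv_eq_iff_eq_mul] at this
    simp only [add_comm s t, ← xp_add, map_mul, MulAut.mul_apply, this, mul_assoc]
  · simpa only [← N1 h hb, EmbeddingLike.map_eq_one_iff] using hs
  · by_cases ha : a = 0
    · simp [ha, xp_zero]
    by_cases hs : s = 0
    · simp [hs, xp_zero]
    rw [← mul_inv_eq_iff_eq_mul, ← N1 ha (hB s)]
    simp only [← N1 hs hb, ← N1 (mul_ne_zero ha hs) hb, ← MulAut.mul_apply, ← map_mul, nG_3 ha hs]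
  · by_cases ha : a = 0
    · simp [ha, xp_zero, xm_zero]
    by_cases hs : s = 0
    · simp [hs, xp_zero]
    have := N2 (neg_ne_zero.2 (inv_ne_zero ha)) (xB s b hb)
    rw [inv_neg, inv_inv, neg_neg] at this
    rw [← mul_inv_eq_iff_eq_mul, ← this]
    simp only [← N1 hs hb, ← N1 (mul_ne_zero ha hs) hb, ← MulAut.mul_apply, ← map_mul, nG_2 ha hs]
  · by_cases hs : s = 0
    · simp [hs, xp_zero]
    simp only [← N1 hs hb, ← N1 (mul_ne_zero d.ne_zero hs) hb, ← MulAut.mul_apply, ← map_mul, dg_nG d hs]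

variable [Fintype F] {φ : GL (Fin 2) F →* G} {r : G} {X : Fin 3 → Fin 3 → Subgroup G}

theorem BK.xm_ne (h : BK φ) {a : F} (ha : a ≠ 0) : φ (xm a) ≠ 1 := fun e => h.xp_ne ha (by
  rwa [← ww_xp, ← cj, conj_eq_one_iff] at e)

theorem BK.fpf (h : BK φ) {i y : G} (hi : i = uu φ ∨ i = tt φ * uu φ) (hy : y ∈ Xp φ ∨ y ∈ Xm φ)
    (e : i * y * i⁻¹ = y) : y = 1 := by
  have k {c : F} (hc : -c = c) : c = 0 := (mul_eq_zero.1 (by linear_combination -hc : 2 * c = 0)).resolve_left h.two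
  have xmi {a b : F} (e : φ (xm a) = φ (xm b)) : a = b := by_contra fun n => h.xm_ne (sub_ne_zero.2 n) (by
    rw [sub_eq_add_neg, ← xm_add, map_mul, e, ← map_mul, xm_add, add_neg_cancel, xm_zero, map_one])
  rw [tu_eq, uu] at hi
  rcases hy with hy | hy
  · obtain ⟨c, rfl⟩ := mem_Xp.1 hy
    rcases hi with rfl | rfl <;> rw [cj, dg_xp] at e <;> rw [k (by simpa using h.xp_inj e : -c = c), xp_zero, map_one]
  · obtain ⟨c, rfl⟩ := mem_Xm.1 hy
    rcases hi with rfl | rfl <;> rw [cj, dg_xm] at e <;> rw [k (by simpa using xmi e : -c = c), xm_zero, map_one]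

theorem fpf_ac {H : Subgroup G} {i g : G} (h : ∀ y ∈ H, i * y * i⁻¹ = y → y = 1) :
    ∀ y ∈ ac g H, g * i * g⁻¹ * y * (g * i * g⁻¹)⁻¹ = y → y = 1 := by
  rintro _ ⟨y, hy, rfl⟩ e
  rw [h y hy ((MulAut.conj g).injective (by simpa [mul_assoc] using e)), map_one]

theorem card_ac (g : G) (H : Subgroup G) : Nat.card (ac g H) = Nat.card H :=
  card_map_of_injective (MulAut.conj g).injective

theorem surj_of [Finite G] {H : Subgroup G} (hH : Nat.card H = Fintype.card F) {α : F → G}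
    (h1 : ∀ s t, α (s + t) = α s * α t) (h2 : ∀ s, α s ∈ H) (h3 : ∀ s, α s = 1 → s = 0) {y : G} (hy : y ∈ H) :
    ∃ s, α s = y := by
  have i : Function.Injective fun s => (⟨α s, h2 s⟩ : H) := fun s t e => sub_eq_zero.1 (h3 _ (mul_right_cancel (b := α t)
    (by rw [← h1, sub_add_cancel, one_mul]; exact congrArg Subtype.val e)))
  obtain ⟨s, hs⟩ := ((Nat.bijective_iff_injective_and_card _).2 ⟨i, by rw [hH, Nat.card_eq_fintype_card]⟩).2 ⟨y, hy⟩
  exact ⟨s, congrArg Subtype.val hs⟩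

theorem comm_swap {a b c : G} (h : a * b * a⁻¹ = c * b) : b * a * b⁻¹ = c⁻¹ * a := by
  rw [eq_inv_mul_iff_mul_eq, ← mul_assoc, ← mul_assoc, ← h]; group

theorem Hex.st3 [Finite G] (hx : Hex φ r X) (h : BL φ) :
    ∃ x : Fin 3 → Fin 3 → F → G, St3 x ∧ x 0 2 (-(1 * 1)) ≠ 1 := by
  have hr := hx.toRho
  have e20 : ac r (Xp φ) = X 2 0 := hx.p12 ▸ hx.rX 1 2 (by decide)
  have e02 : ac r (Xm φ) = X 0 2 := hx.p21 ▸ hx.rX 2 1 (by decide)
  have e01 : ac r (X 2 0) = X 0 1 := hx.rX 2 0 (by decide)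
  have e10 : ac r (X 0 2) = X 1 0 := hx.rX 0 2 (by decide)
  have e12 : ac r (X 0 1) = Xp φ := hx.p12 ▸ hx.rX 0 1 (by decide)
  have f20 := fpf_ac (g := r) fun y hy => h.fpf (.inr rfl) (.inl hy)
  have f02 := fpf_ac (g := r) fun y hy => h.fpf (.inr rfl) (.inr hy)
  have f01 := fpf_ac (g := r) (fpf_ac (g := r) fun y hy => h.fpf (.inl rfl) (.inl hy))
  have f10 := fpf_ac (g := r) (fpf_ac (g := r) fun y hy => h.fpf (.inl rfl) (.inr hy))
  rw [hr.rtu, e20] at f20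
  rw [hr.rtu, e02] at f02
  rw [hr.ru, hr.rtu, e20, e01] at f01
  rw [hr.ru, hr.rtu, e02, e10] at f10
  have k20 : Nat.card (X 2 0) = Fintype.card F := by rw [← e20, card_ac, h.kX]
  have k01 : Nat.card (X 0 1) = Fintype.card F := by rw [← e01, card_ac, k20]
  have m12 (s : F) : φ (xp s) ∈ X 1 2 := hx.p12 ▸ mem_Xp.2 ⟨s, rfl⟩
  have m21 (s : F) : φ (xm s) ∈ X 2 1 := hx.p21 ▸ mem_Xm.2 ⟨s, rfl⟩
  have row {i j k} (a : i ≠ j) (b : i ≠ k) {y z : G} (hy : y ∈ X i j) (hz : z ∈ X i k) : y * z = z * y :=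
    (hx.row i j k a b hy z hz).symm
  have col {i j k} (a : i ≠ j) (b : k ≠ j) {y z : G} (hy : y ∈ X i j) (hz : z ∈ X k j) : y * z = z * y :=
    (hx.col i j k a b hy z hz).symm
  have com {i j k} (a : i ≠ j) (b : j ≠ k) (c : i ≠ k) {y z : G} (hy : y ∈ X i j) (hz : z ∈ X j k) :
      y * z * y⁻¹ * z⁻¹ ∈ X i k := hx.comm i j k a b c (commutator_mem_commutator hy hz)
  have com' {i j k} (a : i ≠ j) (b : j ≠ k) (c : i ≠ k) {y z : G} (hy : y ∈ X i j) (hz : z ∈ X j k) :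
      z * y * z⁻¹ * y⁻¹ ∈ X i k := by simpa [mul_assoc] using inv_mem (com a b c hy hz)
  have ne1 : r * φ (xp 1) * r⁻¹ ≠ 1 := by simpa using h.xp_ne one_ne_zero
  have b20 : r * φ (xp 1) * r⁻¹ ∈ X 2 0 := e20 ▸ mem_ac (mem_Xp.2 ⟨1, rfl⟩)
  obtain ⟨α, β, αa, αA, βB, αi, βn, xβ, yα, hα⟩ := natMod (MulAut.conj.comp φ) (A := X 1 0) (B := X 2 0)
    (fun _ ha _ hb => col (by decide) (by decide) ha hb)
    (fun s _ ha => mul_inv_eq_iff_eq_mul.2 (row (by decide) (by decide) (m12 s) ha))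
    (fun s _ ha => com (by decide) (by decide) (by decide) (m12 s) ha)
    (fun s _ ha => mul_inv_eq_iff_eq_mul.2 (row (by decide) (by decide) (m21 s) ha))
    (fun s _ ha => com (by decide) (by decide) (by decide) (m21 s) ha) f10 f20 b20 ne1
  obtain ⟨γ, δ, γa, γA, δB, γi, δn, xδ, yγ, hγ⟩ := natMod (MulAut.conj.comp φ) (A := X 0 2) (B := X 0 1)
    (fun _ ha _ hb => row (by decide) (by decide) ha hb)
    (fun s _ ha => mul_inv_eq_iff_eq_mul.2 (col (by decide) (by decide) (m12 s) ha))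
    (fun s _ ha => com' (by decide) (by decide) (by decide) ha (m12 s))
    (fun s _ ha => mul_inv_eq_iff_eq_mul.2 (col (by decide) (by decide) (m21 s) ha))
    (fun s _ ha => com' (by decide) (by decide) (by decide) ha (m21 s)) f02 f01 (e01 ▸ mem_ac (g := r) b20)
    (by simpa using ne1)
  have βa (s t : F) : β (s + t) = β s * β t := by rw [βn, βn, βn, αa, map_mul]
  have δa (s t : F) : δ (s + t) = δ s * δ t := by rw [δn, δn, δn, γa, map_mul]
  have zz {f : F → G} (hf : ∀ s t, f (s + t) = f s * f t) : f 0 = 1 :=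
    mul_left_cancel (a := f 0) (by rw [← hf, add_zero, mul_one])
  have ng {f : F → G} (hf : ∀ s t, f (s + t) = f s * f t) (s : F) : (f s)⁻¹ = f (-s) :=
    inv_eq_of_mul_eq_one_right (by rw [← hf, add_neg_cancel, zz hf])
  simp only [MonoidHom.comp_apply, MulAut.conj_apply] at xβ yα hα xδ yγ hγ
  obtain ⟨κ, κ0, hκ⟩ : ∃ κ : F, κ ≠ 0 ∧ ∀ a, γ 1 * α a * (γ 1)⁻¹ = φ (xp (a * κ)) * α a := by
    obtain ⟨_, hd, e⟩ := e02.ge (γA 1)
    obtain ⟨d, rfl⟩ := mem_Xm.1 hd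
    have d0 : d ≠ 0 := by rintro rfl; exact one_ne_zero (γi 1 (by rw [← e, xm_zero, map_one, map_one]))
    obtain ⟨σ, hσ⟩ := surj_of k20 βa βB (fun s hs => αi s (by simpa [βn] using hs))
      (e20 ▸ mem_ac (g := r) (mem_Xp.2 ⟨d⁻¹, rfl⟩))
    have σ0 : σ ≠ 0 := by
      rintro rfl; exact h.xp_ne (inv_ne_zero d0) (by simpa [zz βa] using hσ.symm)
    refine ⟨-σ⁻¹, by simpa using σ0, fun a => ?_⟩
    obtain ⟨y, hy, ey⟩ := e12.ge (mem_Xp.2 ⟨a * -σ⁻¹, rfl⟩)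
    obtain ⟨s, rfl⟩ := surj_of k01 δa δB (fun s hs => γi s (by simpa [δn] using hs)) hy
    have e1 := congrArg (MulAut.conj r) (xδ d⁻¹ s)
    have e2 := congrArg (MulAut.conj r) (yγ d (d⁻¹ * s))
    change MulAut.conj r _ = _ at e ey
    rw [map_mul, map_mul, map_mul, map_inv, ← hσ, ey, comm_swap (xβ _ _), mul_left_inj, ng αa] at e1
    rw [mul_inv_cancel_left₀ d0, map_mul, map_mul, map_mul, map_inv, e, ey, ← e1] at e2
    rwa [show -(a * -σ⁻¹ * σ) = a by field_simp] at e2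
  have c102 (a b : F) : α a * γ (-(κ⁻¹ * b)) * (α a)⁻¹ = φ (xp (a * b)) * γ (-(κ⁻¹ * b)) := by
    by_cases b0 : b = 0
    · simp [b0, zz γa, xp_zero]
    have d0 : -(κ⁻¹ * b) ≠ 0 := by simp [b0, κ0]
    have e := congrArg (MulAut.conj (φ (dg (Units.mk0 _ d0) (Units.mk0 _ d0)⁻¹))) (hκ ((-(κ⁻¹ * b))⁻¹ * a))
    rw [map_mul, map_mul, map_mul, map_inv] at e
    simp only [MulAut.conj_apply, hα, hγ, cj, dg_xp, Units.val_mk0, mul_one, mul_inv_cancel_left₀ d0] at e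
    rw [comm_swap e, ng (f := fun s => φ (xp s)) fun s t => by rw [← map_mul, xp_add]]
    congr 3
    simp only [Units.val_inv_eq_inv_val, Units.val_mk0, inv_inv]
    field_simp
  have nx (a : F) : nG (-1) * xp a * (nG (-1))⁻¹ = xm (-a) := by
    rw [mul_inv_eq_iff_eq_mul, xm_nG (by simp)]; simp
  let x : Fin 3 → Fin 3 → F → G := ![![1, fun s => δ (κ⁻¹ * s), fun s => γ (-(κ⁻¹ * s))],
    ![α, 1, fun s => φ (xp s)], ![β, fun s => φ (xm s), 1]]
  have mem {i j} (a : i ≠ j) (s : F) : x i j s ∈ X i j := by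
    fin_cases i <;> fin_cases j <;> first | exact absurd rfl a | skip
    exacts [δB _, γA _, αA _, m12 _, βB _, m21 _]
  refine ⟨x, ⟨fun {i j} a s t => ?_, fun a b s t => row a b (mem a s) (mem b t),
    fun a b s t => col a b (mem a s) (mem b t), fun {i j k} a b c s t => ?_⟩, fun e => ?_⟩
  · fin_cases i <;> fin_cases j <;> first | exact absurd rfl a | skip
    · exact (congrArg δ (mul_add κ⁻¹ s t)).trans (δa _ _)
    · exact (congrArg γ (by ring : -(κ⁻¹ * (s + t)) = -(κ⁻¹ * s) + -(κ⁻¹ * t))).trans (γa _ _)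
    · exact αa s t
    · exact (map_mul φ _ _ ▸ xp_add s t ▸ rfl : φ (xp (s + t)) = φ (xp s) * φ (xp t))
    · exact βa s t
    · exact (map_mul φ _ _ ▸ xm_add s t ▸ rfl : φ (xm (s + t)) = φ (xm s) * φ (xm t))
  · fin_cases i <;> fin_cases j <;> fin_cases k <;>
      first | exact absurd rfl a | exact absurd rfl b | exact absurd rfl c | skip
    · change δ _ * φ _ * (δ _)⁻¹ = γ _ * φ _
      rw [comm_swap (xδ _ _), ng γa]; congr 3; ring
    · change γ _ * φ _ * (γ _)⁻¹ = δ _ * φ _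
      rw [comm_swap (yγ _ _), ng δa]; congr 2; ring
    · exact c102 s t
    · exact xβ s t
    · have e := congrArg ((MulAut.conj.comp φ) (nG (-1))) (c102 s (-t))
      rw [map_mul, map_mul, map_mul, map_inv, ← βn, ← δn] at e
      simp only [MonoidHom.comp_apply, MulAut.conj_apply, cj, nx, mul_neg, neg_neg] at e
      exact e
    · exact yα s t
  · exact κ0 (by simpa using γi _ e)

theorem BL.psl3 [Finite G] [IsSimpleGroup G] (h : BL φ) (hx : Hex φ r X)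
    (hi : φ.range.index = Fintype.card F ^ 2 * (Fintype.card F ^ 2 + Fintype.card F + 1)) :
    Nonempty (G ≃* Matrix.ProjectiveSpecialLinearGroup (Fin 3) F) := by
  obtain ⟨x, hs, x1⟩ := hx.st3 h
  obtain ⟨e, he⟩ := h.exists_ns
  have kC := (h.cs he).kC
  have kG := φ.range.card_mul_index
  have kZ := Nat.le_of_dvd (by have := h.q3; omega) (Dvd.intro _ h.kZ)
  have kS := Cfsg.Agent.Lin.card_SL (F := F) rfl 3 (by simp)
  have q3 := h.q3
  refine hs.psl (fun k => x1 ?_) ?_ ?_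
  · have c : rowE x 0 ≤ centralizer {x 0 1 1} := (closure_le _).2 (by
      rintro _ ⟨j, s, a, rfl⟩
      exact mem_centralizer_singleton_iff.2 (hs.row a (by decide) _ _))
    have := mem_centralizer_singleton_iff.1 (c (k.ge (mem_rowE (show (1 : Fin 3) ≠ 2 by decide) 1)))
    have e := hs.c4 (i := 0) (j := 1) (k := 2) (by decide) (by decide) (by decide) 1 1
    rw [MulAut.conj_apply, this, mul_inv_cancel_right] at e
    exact mul_right_cancel (e.symm.trans (one_mul _).symm)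
  · rw [← kG, kC, hi]
    obtain ⟨p, hp⟩ : ∃ p, Fintype.card F = p + 1 := ⟨Fintype.card F - 1, by omega⟩
    rw [hp] at kS kZ q3 ⊢
    simp only [Fin.prod_univ_three, Fin.val_zero, Fin.val_one, Fin.val_two, Nat.add_sub_cancel] at kS kZ
    have a1 : (p + 1) ^ 3 - (p + 1) ^ 0 = p * ((p + 1) ^ 2 + (p + 1) + 1) := Nat.sub_eq_of_eq_add (by ring)
    have a2 : (p + 1) ^ 3 - (p + 1) ^ 1 = (p + 1) * (p * (p + 2)) := Nat.sub_eq_of_eq_add (by ring)
    have a3 : (p + 1) ^ 3 - (p + 1) ^ 2 = (p + 1) ^ 2 * p := Nat.sub_eq_of_eq_add (by ring)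
    have a4 : (p + 1) ^ 2 - 1 = p * (p + 2) := Nat.sub_eq_of_eq_add (by ring)
    rw [a1, a2, a3, mul_assoc, mul_assoc] at kS
    rw [Nat.eq_of_mul_eq_mul_left (by omega) kS, a4]
    calc _ ≤ (p + 1) * (p * (p + 2)) * p * ((p + 1) ^ 2 * ((p + 1) ^ 2 + (p + 1) + 1)) := by gcongr
      _ = _ := by ring
  · refine lt_of_lt_of_le ?_ (Nat.le_of_dvd Nat.card_pos φ.range.index_dvd_card)
    rw [hi]; nlinarith

theorem realizeEqns_Br_Id2 : True := by
  have := @CA.Br.nG.eq_1.{0}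
  have := @CA.Br.nG.eq_def.{0}
  have := @CA.Br.nG.congr_simp.{0}
  trivial

end CA.Br
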