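import Cfsg.Agent.Br.PL4
import Cfsg.Agent.Br.Ch9
import Cfsg.Agent.Br.Id2
import Cfsg.Prelude.Def_Sporadic

/-!
# Brauer's theorem modulo the case `Z = ⟨t⟩`, `q ≥ 11`
-/

set_option autoImplicit false
set_option linter.unusedSectionVars false

open Cfsg Subgroup CA.Dih CA.FG CA.BG CA.GW CA.GW.BA

namespace CA.Br

universe u v

variable {G : Type u} [Group G] [Finite G] {F : Type v} [Field F] [Fintype F] {φ : GL (Fin 2) F →* G}

theorem BL.fin [IsSimpleGroup G] (h : BL φ)
    (iv : Zt φ = zpowers (tt φ) → 11 ≤ Fintype.card F → Fintype.card F ≠ 31 → False) :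
    Nonempty (G ≃* Matrix.ProjectiveSpecialLinearGroup (Fin 3) F) ∨ IsM11 G := by
  have := Fintype.ofFinite G
  have k := h.toBK
  obtain ⟨r, hr⟩ := h.exists_rho
  obtain ⟨y, z, hy, hz, e, hn, -⟩ := h.main
  obtain ⟨p, _⟩ := CharP.exists F
  obtain ⟨n, hp, hq⟩ := FiniteField.card F p
  have kt : Nat.card (zpowers (tt φ)) = 2 := by rw [Nat.card_zpowers, k.four.it.ord]
  rcases arith hp hq k.odd k.q3 hy hz e hn h.oddC fun l hl l2 d => (by
    by_cases hZ : Zt φ = zpowers (tt φ)
    · obtain ⟨a, ha⟩ := k.kero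
      have := k.kZ
      have q3 := k.q3
      rw [hZ, kt, ha] at this
      have : Fintype.card F + 1 ∣ 2 ^ 5 := by
        by_contra ne
        refine iv hZ (by_contra fun lt => ne ?_) fun e => ne (by rw [e]; decide)
        obtain e | e : Fintype.card F = 3 ∨ Fintype.card F = 7 := by omega
        all_goals rw [e]; decide
      exact (l2 ((Nat.prime_dvd_prime_iff_eq hl Nat.prime_two).1 (hl.dvd_of_dvd_pow (d.trans this)))).elim
    · exact h.gcd h.noA hZ hl l2 d) with rfl | rfl
  · have : φ.range.index = Fintype.card F ^ 2 * (Fintype.card F ^ 2 + Fintype.card F + 1) := by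
      zify; rw [hn]; ring
    obtain ⟨X, hx⟩ := h.hex hr this
    exact .inl (h.psl3 hx this)
  · have q3 := h.m11 hn
    obtain ⟨_, he⟩ := k.exists_ns
    have c := (k.cs he).kC
    have z := k.kZ
    have d := card_dvd_of_le (zpowers_le.2 (tt_Zt (φ := φ)))
    rw [q3] at hn c z
    rw [kt] at d
    have : Nat.card (Zt φ) = 2 := Nat.dvd_antisymm (Dvd.intro _ z) d
    refine .inr ⟨‹_›, ?_⟩
    rw [← index_mul_card φ.range, c, this, show φ.range.index = 165 by omega]
    norm_num

end CA.Br
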