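import Cfsg.Agent.Br.W2
import Cfsg.Agent.Br.Ch9

/-!
# The case `Z(C(t)) = ⟨t⟩`: the character theoretic contradiction
-/

set_option autoImplicit false
set_option linter.unusedSectionVars false

open Cfsg Subgroup CA.Chr CA.Dih CA.FG CA.BG CA.GW CA.GW.BA Finset
open scoped ComplexConjugate Classical

namespace CA.Br

universe u v

variable {G : Type u} [Group G] [Fintype G]

theorem ind_two {W : Subgroup G} {w : G} (w2 : w * w = 1) (wW : w ∉ W) (wn : ∀ g ∈ W, w * g * w⁻¹ ∈ W)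
    {α : W → ℂ} (hα : α ∈ CF W) (ti : ∀ y, α y ≠ 0 → ∀ g : G, g * y * g⁻¹ ∈ W → g ∈ W ∨ g * w ∈ W) (x : W) :
    ind W.subtype α x = α x + α ⟨_, wn _ x.2⟩ := by
  rw [ind_apply_inj W.subtype_injective]
  have : ∀ g : G, Function.extend W.subtype α 0 (g⁻¹ * x * g) =
      (if g ∈ W then α x else 0) + if g * w ∈ W then α ⟨_, wn _ x.2⟩ else 0 := fun g => by
    by_cases hg : g ∈ W
    · rw [if_pos hg, if_neg fun e => wW ((mul_mem_cancel_left hg).1 e), add_zero, ← CF_conj' hα x ⟨g, hg⟩]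
      exact W.subtype_injective.extend_apply _ _ (⟨g, hg⟩⁻¹ * x * ⟨g, hg⟩)
    by_cases hg' : g * w ∈ W
    · have h1 : w * g ∈ W := by simpa [mul_assoc] using wn _ hg'
      rw [if_neg hg, if_pos hg', zero_add, ← CF_conj' hα ⟨_, wn _ x.2⟩ ⟨_, h1⟩,
        show g⁻¹ * x * g = (w * g)⁻¹ * (w * x * w⁻¹) * (w * g) by group]
      exact W.subtype_injective.extend_apply _ _ (⟨_, h1⟩⁻¹ * ⟨_, wn _ x.2⟩ * ⟨_, h1⟩)
    · rw [if_neg hg, if_neg hg', add_zero]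
      by_cases h1 : g⁻¹ * x * g ∈ W
      · refine (exf_mem α h1).trans (by_contra fun e => (ti _ e g ?_).elim hg hg')
        simp [mul_assoc]
      · exact exf_not α h1
  rw [sum_congr rfl fun g _ => this g, sum_add_distrib, ← Equiv.sum_comp (Equiv.mulRight w⁻¹) fun g =>
    if g * w ∈ W then α ⟨_, wn _ x.2⟩ else 0]
  simp only [Equiv.coe_mulRight, inv_mul_cancel_right]
  rw [← sum_filter, ← sum_filter, sum_const, sum_const, BSW.card_filter_K, nsmul_eq_mul, nsmul_eq_mul, ← mul_add,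
    inv_mul_cancel_left₀ card_ne_zero]

theorem Phi_ind' (W : Subgroup G) (α : W → ℂ) :
    Phi (ind W.subtype α) * Nat.card W = Nat.card G * ∑ y : W, α y * rr (y : G) := by
  have r : (fun x : G => (rr x : ℂ)) ∈ CF G := mem_CF.2 fun x g => by simp only [rr_conj]
  have e1 := frob_rec W.subtype α r
  rw [dot_def, dot_def] at e1
  simp only [map_natCast, Function.comp, coe_subtype] at e1
  rw [Phi, sum_pairs, sum_congr rfl fun x _ => mul_comm _ _]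
  have := card_ne_zero (G := W)
  have := card_ne_zero (G := G)
  field_simp at e1
  linear_combination e1

theorem WS.theta {T H : Subgroup G} {t u w r y : G} (h : WS T H t u w r) (hy : y ∈ H)
    (y1 : y ^ H.relIndex 𝒞(H) ≠ 1) {ψ χ1 χ2 : G → ℂ} {s : ℤ} (dψ : Dirr ψ) (d1 : Dirr χ1) (d2 : Dirr χ2)
    (o0 : ⟪ψ, 1⟫ = 0) (o1 : ⟪χ1, 1⟫ = 0) (o2 : ⟪χ2, 1⟫ = 0) (o3 : ⟪χ1, χ2⟫ = 0) (hs : ψ 1 = s)
    (van : ∀ g, (Odd (orderOf g) ∨ (g ∈ T ∧ g ∉ zpowers t ∧ t ∈ zpowers g)) →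
      1 + χ1 g - ψ g = 0 ∧ 1 + χ2 g - ψ g = 0) :
    ∃ (c : G → ℂ) (j : ℕ), Dirr c ∧ c 1 = -1 - ψ 1 ∧ c t = -1 - ψ t ∧
      Phi (1 + ψ + c) * Nat.card 𝒞(H) = Nat.card G * j ^ 2 ∧ (𝒞[w]).relIndex 𝒞(H) ≤ j := by
  have y0 : y ≠ 1 := fun e => y1 (by rw [e, one_pow])
  set W := 𝒞(H) with hW
  set e := H.relIndex W with he
  have HW : H ≤ W := h.HT.trans h.TH
  have cH : IsMulCommutative H := abelian_iff_le_cent.2 HW
  have key : ∀ (g : W) (k : ℕ) (g₀ : W), g₀⁻¹ * g ^ k * g₀ ∈ H.subgroupOf W → g₀⁻¹ * g ^ k * g₀ = g ^ k :=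
    fun g k g₀ c => by
      have : (g₀⁻¹ * g ^ k * g₀) * g₀ = g₀ * (g₀⁻¹ * g ^ k * g₀) := Subtype.ext (mem_centralizer_iff.1 g₀.2 _ c)
      exact mul_right_cancel (this.trans (by group))
  have hp : ∀ g : W, (g : G) ^ e ∈ H := fun g => MonoidHom.transfer_eq_pow_aux g (key g)
  obtain ⟨μ, hμ⟩ := exists_lin_ne_one (g := (⟨y ^ e, pow_mem hy e⟩ : H)) fun c => y1 (congrArg Subtype.val c)
  let ν : W →* ℂˣ := MonoidHom.transfer (μ.comp (subgroupOfEquivOfLe HW).toMonoidHom)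
  have hν : ∀ g : W, ν g = μ ⟨g ^ e, hp g⟩ := fun g => MonoidHom.transfer_eq_pow _ g (key g)
  have wW : w ∉ W := fun c => h.wc hy y0 (cent_le_cent_singleton hy c)
  have wn : ∀ g ∈ W, w * g * w⁻¹ ∈ W := fun g hg => by
    rw [hW, ← h.cent hy y0] at hg ⊢; exact h.Nc hy (h.wN hy) hg
  have νw : ∀ g : W, ν ⟨_, wn _ g.2⟩ = (ν g)⁻¹ := fun g => by
    rw [hν, hν, ← map_inv]; congr 1; exact Subtype.ext (conj_pow.trans (h.wH _ (hp g)))
  have n1 : ∀ g : W, (1 - lin ν) g ≠ 0 → (g : G) ^ e ≠ 1 := fun g c e => c (by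
    rw [Pi.sub_apply, lin_apply, hν, show (⟨_, hp g⟩ : H) = 1 from Subtype.ext e]; simp)
  have ti : ∀ g : W, (1 - lin ν) g ≠ 0 → ∀ x : G, x * g * x⁻¹ ∈ W → x ∈ W ∨ x * w ∈ W := fun g c x hx =>
    h.tiH (hp g) (n1 g c) (by rw [← conj_pow]; exact hp ⟨_, hx⟩)
  have zα : (1 - lin ν : W → ℂ) ∈ ZIrr W := sub_mem (one_mem _) (lin_mem_ZIrr ν)
  set θ := ind W.subtype (1 - lin ν) with hθ
  have zθ : θ ∈ ZIrr G := ZIrr.ind zα _
  have res : θ ∘ W.subtype = 1 + 1 - lin ν - lin ν⁻¹ := funext fun g => by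
    rw [Function.comp_apply, coe_subtype, hθ, ind_two h.w2 wW wn (ZIrr.mem_CF zα) ti]
    simp only [Pi.sub_apply, Pi.add_apply, Pi.one_apply, lin_apply, νw, MonoidHom.inv_apply]; ring
  have ν1 : ν ⟨y, HW hy⟩ ≠ 1 := by rwa [hν]
  have ν2 : ν⁻¹ ≠ ν := fun c => ν1 (by
    have c1 : ν ⟨y, HW hy⟩ ^ 2 = 1 := by rw [pow_two]; nth_rw 1 [← c]; simp
    have c2 : ν ⟨y, HW hy⟩ ^ Nat.card H = 1 := by
      rw [← map_pow, show (⟨y, HW hy⟩ : W) ^ Nat.card H = 1 from Subtype.ext (pow_card_eq_one_of_mem hy), map_one]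
    have := pow_gcd_eq_one.2 ⟨c1, c2⟩
    rwa [show Nat.gcd 2 (Nat.card H) = 1 from ((piNat_compl_singleton_iff_coprime Nat.prime_two).1 h.oH).symm,
      pow_one] at this)
  have ν3 : ν ≠ 1 := fun c => ν1 (by rw [c]; rfl)
  have t1 : ⟪θ, 1⟫ = 1 := by
    rw [hθ, dot_ind_one, dot_sub_left, ← lin_one, dot_lin, dot_lin]; simp [ν3]
  have t3 : ⟪θ, θ⟫ = 3 := by
    nth_rw 2 [hθ]
    rw [frob_rec' _ _ (ZIrr.mem_CF zθ), res, ← lin_one]
    simp only [dot_sub_left, dot_sub_right, dot_add_left, dot_lin]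
    simp [ν3, ν3.symm, ν2]; norm_num
  have zA : θ - 1 ∈ ZIrr G := sub_mem zθ (one_mem _)
  have nA : nrm (θ - 1) = 2 := by
    rw [nrm_sub_one (n := 3) (by simpa using t3) (by rw [ZIrr.dot_comm (one_mem _) zθ, t1])]; norm_num
  have i1 : ∀ g : W, (g : G) * g = 1 → (g : G) ^ e = 1 := fun g c => eq_one_of_odd h.oH (hp g) (by
    rw [← (Commute.refl _).mul_pow, c, one_pow])
  have vn : ∀ g : W, (1 - lin ν) g ≠ 0 → ∃ d : G, 1 + χ1 (d * g * d⁻¹) - ψ (d * g * d⁻¹) = 0 ∧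
      1 + χ2 (d * g * d⁻¹) - ψ (d * g * d⁻¹) = 0 := fun g c => by
    by_cases o : Odd (orderOf (g : G))
    · exact ⟨1, van _ (Or.inl (by simpa using o))⟩
    obtain ⟨i, hi, i2, i0⟩ := exists_inv_of_even o
    obtain ⟨d, hd, e⟩ := h.inv_cj hy y0 (zpowers_le.2 g.2 hi) ⟨i2, i0⟩
    have m : t ∈ zpowers (d * g * d⁻¹) := e ▸ mem_zpowers_conj' hi
    have m' : d * g * d⁻¹ ∈ W := mul_mem (mul_mem hd g.2) (inv_mem hd)
    refine ⟨d, van _ (Or.inr ⟨h.cty hy y0 (cent_le_cent_singleton hy m')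
      (cent_singleton_le_of_mem_zpowers m (mem_c1.2 rfl)), fun k => n1 g c ?_, m⟩)⟩
    have := i1 ⟨_, m'⟩ (by rcases (mem_zpowers_inv h.f.it.1).1 k with k | k <;> simp [k, h.f.it.1])
    simpa using this
  have or : ∀ χ : G → ℂ, Dirr χ → ⟪χ, 1⟫ = 0 → (∀ g : W, (1 - lin ν) g ≠ 0 → 1 + χ g - ψ g = 0) →
      ⟪θ - 1, ψ + -χ⟫ = 1 := fun χ dχ o k => by
    have : ⟪θ, 1 + χ - ψ⟫ = 0 := by
      rw [hθ, frob_rec _ _ (ZIrr.mem_CF (sub_mem (add_mem (one_mem _) dχ.mem_ZIrr) dψ.mem_ZIrr))]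
      exact dot_eq_zero_of_disjoint fun g => or_iff_not_imp_left.2 (k g)
    rw [dot_sub_right, dot_add_right, t1] at this
    rw [dot_sub_left, dot_add_right, dot_add_right, dot_neg_right, dot_neg_right, dot_comm_zero o, dot_comm_zero o0]
    linear_combination -this
  have or1 := or χ1 d1 o1 fun g c => by
    obtain ⟨d, k, -⟩ := vn g c
    rwa [CF_conj (ZIrr.mem_CF d1.mem_ZIrr), CF_conj (ZIrr.mem_CF dψ.mem_ZIrr)] at k
  have or2 := or χ2 d2 o2 fun g c => by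
    obtain ⟨d, -, k⟩ := vn g c
    rwa [CF_conj (ZIrr.mem_CF d2.mem_ZIrr), CF_conj (ZIrr.mem_CF dψ.mem_ZIrr)] at k
  have val : ∀ g : W, (g : G) * g = 1 → θ g = 0 := fun g c => by
    have := congrFun res g
    have k : ν g = 1 := by rw [hν, show (⟨_, hp g⟩ : H) = 1 from Subtype.ext (i1 g c), map_one]
    simpa [k] using this
  have θ1 : θ 1 = 0 := val 1 (mul_one 1)
  have θt : θ t = 0 := val ⟨t, h.TH h.tT⟩ h.f.it.1
  have aψ : ⟪θ - 1, ψ⟫ = 1 := by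
    by_contra c
    have a1 := ((two_split zA (by rw [nA]; norm_num) dψ d1.neg or1).resolve_left fun k => c k.1).2
    have a2 := ((two_split zA (by rw [nA]; norm_num) dψ d2.neg or2).resolve_left fun k => c k.1).2
    have := congrFun (eq_add_two zA nA d1.neg d2.neg a1 a2 (by rw [dot_neg_left, dot_neg_right, o3]; simp)) 1
    obtain ⟨k1, k2⟩ := van 1 (Or.inl (by simp))
    simp only [Pi.sub_apply, Pi.add_apply, Pi.neg_apply, Pi.one_apply, θ1] at this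
    have : ((2 * s : ℤ) : ℂ) = (3 : ℤ) := by push_cast; linear_combination this - k1 - k2 - 2 * hs
    have := Int.cast_injective this
    omega
  let J := (invs G).filter fun a => a * w ∈ W
  have mJ : ∀ a, a ∈ J ↔ a * a = 1 ∧ a * w ∈ W := fun a => by
    rw [mem_filter, mem_invs]
    exact ⟨fun k => ⟨k.1.1, k.2⟩, fun k => ⟨⟨k.1, fun c => wW (by simpa [c] using k.2)⟩, k.2⟩⟩
  have Jm : ∀ a ∈ J, ∀ b ∈ J, a * b ∈ W := fun a ha b hb => by
    have := mul_mem ((mJ a).1 ha).2 (wn _ ((mJ b).1 hb).2)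
    rwa [show a * w * (w * (b * w) * w⁻¹) = a * (w * w) * b by group, h.w2, mul_one] at this
  have iy : ∀ b, b * w ∈ W → b * y = y⁻¹ * b := fun b c => by
    have := mem_centralizer_iff.1 c _ (inv_mem hy)
    calc _ = b * (w * w) * y := by rw [h.w2, mul_one]
      _ = b * w * (w * y * w⁻¹) * w := by group
      _ = y⁻¹ * b * (w * w) := by rw [h.wH y hy, ← this]; group
      _ = _ := by rw [h.w2, mul_one]
  have Jy : ∀ b, y⁻¹ * b ∈ J ↔ b ∈ J := fun b => by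
    have k : b * w ∈ W → y⁻¹ * b * (y⁻¹ * b) = b * b := fun c => by
      nth_rw 1 [← iy b c]; group
    rw [mJ, mJ, mul_assoc y⁻¹ b w, mul_mem_cancel_left (inv_mem (HW hy))]
    exact and_congr_left fun c => by rw [k c]
  have sm : ∑ g : W, (1 - lin ν) g * rr (g : G) = J.card ^ 2 := by
    have : ∀ g : W, (1 - lin ν) g * rr (g : G) = ∑ a ∈ J, if a * g ∈ J then (1 - lin ν) g else 0 := fun g => by
      by_cases h0 : (1 - lin ν) g = 0
      · simp [h0]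
      rw [← sum_filter, sum_const, nsmul_eq_mul, mul_comm, rr]
      congr 3
      ext a
      simp only [J, mem_filter]
      refine ⟨fun ⟨h2, h3⟩ => ?_, fun e => ⟨e.1.1, e.2.1⟩⟩
      have h4 := inv_of_mem_invs h2 h3
      have h5 : a * w ∈ W := (ti g h0 a (by rw [h4]; exact inv_mem g.2)).resolve_left fun c => n1 g h0
        (eq_one_of_inv (h.oH.piElt (hp g)) (by
          rw [← inv_pow, ← h4, conj_pow, conj_eq_iff.2 (cent_le_cent_singleton (hp g) c)]))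
      refine ⟨⟨h2, h5⟩, h3, ?_⟩
      rw [show a * g * w = a * w * (w * g * w⁻¹) by rw [h.wi, ← mul_assoc, ← mul_assoc, mul_assoc a w w, h.w2, mul_one]]
      exact mul_mem h5 (wn _ g.2)
    rw [sum_congr rfl fun g _ => this g, sum_comm, pow_two, ← nsmul_eq_mul, ← sum_const]
    refine sum_congr rfl fun a ha => ?_
    have a2 := ((mJ a).1 ha).1
    have s1 : ∑ g : W, (if a * g ∈ J then (ν g : ℂ) else 0) = 0 :=
      sum_shift _ ⟨y, HW hy⟩ (ν ⟨y, HW hy⟩) (fun c => ν1 (Units.ext c)) fun g => by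
        have : a * (y * g) = y⁻¹ * (a * g) := by rw [← mul_assoc, iy a ((mJ a).1 ha).2, mul_assoc]
        simp only [Subgroup.coe_mul, this, Jy, map_mul, Units.val_mul, mul_ite, mul_zero]
    have s2 : ∑ g : W, (if a * g ∈ J then (1 : ℂ) else 0) = J.card := by
      rw [← sum_filter, sum_const, nsmul_eq_mul, mul_one]
      congr 1
      refine card_bij (fun g _ => a * g) (fun g hg => (mem_filter.1 hg).2) (fun x _ y _ e => by simpa using e)
        fun b hb => ⟨⟨a * b, Jm a ha b hb⟩, ?_, ?_⟩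
      · simpa [← mul_assoc, a2] using hb
      · simp [← mul_assoc, a2]
    rw [← sub_zero (J.card : ℂ), ← s2, ← s1, ← sum_sub_distrib]
    exact sum_congr rfl fun g _ => by split_ifs <;> simp
  refine ⟨θ - 1 - ψ, J.card, dirr_sub zA nA dψ aψ, by simp [θ1], by simp [θt], ?_, ?_⟩
  · rw [show 1 + ψ + (θ - 1 - ψ) = θ by ring, hθ, Phi_ind', sm]
  · rw [← ncard_conj, ← Set.ncard_coe_finset]
    refine Set.ncard_le_ncard ?_
    rintro _ ⟨g, hg, rfl⟩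
    refine mem_coe.2 ((mJ _).2 ⟨by rw [← conj_mul', h.w2]; simp, ?_⟩)
    rw [show g * w * g⁻¹ * w = g * (w * g⁻¹ * w⁻¹) by rw [h.wi]; group]
    exact mul_mem hg (wn _ (inv_mem hg))

namespace CS2

variable {q : ℕ} {C Z T Y U X H Y1 : Subgroup G} {t w u x r : G} {lam : C →* ℂˣ} {θ1 θ2 : Y →* ℂˣ}
  (h : CS2 q C Z T Y U X H Y1 t w u x r lam θ1 θ2) (hZ : Z = zpowers t)
include h hZ

theorem memZ {z : G} : z ∈ Z ↔ z = 1 ∨ z = t := hZ ▸ mem_zpowers_inv h.t2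

theorem kZ : Nat.card Z = 2 := by rw [hZ, Nat.card_zpowers, IsInv.ord ⟨h.t2, h.t1⟩]

theorem ws (wu : w * u * w⁻¹ = t * u) : WS T (OO T) t u w r := by
  have f : Four t u := ⟨⟨h.t2, h.t1⟩, ⟨h.u2, h.u1⟩, h.ut.symm, h.tu⟩
  have hall : IsPiHallOf {2}ᶜ (OO T) T := nilpotent_pcore_Hall _ (nil_of_abelian h.cT)
  have mo : ∀ g ∈ T, Odd (orderOf g) → g ∈ OO T := fun g hg o => hall.mem_of_normal (pcore_norm _ _)
    ((piNat_compl_singleton_iff Nat.prime_two).2 o.not_two_dvd_nat) hg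
  have cj : ∀ c, (∀ g ∈ T, c * g * c⁻¹ ∈ T) → ∀ g ∈ OO T, c * g * c⁻¹ ∈ OO T := fun c hc g hg =>
    hall.mem_of_normal (pcore_norm _ _) ((hall.piGrp.piElt hg).conj c) (hc g (hall.le hg))
  have oz : ∀ g ∈ OO T, g ∈ Z → g = 1 := fun g hg hz => eq_one_of_odd hall.piGrp hg (by
    rcases (h.memZ hZ).1 hz with e | e <;> simp [e, h.t2])
  have wH : ∀ y ∈ OO T, w * y * w⁻¹ = y⁻¹ := fun y hy =>
    eq_inv_of_mul_eq_one_right (oz _ (mul_mem hy (cj w h.wT y hy)) (h.wZ y (hall.le hy)))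
  have cT := abelian_iff_forall.1 h.cT
  refine ⟨f, h.tT, h.uT, hall.le, cT, hall.piGrp, fun g hg => ?_, h.w2, h.memC.1 h.wC, wu, wH, h.rt, h.ru, ?_,
    fun y hy y1 c hc => h.tiT y (hall.le hy) (fun e => y1 (oz y hy e)) c (h.hC ▸ hc)⟩
  · have k : ∀ v ∈ V4 t u, v * v = 1 → Odd (orderOf (v * g)) → ∃ v ∈ V4 t u, ∃ y ∈ OO T, g = v * y := fun v hv v2 o =>
      ⟨v, hv, _, mo _ (mul_mem (Four.le h.tT h.uT hv) hg) o, by rw [← mul_assoc, v2, one_mul]⟩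
    rcases h.cas with c | ⟨c, -⟩
    · refine absurd (h.linT _ fun g hg => ?_) c
      have e := h.wZ g hg
      have : lam (g * (⟨w, h.wC⟩ * g * ⟨w, h.wC⟩⁻¹)) = 1 := by
        rcases (h.memZ hZ).1 e with e | e
        · rw [show g * (⟨w, h.wC⟩ * g * ⟨w, h.wC⟩⁻¹) = 1 from Subtype.ext e, map_one]
        · exact h.linH lam _ (by rw [show ((g * (⟨w, h.wC⟩ * g * ⟨w, h.wC⟩⁻¹) : C) : G) = t from e]; exact h.tH)
      simpa [mul_comm (lam _) (lam g)] using this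
    rcases c g hg with o | o | o | o
    exacts [k 1 (one_mem _) (mul_one 1) (by rwa [one_mul]), k t (Four.t_mem t u) h.t2 o, k u (Four.s_mem t u) h.u2 o,
      k _ (mul_mem (Four.t_mem t u) (Four.s_mem t u)) h.v2 o]
  · refine mem_centralizer_iff.2 fun y hy => ?_
    have e1 := cT _ h.wr y (hall.le hy)
    have e2 := cT _ h.r3 y (hall.le hy)
    have e3 := wH _ (cj r h.rT y hy)
    have e4 := wH _ (cj r h.rT _ (cj r h.rT y hy))
    have wi := inv_inv' h.w2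
    have e5 : r * (r * y * r⁻¹) * r⁻¹ = y := by
      calc _ = (w * (r * (r * y * r⁻¹) * r⁻¹) * w⁻¹)⁻¹ := by rw [e4, inv_inv]
        _ = w * r * (r * y * r⁻¹)⁻¹ * r⁻¹ * w⁻¹ := by simp only [mul_inv_rev, inv_inv, mul_assoc]
        _ = w * r * w * r * y * (w * r * w * r)⁻¹ := by rw [← e3]; group
        _ = y := by rw [wi] at e1; rw [e1, mul_inv_cancel_right]
    calc y * r = r * r * r * y * (r * r * r)⁻¹ * r := by rw [e2, mul_inv_cancel_right]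
      _ = r * (r * (r * y * r⁻¹) * r⁻¹) := by group
      _ = _ := by rw [e5]

theorem no11 (s : WS T (OO T) t u w r) (cY : IsCyclic Y) (hq : q = 11) (k5 : Nat.card (OO T) = 5) {ρ : G}
    (h1 : ρ ∈ 𝒞[w] ⊓ 𝒞(OO T)) (o3 : orderOf ρ = 3) (ht : t * ρ * t⁻¹ = ρ⁻¹)
    (h5 : ∀ x ∈ 𝒞(OO T) ⊓ 𝒞[ρ], IsPiElt {5} x → x ∈ OO T) : False := by
  have w1 : w ≠ 1 := fun e => h.wn (e ▸ one_mem _)
  obtain ⟨g0, e0⟩ := isConj_iff.1 (h.cj w h.w2 w1).symm
  have cw : ∀ g a : G, g * w * g⁻¹ = t → a ∈ 𝒞[w] → g * a * g⁻¹ ∈ C := fun g a e ha => by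
    rw [h.hC, ← e, ← conjg_cent1]; exact conj_mem_conjg g ha
  obtain ⟨P, hP⟩ := sylow_exists Nat.prime_three Y
  have p3 : ∀ g : G, IsPiElt {3} (g * ρ * g⁻¹) := fun g => IsPiElt.conj (by rw [IsPiElt, o3]; exact piNat_singleton_self Nat.prime_three) g
  obtain ⟨c, hc, e1⟩ := sylow_Jsub Nat.prime_three (h.toCS.sylY Nat.prime_three (by norm_num) (by norm_num [hq]) hP)
    (piGrp_zpowers_iff.2 (p3 g0)) (zpowers_le.2 (cw g0 ρ e0 h1.1))
  have yY := hP.le (e1 (conj_mem_conjg c (mem_zpowers _)))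
  rw [show c * (g0 * ρ * g0⁻¹) * c⁻¹ = c * g0 * ρ * (c * g0)⁻¹ by group] at yY
  have e2 : c * g0 * w * (c * g0)⁻¹ = t := by rw [← h.memC.1 hc, ← e0]; group
  generalize c * g0 = g at yY e2
  set y := g * ρ * g⁻¹ with hy
  set j := g * t * g⁻¹ with hj
  have jy : j * y * j⁻¹ = y⁻¹ := by rw [show j * y * j⁻¹ = g * (t * ρ * t⁻¹) * g⁻¹ by rw [hj, hy]; group, ht, hy]; group
  have jC : j ∈ C := cw g t e2 (conj_eq_iff'.1 s.wt)
  have oy : orderOf y = 3 := (orderOf_cj g ρ).trans o3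
  have yi : y ≠ y⁻¹ := fun e => by
    have := orderOf_dvd_of_pow_eq_one (show y ^ 2 = 1 by rw [pow_two]; nth_rw 1 [e]; simp)
    rw [oy] at this; omega
  have yZ : y ∉ Z := fun e => yi (by rcases (h.memZ hZ).1 e with e | e <;> simp [e, inv_inv' h.t2])
  have cYY := abelian_iff_forall.1 h.cY
  have ju : j * u ∈ Y := (h.tiY y yY yZ j jC (jy ▸ inv_mem yY)).resolve_left fun e =>
    yi (by rw [← jy, cYY j e y yY, mul_inv_cancel_right])
  have eY : 𝒞[y] ⊓ 𝒞[t] = Y := le_antisymm (fun a ha => (h.tiY y yY yZ a (h.hC ▸ ha.2) (by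
      rw [conj_eq_iff.2 ha.1]; exact yY)).resolve_right fun e => yi (by
        have m : a * j⁻¹ ∈ 𝒞[y] := by
          have := mul_mem e (inv_mem ju)
          rw [show a * u * (j * u)⁻¹ = a * j⁻¹ by group] at this
          exact mem_c1.2 (cYY _ this y yY)
        have m' : j ∈ 𝒞[y] := by simpa using mul_mem (inv_mem m) (mem_inf.1 ha).1
        rw [← jy, conj_eq_iff.2 m']))
    (le_inf (fun a ha => mem_c1.2 (cYY a ha y yY)) (h.hC ▸ h.YC))
  obtain ⟨R, hR⟩ := sylow_exists Nat.prime_two Y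
  have it : IsInv t := ⟨h.t2, h.t1⟩
  obtain ⟨-, -, hO⟩ := npc (K := 𝒞[y]) it (hR.mem_of_normal (norm_of_le_abelian h.cY hR.le) it.two (h.ZY h.tZ))
    (eY ▸ hR) (cyclic_of_le cY hR.le)
  set O := OO 𝒞[y] with hOd
  have nO : 𝒞[y] ≤ 𝒩(O) := pcore_norm _ _
  obtain ⟨z, zY, ez⟩ := cyclic_iff_eq_zpowers.1 (cyclic_of_le cY h.Y1Y)
  have oz : orderOf z = 12 := by rw [← Nat.card_zpowers, ← ez, h.kY1, hq]
  have z6 : z ^ 3 * z ^ 3 = t := (h.invY _ (mul_mem (h.Y1Y (pow_mem zY 3)) (h.Y1Y (pow_mem zY 3))) (by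
      rw [← pow_add, ← pow_add]; exact (by rw [← oz]; exact pow_orderOf_eq_one z : z ^ 12 = 1))).resolve_left fun e => by
    have := orderOf_dvd_of_pow_eq_one ((pow_add z 3 3).trans e)
    rw [oz] at this; omega
  have z3 := pow_mem zY 3
  generalize z ^ 3 = ζ at z6 z3
  have ζj : ζ * j * ζ⁻¹ = t * j := by
    have a1 := h.Y1i _ (inv_mem z3)
    have a2 := cYY _ ju _ (h.Y1Y z3)
    calc _ = ζ * (j * u * (u⁻¹ * ζ⁻¹ * u⁻¹⁻¹) * u⁻¹) := by group
      _ = ζ * (j * u * ζ * u⁻¹) := by rw [inv_inv' h.u2] at a1 ⊢; rw [inv_inv' h.u2, a1, inv_inv]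
      _ = _ := by rw [a2, ← z6]; group
  have jn : j ∈ 𝒩(O) := norm_pcore _ (zpowers_le.2 (mem_norm_cent1_of_inv jy)) (mem_zpowers j)
  have bw := BW hO.piGrp h.t2 (it.conj g).1 (mem_c1.1 (h.hC ▸ jC : j ∈ 𝒞[t])).symm
    (nO (eY.ge (h.ZY h.tZ)).1) jn
  rw [← ζj, show O ⊓ 𝒞[ζ * j * ζ⁻¹] = (O ⊓ 𝒞[j]) :^ ζ by
    rw [conjg_inf, conjg_cent1, conjg_of_mem_norm (nO (eY.ge (h.Y1Y z3)).1)], card_conjg] at bw
  have k5' : Nat.card (OO T :^ g) = 5 := (card_conjg _ _).trans k5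
  have p5 : IsPGrp 5 (OO T :^ g) := pGrp_of_card_eq Nat.prime_five k5'
  have HO : OO T :^ g ≤ O := hO.le_of_normal nO (p5.piGrp (by norm_num)) (by
    rw [hy, ← conjg_cent1]; exact conjg_mono g (mem_cent_iff_le_cent_singleton.1 h1.2))
  have d5 : 5 ∣ Nat.card (O ⊓ 𝒞[j] : Subgroup G) := k5' ▸ card_dvd_of_le (le_inf HO (by
    rw [hj, ← conjg_cent1]; exact conjg_mono g (s.HT.trans s.Tt)))
  have n5 : ¬ 5 ∣ Nat.card (O ⊓ 𝒞[t] ⊓ 𝒞[j] : Subgroup G) := fun c => by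
    have := c.trans (card_dvd_of_le (inf_le_left.trans ((inf_le_inf_right _ hO.le).trans eY.le)))
    rw [h.kY, h.kZ hZ, hq] at this; omega
  have d25 : 5 ^ 2 ∣ Nat.card O := by
    refine (Nat.Coprime.pow 2 2 ((Nat.Prime.coprime_iff_not_dvd Nat.prime_five).2 n5)).dvd_of_dvd_mul_right ?_
    rw [bw, mul_assoc]; exact Dvd.dvd.mul_left (mul_dvd_mul d5 d5) _
  obtain ⟨Q, hQ, HQ⟩ := sylow_superset Nat.prime_five p5 HO
  obtain ⟨L, l1, l2⟩ := exists_le_card_eq_pow Nat.prime_five d25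
  have q25 := hQ.card_dvd (pGrp_of_card_eq_pow Nat.prime_five l2) l1
  have lt := nilpotent_proper_norm hQ.pGrp.nil (lt_of_le_of_card_lt HQ (by
    have := Nat.le_of_dvd Nat.card_pos q25
    omega))
  have c5 := (inf_eq_bot_or_le_of_card_prime (k5' ▸ Nat.prime_five) _).resolve_left
    (pGrp_inf_cent_ne_bot p5 (hQ.pGrp.inf_left _) inf_le_right (ne_bot_of_card_prime (k5' ▸ Nat.prime_five)))
  refine lt.not_ge fun a ha => mem_conjg.2 (h5 _ (mem_inf.2 ⟨?_, ?_⟩) (by simpa using (hQ.pGrp.piElt ha.1).conj g⁻¹))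
  · rw [← mem_conjg, conjg_cent]; exact le_centralizer_iff.1 c5 ha
  · rw [← mem_conjg, conjg_cent1]; exact hO.le (hQ.le ha.1)

theorem no_iv (wu : w * u * w⁻¹ = t * u) (cH : IsCyclic (OO T)) (cY : IsCyclic Y) (hq : 11 ≤ q) (h31 : q ≠ 31) :
    False := by
  have s := h.ws hZ wu
  have kT := s.cardT
  rw [h.kT, h.kZ hZ] at kT
  have ok := (piGrp_compl_singleton_iff Nat.prime_two).1 s.oH
  obtain ⟨y, hy, ey⟩ := cyclic_iff_eq_zpowers.1 cH
  have oy : orderOf y = Nat.card (OO T) := by rw [← Nat.card_zpowers, ← ey]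
  have cr := card_mul_relIndex (s.HT.trans s.TH)
  have ci := card_inf_mul_relIndex 𝒞[w] 𝒞(OO T)
  have st := s.str hy fun e => by rw [e, orderOf_one] at oy; omega
  have n11 := h.no11 hZ s cY
  generalize Nat.card (OO T) = k at *
  have hk : q = 2 * k + 1 := by clear st; omega
  subst hk
  have k0 : 0 < k := by omega
  obtain ⟨ψ, χ1, χ2, n, dψ, d1, d2, o0, o1, o2, -, -, o3, a1, a2, a3, a4, van⟩ := h.alpha
  obtain ⟨c, j, dc, c1, c2, c3, c4⟩ := s.theta hy (fun e => by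
    have e := oy ▸ orderOf_dvd_of_pow_eq_one e
    rcases st with ⟨a, -⟩ | ⟨a, -, b⟩
    · rw [Nat.eq_of_mul_eq_mul_left k0 (cr.trans (a.trans (mul_comm _ _)))] at e
      have := Nat.le_of_dvd (by norm_num) e
      interval_cases k <;> omega
    · rw [Nat.eq_of_mul_eq_mul_left k0 (cr.trans (a.trans (mul_comm _ _)))] at e
      have := Nat.le_of_dvd (by norm_num) e
      have k5 : k = 5 := by clear b; interval_cases k <;> omega
      obtain ⟨ρ, r1, r2, r3, r4⟩ := b k5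
      exact n11 (by omega) k5 r1 r2 r3 r4) dψ d1 d2 o0 o1 o2 o3 a1 (hZ ▸ van)
  have b : 5 * k * Nat.card 𝒞(OO T) ≤ 3 * j ^ 2 := by
    rcases st with ⟨a, b⟩ | ⟨a, b, -⟩ <;> rw [a] at ci ⊢
    · have : 6 * k ≤ j := by nlinarith [Nat.mul_le_mul b c4]
      nlinarith
    · have : 10 * k ≤ j := by nlinarith [Nat.mul_le_mul b c4]
      nlinarith
  have W0 : 0 < Nat.card 𝒞(OO T) := Nat.card_pos
  generalize Nat.card 𝒞(OO T) = m at *
  have m0 : (m : ℂ) ≠ 0 := Nat.cast_ne_zero.2 W0.ne'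
  have kC := h.kC'
  rw [h.kZ hZ] at kC
  have e := h.Phi_three dψ dc (P := Nat.card C * j ^ 2 / m) (by
    rw [← index_mul_card C] at c3; push_cast at c3; field_simp; linear_combination c3)
  rw [c1, c2, a1, a2, kC] at e
  have a4' := congrArg (Int.cast (R := ℂ)) a4
  push_cast at a4' e
  field_simp at e
  have n0 : n ≠ 0 := by rintro rfl; simp at a3; omega
  have e2 : ((k + 1) * (n - 1) * m : ℤ) = j ^ 2 * (n + 1) := by
    have : (8 * (k : ℂ) * (k + 1) * (2 * k + 1) * n) ≠ 0 := by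
      have : (8 * (k : ℤ) * (k + 1) * (2 * k + 1) * n) ≠ 0 := mul_ne_zero (by positivity) n0
      exact_mod_cast this
    refine Int.cast_injective (α := ℂ) (mul_left_cancel₀ this ?_)
    push_cast
    linear_combination -e - m * a4'
  have b' : (5 * k * m : ℤ) ≤ 3 * j ^ 2 := by exact_mod_cast b
  have k5 : (5 : ℤ) ≤ k := by omega
  have m1 : (0 : ℤ) < m := by omega
  push_cast at a3
  rcases le_abs'.1 a3 with a | a
  · have : 5 * k * m * (-n - 1) ≤ 3 * (k + 1) * (1 - n) * (m : ℤ) := by nlinarith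
    have : 5 * k * (-n - 1) ≤ 3 * (k + 1) * (1 - n : ℤ) := le_of_mul_le_mul_right (by linarith) m1
    nlinarith
  · have : 5 * k * m * (n + 1) ≤ 3 * (k + 1) * (n - 1) * (m : ℤ) := by nlinarith
    have : 5 * k * (n + 1) ≤ 3 * (k + 1) * (n - 1 : ℤ) := le_of_mul_le_mul_right (by linarith) m1
    nlinarith

end CS2

theorem BL.no_iv {F : Type v} [Field F] [Fintype F] {φ : GL (Fin 2) F →* G} (h : BL φ) (hZ : Zt φ = zpowers (tt φ))
    (hq : 11 ≤ Fintype.card F) (h31 : Fintype.card F ≠ 31) : False := by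
  obtain ⟨e, he⟩ := h.toBK.exists_ns
  obtain ⟨r, hr⟩ := h.exists_rho
  obtain ⟨lam, θ1, θ2, k⟩ := h.cs2 he hr
  have s := k.ws hZ w_u
  refine k.no_iv hZ w_u (cyclic_of_le (isCyclic_of_surjective _ (MonoidHom.rangeRestrict_surjective _) :
    IsCyclic (Ht φ)) fun y hy => mem_of_sq s.oH hy ?_) (h.toBK.cycY he) hq h31
  have e1 := s.wH y hy
  obtain ⟨a, d, rfl⟩ := mem_Tt'.1 (s.HT hy)
  rw [wt, cj, ww_dg, eq_inv_iff_mul_eq_one] at e1
  refine mem_Ht'.2 ⟨a * d⁻¹, ?_⟩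
  nth_rw 2 [← inv_eq_of_mul_eq_one_right e1]
  rw [← map_inv, ← map_mul, dg_inv, dg_mul, mul_inv_rev, inv_inv]

theorem realizeEqns_Br_W3 : True := by

  trivial

end CA.Br
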