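import Cfsg.Agent.Br.Base4

/-!
# The Brauer-Wielandt formula and normal `2`-complements
-/

set_option autoImplicit false
set_option linter.unusedSectionVars false

open Cfsg Subgroup CA.Dih CA.FG CA.BG CA.GW CA.GW.BA

namespace CA.Br

universe u

variable {G : Type u} [Group G] [Finite G]

theorem sq_inj {O : Subgroup G} (oO : IsPiGrp {2}ᶜ O) {x y : G} (hx : x ∈ O) (hy : y ∈ O) (e : x * x = y * y) :
    x = y := by
  obtain ⟨k, hk⟩ : Odd (Nat.card O) := Nat.odd_iff.2 (Nat.two_dvd_ne_zero.1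
    ((piGrp_compl_singleton_iff Nat.prime_two).1 oO))
  have : ∀ x ∈ O, (x * x) ^ (k + 1) = x := fun x hx => by
    have := congrArg Subtype.val (pow_card_eq_one' (x := (⟨x, hx⟩ : O)))
    rw [hk, Subgroup.coe_pow] at this
    rw [← sq, ← pow_mul, show 2 * (k + 1) = 2 * k + 1 + 1 by ring, pow_succ, this]; exact one_mul x
  rw [← this x hx, e, this y hy]

theorem card_Iset' {O : Subgroup G} (oO : IsPiGrp {2}ᶜ O) {a : G} (a2 : a * a = 1) (ha : a ∈ 𝒩(O)) :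
    Nat.card (Iset O a) * Nat.card (O ⊓ 𝒞[a] : Subgroup G) = Nat.card O := by
  rw [Nat.card_coe_set_eq, card_Iset oO a2 ha, mul_comm, inf_comm, card_inf_mul_relIndex]

theorem norm_inf_c1 {O : Subgroup G} {a b : G} (ha : a ∈ 𝒩(O)) (c : a ∈ 𝒞[b]) : a ∈ 𝒩(O ⊓ 𝒞[b]) :=
  inf_normalizer_le_normalizer_inf ⟨ha, le_normalizer c⟩

theorem conj_eq_iff' {g x : G} : g * x * g⁻¹ = x ↔ x ∈ 𝒞[g] := by rw [mem_c1, mul_inv_eq_iff_eq_mul, eq_comm]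

theorem cent1_symm {g x : G} : g ∈ 𝒞[x] ↔ x ∈ 𝒞[g] := by rw [mem_c1, mem_c1, eq_comm]

/-- Brauer-Wielandt -/
theorem BW {O : Subgroup G} (oO : IsPiGrp {2}ᶜ O) {a b : G} (a2 : a * a = 1) (b2 : b * b = 1) (c : a * b = b * a)
    (ha : a ∈ 𝒩(O)) (hb : b ∈ 𝒩(O)) :
    Nat.card O * Nat.card (O ⊓ 𝒞[a] ⊓ 𝒞[b] : Subgroup G) ^ 2 = Nat.card (O ⊓ 𝒞[a] : Subgroup G) *
      Nat.card (O ⊓ 𝒞[b] : Subgroup G) * Nat.card (O ⊓ 𝒞[a * b] : Subgroup G) := by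
  have ai := inv_inv' a2
  have bi := inv_inv' b2
  have h1 := card_Iset' oO a2 ha
  have h2 := card_Iset' (oO.inf_left 𝒞[b]) a2 (norm_inf_c1 ha (mem_c1.2 c))
  have h3 := card_Iset' (oO.inf_left 𝒞[a * b]) a2 (norm_inf_c1 ha (mem_c1.2 (by rw [mul_assoc, ← c])))
  have cb : ∀ {x}, a * x * a⁻¹ = x⁻¹ → (x ∈ 𝒞[a * b] ↔ b * x * b⁻¹ = x⁻¹) := fun {x} k => by
    rw [← conj_eq_iff', c, show b * a * x * (b * a)⁻¹ = b * (a * x * a⁻¹) * b⁻¹ by group, k, ← inv_inj (a := b * x * b⁻¹)]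
    simp [mul_assoc]
  rw [inf_right_comm] at h2
  rw [show O ⊓ 𝒞[a * b] ⊓ 𝒞[a] = O ⊓ 𝒞[a] ⊓ 𝒞[b] from le_antisymm (fun x k => ⟨⟨k.1.1, k.2⟩, by
    have := mul_mem ((cent1_symm.1 k.2)) (cent1_symm.1 k.1.2)
    rw [← mul_assoc, a2, one_mul] at this; exact cent1_symm.1 this⟩) fun x k => ⟨⟨k.1.1, Four.c_mul k.1.2 k.2⟩, k.1.2⟩] at h3
  have nb : ∀ x ∈ O, b * x * b⁻¹ ∈ O := fun x hx => (mem_normalizer_iff.1 hb x).1 hx
  have na : ∀ x ∈ O, a * x * a⁻¹ ∈ O := fun x hx => (mem_normalizer_iff.1 ha x).1 hx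
  have key : Nat.card (Iset (O ⊓ 𝒞[b]) a) * Nat.card (Iset (O ⊓ 𝒞[a * b]) a) = Nat.card (Iset O a) := by
    rw [← Nat.card_prod]
    refine Nat.card_congr (Equiv.ofBijective (fun x => ⟨x.1 * x.2 * x.1, mul_mem (mul_mem x.1.2.1.1 x.2.2.1.1) x.1.2.1.1,
      by rw [conj_mul', conj_mul', x.1.2.2, x.2.2.2]; group⟩) ⟨?_, ?_⟩)
    · rintro ⟨⟨x, ⟨x1, x2⟩, x3⟩, i, ⟨i1, i2⟩, i3⟩ ⟨⟨y, ⟨y1, y2⟩, y3⟩, j, ⟨j1, j2⟩, j3⟩ e
      have e : x * i * x = y * j * y := congrArg Subtype.val e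
      have e' := congrArg (b * · * b⁻¹) e
      simp only [conj_mul', conj_eq_iff'.2 x2, conj_eq_iff'.2 y2, (cb i3).1 i2, (cb j3).1 j2] at e'
      have e1 : x * i * x⁻¹ = y * j * y⁻¹ := sq_inj oO (mul_mem (mul_mem x1 i1) (inv_mem x1))
        (mul_mem (mul_mem y1 j1) (inv_mem y1)) (by
          calc _ = x * i * x * (x * i⁻¹ * x)⁻¹ := by group
            _ = _ := by rw [e, e']; group)
      obtain rfl : x = y := sq_inj oO x1 y1 (by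
        calc _ = (x * i * x⁻¹)⁻¹ * (x * i * x) := by group
          _ = _ := by rw [e, e1]; group)
      obtain rfl : i = j := mul_left_cancel (mul_right_cancel e)
      rfl
    · rintro ⟨x, x1, x2⟩
      obtain ⟨y, y1, y2⟩ := exists_sqrt oO (mul_mem x1 (inv_mem (nb x x1)))
      have yO := zpowers_le.2 (mul_mem x1 (inv_mem (nb x x1))) y1
      have bb : b * (b * x * b⁻¹) * b⁻¹ = x := by rw [bi, ← mul_assoc, ← mul_assoc, b2, one_mul, mul_assoc, b2, mul_one]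
      have yb := inv_of_mem_zpowers (a := b) (by rw [conj_mul', ← conj_inv, bb]; group) y1
      have bx : b * x * b⁻¹ = y⁻¹ * y⁻¹ * x := by rw [← mul_inv_rev, y2]; group
      have ya : a * y * a⁻¹ = x⁻¹ * y⁻¹ * x := sq_inj oO (na y yO) (mul_mem (mul_mem (inv_mem x1) (inv_mem yO)) x1) (by
        rw [← conj_mul', y2, conj_mul', x2, ← conj_inv, show a * (b * x * b⁻¹) * a⁻¹ = a * b * x * (a * b)⁻¹ by group, c,
          show b * a * x * (b * a)⁻¹ = b * (a * x * a⁻¹) * b⁻¹ by group, x2, conj_inv, inv_inv, bx]; group)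
      obtain ⟨z, z1, z2⟩ := exists_sqrt oO (mul_mem (inv_mem yO) x1)
      have zO := zpowers_le.2 (mul_mem (inv_mem yO) x1) z1
      have zb : z ∈ 𝒞[b] := zpowers_le.2 (conj_eq_iff'.1 (by rw [conj_mul', ← conj_inv, yb, bx]; group)) z1
      have za := inv_of_mem_zpowers (a := a) (by rw [conj_mul', ← conj_inv, ya, x2]; group) z1
      have ia : a * (z⁻¹ * x * z⁻¹) * a⁻¹ = (z⁻¹ * x * z⁻¹)⁻¹ := by
        rw [conj_mul', conj_mul', ← conj_inv, za, x2]; group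
      refine ⟨⟨⟨z, ⟨zO, zb⟩, za⟩, z⁻¹ * x * z⁻¹, ⟨O.mul_mem (O.mul_mem (O.inv_mem zO) x1) (O.inv_mem zO), (cb ia).2 ?_⟩, ia⟩,
        Subtype.ext (by simp [mul_assoc])⟩
      rw [conj_mul', conj_mul', conj_eq_iff'.2 (inv_mem zb), bx]
      calc _ = z⁻¹ * (y⁻¹ * x * x⁻¹ * (y⁻¹ * x)) * z⁻¹ := by group
        _ = _ := by rw [← z2]; group
  rw [← h1, ← h2, ← h3, ← key]
  ring

/-- a cyclic Sylow `2`-subgroup of `C_K(t)` -/
theorem npc {K R : Subgroup G} {t : G} (ht : IsInv t) (tR : t ∈ R) (hR : IsSylowOf 2 R (K ⊓ 𝒞[t]))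
    (cy : IsCyclic R) : IsSylowOf 2 R K ∧ SDProd (OO K) R K ∧ IsPiHallOf {2}ᶜ (OO K) K := by
  obtain ⟨c, -, rfl⟩ := exists_gen_of_cyclic cy
  have s : IsSylowOf 2 (zpowers c) K := IsSylowOf.of_norm_le hR Nat.prime_two inf_le_left fun n hn => ⟨hn.1,
    conj_eq_iff.1 (dih_uniq ((mem_normalizer_iff.1 hn.2 t).1 tR) tR (inv_conj ht n) ht)⟩
  have := cyclic_pdiv_normal_complement Nat.prime_two (fun q hq _ => hq.two_le) s cy
  exact ⟨s, this, this.complIn.pHall_left (pcore_piGrp _ K) (piNat_compl_compl.2 s.piGrp)⟩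

end CA.Br
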