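import Cfsg.Agent.Br.CS

/-!
# Matrix computations in `GL₂(q)` and the abstract shape `CS`
-/

set_option autoImplicit false
set_option linter.unusedSectionVars false

open Cfsg Subgroup CA.Dih CA.FG

namespace CA.Br

universe u v

variable {F : Type v} [Field F]

section Mat

variable {a b c g g' : GL (Fin 2) F} {e : F}

theorem mul_ent (a b : GL (Fin 2) F) (i j : Fin 2) : (a * b) i j = a i 0 * b 0 j + a i 1 * b 1 j := by
  simp [Matrix.mul_apply, Fin.sum_univ_two]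

theorem det_ent (g : GL (Fin 2) F) : (Matrix.GeneralLinearGroup.det g : F) = g 0 0 * g 1 1 - g 0 1 * g 1 0 := by
  simp [Matrix.det_fin_two]

theorem dne (g : GL (Fin 2) F) : g 0 0 * g 1 1 - g 0 1 * g 1 0 ≠ 0 := by
  rw [← det_ent]; exact Units.ne_zero _

theorem ents (h : c * g * c⁻¹ = g') (i j : Fin 2) :
    c i 0 * g 0 j + c i 1 * g 1 j = g' i 0 * c 0 j + g' i 1 * c 1 j := by
  rw [← mul_ent, ← mul_ent, ← h, inv_mul_cancel_right]

theorem tr_conj (h : c * g * c⁻¹ = g') : g 0 0 + g 1 1 = g' 0 0 + g' 1 1 :=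
  mul_left_cancel₀ (dne c) (by
    linear_combination c 1 1 * ents h 0 0 - c 1 0 * ents h 0 1 - c 0 1 * ents h 1 0 + c 0 0 * ents h 1 1)

theorem det_conj (h : c * g * c⁻¹ = g') :
    g 0 0 * g 1 1 - g 0 1 * g 1 0 = g' 0 0 * g' 1 1 - g' 0 1 * g' 1 0 := by
  rw [← det_ent, ← det_ent, ← h, map_mul, map_mul, map_inv, mul_inv_cancel_comm]

theorem dg_mul (a b c d : Fˣ) : dg a b * dg c d = dg (a * c) (b * d) := (map_mul dgH (a, b) (c, d)).symm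

theorem dg_one : dg (1 : Fˣ) 1 = 1 := map_one dgH

theorem dg_inv (a b : Fˣ) : (dg a b)⁻¹ = dg a⁻¹ b⁻¹ := (map_inv dgH (a, b)).symm

theorem dg_pow (a b : Fˣ) (n : ℕ) : dg a b ^ n = dg (a ^ n) (b ^ n) := (map_pow dgH (a, b) n).symm

theorem dg_inj {a b c d : Fˣ} (h : dg a b = dg c d) : a = c ∧ b = d :=
  ⟨Units.ext (by simpa using congrArg (fun g : GL (Fin 2) F => g 0 0) h),
    Units.ext (by simpa using congrArg (fun g : GL (Fin 2) F => g 1 1) h)⟩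

theorem xp_add (a b : F) : xp a * xp b = xp (a + b) := (map_mul xpH _ _).symm

theorem xm_add (a b : F) : xm a * xm b = xm (a + b) := (map_mul xmH _ _).symm

theorem xp_zero : xp (0 : F) = 1 := map_one xpH

theorem xm_zero : xm (0 : F) = 1 := map_one xmH

theorem xp_pow (a : F) (n : ℕ) : xp a ^ n = xp (n * a) := by
  rw [xp, ← map_pow, ← ofAdd_nsmul, nsmul_eq_mul]; rfl

theorem mem_dT : g ∈ (dgH (F := F)).range ↔ g 0 1 = 0 ∧ g 1 0 = 0 := by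
  refine ⟨by rintro ⟨x, rfl⟩; exact ⟨rfl, rfl⟩, fun h => ?_⟩
  have d := dne g
  rw [h.1, zero_mul, sub_zero] at d
  exact ⟨(Units.mk0 _ (left_ne_zero_of_mul d), Units.mk0 _ (right_ne_zero_of_mul d)),
    gl_ext rfl h.1.symm h.2.symm rfl⟩

theorem dg_mem_dT (a d : Fˣ) : dg a d ∈ (dgH (F := F)).range := ⟨_, rfl⟩

theorem mem_cen : g ∈ center (GL (Fin 2) F) ↔ g 0 1 = 0 ∧ g 1 0 = 0 ∧ g 0 0 = g 1 1 := by
  rw [Matrix.GeneralLinearGroup.mem_center_iff_val_mem_range_scalar]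
  refine ⟨by rintro ⟨x, h⟩; simp [← h], fun h => ⟨g 0 0, ?_⟩⟩
  ext i j
  fin_cases i <;> fin_cases j <;> simp [h.1, h.2.1, h.2.2]

theorem mem_cen' : g ∈ center (GL (Fin 2) F) ↔ ∃ a, g = dg a a := by
  refine ⟨fun h => ?_, by rintro ⟨a, rfl⟩; exact mem_cen.2 ⟨rfl, rfl, rfl⟩⟩
  obtain ⟨h1, h2, h3⟩ := mem_cen.1 h
  obtain ⟨⟨a, d⟩, rfl⟩ := mem_dT.2 ⟨h1, h2⟩
  obtain rfl : a = d := Units.ext h3
  exact ⟨a, rfl⟩

theorem dg_cen (a : Fˣ) : dg a a ∈ center (GL (Fin 2) F) := mem_cen'.2 ⟨a, rfl⟩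

theorem dg_comm (a : Fˣ) (g : GL (Fin 2) F) : g * dg a a = dg a a * g := mem_center_iff.1 (dg_cen a) g

theorem cen_le_dT : center (GL (Fin 2) F) ≤ dgH.range := fun _ h => mem_dT.2 ⟨(mem_cen.1 h).1, (mem_cen.1 h).2.1⟩

theorem cen_le_nsT : center (GL (Fin 2) F) ≤ nsT e := fun _ h =>
  mem_nsT.2 ⟨(mem_cen.1 h).2.2, by rw [(mem_cen.1 h).1, (mem_cen.1 h).2.1, zero_mul]⟩

theorem cen_of_conj (h : c * g * c⁻¹ ∈ center (GL (Fin 2) F)) : g ∈ center (GL (Fin 2) F) := by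
  simpa [mul_assoc] using (inferInstance : (center (GL (Fin 2) F)).Normal).conj_mem _ h c⁻¹

theorem ww_mul : ww F * ww F = 1 := by apply gl_ext <;> simp [mul_ent]

theorem ww_inv : (ww F)⁻¹ = ww F := inv_eq_of_mul_eq_one_right ww_mul

theorem ww_dg (a d : Fˣ) : ww F * dg a d * (ww F)⁻¹ = dg d a := by
  rw [ww_inv]; apply gl_ext <;> simp [mul_ent]

theorem ww_xp (a : F) : ww F * xp a * (ww F)⁻¹ = xm a := by
  rw [ww_inv]; apply gl_ext <;> simp [mul_ent]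

theorem dg_xp (a d : Fˣ) (c : F) : dg a d * xp c * (dg a d)⁻¹ = xp (a * c * (d : F)⁻¹) := by
  rw [dg_inv]; apply gl_ext <;> simp [mul_ent]

theorem dg_xm (a d : Fˣ) (c : F) : dg a d * xm c * (dg a d)⁻¹ = xm (d * c * (a : F)⁻¹) := by
  rw [dg_inv]; apply gl_ext <;> simp [mul_ent]

theorem u_inv : (dg (1 : Fˣ) (-1))⁻¹ = dg 1 (-1) := by rw [dg_inv]; simp

theorem u_ent (g : GL (Fin 2) F) {k : GL (Fin 2) F} (h : dg 1 (-1) * g * (dg 1 (-1))⁻¹ = k) :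
    k 0 0 = g 0 0 ∧ k 0 1 = - g 0 1 ∧ k 1 0 = - g 1 0 ∧ k 1 1 = g 1 1 := by
  rw [← h, u_inv]; simp [mul_ent]

theorem dT_comm (ha : a ∈ (dgH (F := F)).range) (hb : b ∈ (dgH (F := F)).range) : a * b = b * a := by
  obtain ⟨x, rfl⟩ := ha
  obtain ⟨y, rfl⟩ := hb
  rw [← map_mul, ← map_mul, mul_comm]

theorem nsT_comm (ha : a ∈ nsT e) (hb : b ∈ nsT e) : a * b = b * a := by
  apply gl_ext <;> simp only [mul_ent, ha.1, ha.2, hb.1, hb.2] <;> ring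

theorem tiT0 (hg : g ∈ (dgH (F := F)).range) (hz : g ∉ center (GL (Fin 2) F))
    (h : c * g * c⁻¹ ∈ (dgH (F := F)).range) : c ∈ (dgH (F := F)).range ∨ c * ww F ∈ (dgH (F := F)).range := by
  obtain ⟨g1, g2⟩ := mem_dT.1 hg
  obtain ⟨h1, h2⟩ := mem_dT.1 h
  have ne : g 0 0 - g 1 1 ≠ 0 := fun e => hz (mem_cen.2 ⟨g1, g2, sub_eq_zero.1 e⟩)
  have e00 := ents (rfl : c * g * c⁻¹ = _) 0 0
  have e01 := ents (rfl : c * g * c⁻¹ = _) 0 1
  have e10 := ents (rfl : c * g * c⁻¹ = _) 1 0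
  have e11 := ents (rfl : c * g * c⁻¹ = _) 1 1
  rw [h1, g2] at e00; rw [h1, g1] at e01; rw [h2, g2] at e10; rw [h2, g1] at e11
  have d := dne c
  have k0 : c 0 0 * c 0 1 = 0 := mul_left_cancel₀ ne (by linear_combination c 0 1 * e00 - c 0 0 * e01)
  have k1 : c 1 0 * c 1 1 = 0 := mul_left_cancel₀ ne (by linear_combination c 1 1 * e10 - c 1 0 * e11)
  rcases mul_eq_zero.1 k0 with k | k
  · refine .inr (mem_dT.2 ⟨by simpa [mul_ent] using k, ?_⟩)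
    simpa [mul_ent] using (mul_eq_zero.1 k1).resolve_left fun e => d (by rw [k, e]; ring)
  · exact .inl (mem_dT.2 ⟨k, (mul_eq_zero.1 k1).resolve_right fun e => d (by rw [k, e]; ring)⟩)

theorem nsT_ne (hg : g ∈ nsT e) (hz : g ∉ center (GL (Fin 2) F)) : g 1 0 ≠ 0 := fun h =>
  hz (mem_cen.2 ⟨by rw [hg.2, h, zero_mul], h, hg.1⟩)

theorem tiY0 (h2 : (2 : F) ≠ 0) (he : e ≠ 0) (hg : g ∈ nsT e) (hz : g ∉ center (GL (Fin 2) F))
    (h : c * g * c⁻¹ ∈ nsT e) : c ∈ nsT e ∨ c * dg 1 (-1) ∈ nsT e := by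
  have ne := nsT_ne hg hz
  have e00 := ents (rfl : c * g * c⁻¹ = _) 0 0
  have e11 := ents (rfl : c * g * c⁻¹ = _) 1 1
  have e10 := ents (rfl : c * g * c⁻¹ = _) 1 0
  have tr := tr_conj (rfl : c * g * c⁻¹ = _)
  have dt := det_conj (rfl : c * g * c⁻¹ = _)
  generalize c * g * c⁻¹ = k at *
  obtain ⟨g1, g2⟩ := hg
  obtain ⟨k1, k2⟩ := h
  have a : g 1 1 = k 1 1 := mul_left_cancel₀ h2 (by linear_combination tr - g1 + k1)
  have b : (k 1 0 - g 1 0) * (k 1 0 + g 1 0) = 0 := mul_left_cancel₀ he (by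
    rw [g1, g2, k1, k2, a] at dt; linear_combination dt)
  rw [g1, k1, k2, a] at e00
  rw [g1, a] at e10
  rcases mul_eq_zero.1 b with b | b
  · rw [sub_eq_zero.1 b] at e00 e10
    exact .inl ⟨mul_left_cancel₀ ne (by linear_combination -e10), mul_left_cancel₀ ne (by linear_combination e00)⟩
  · rw [eq_neg_of_add_eq_zero_left b] at e00 e10
    refine .inr ⟨mul_left_cancel₀ ne ?_, mul_left_cancel₀ ne ?_⟩ <;> simp [mul_ent]
    · linear_combination e10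
    · linear_combination -e00

theorem TY0 (h2 : (2 : F) ≠ 0) (he : ¬ IsSquare e) (hg : g ∈ (dgH (F := F)).range)
    (hz : g ∉ center (GL (Fin 2) F)) : c * g * c⁻¹ ∉ nsT e := fun h => by
  have ne := nsT_ne h fun h => hz (cen_of_conj h)
  have tr := tr_conj (rfl : c * g * c⁻¹ = _)
  have dt := det_conj (rfl : c * g * c⁻¹ = _)
  generalize c * g * c⁻¹ = k at *
  obtain ⟨g1, g2⟩ := mem_dT.1 hg
  rw [h.1, h.2, g1] at dt
  rw [h.1] at tr
  refine he ⟨(g 0 0 - g 1 1) / (2 * k 1 0), ?_⟩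
  field_simp
  linear_combination (-(g 0 0 + g 1 1) - 2 * k 1 1) * tr + 4 * dt

theorem zx_not_cen (z : Fˣ) {b : F} (hb : b ≠ 0) : dg z z * xp b ∉ center (GL (Fin 2) F) := fun h => by
  simpa [mul_ent, hb] using (mem_cen.1 h).1

theorem TX0 (z : Fˣ) {b : F} (hb : b ≠ 0) : c * (dg z z * xp b) * c⁻¹ ∉ (dgH (F := F)).range := fun h => by
  refine zx_not_cen z hb (cen_of_conj (c := c) ?_)
  have tr := tr_conj (rfl : c * (dg z z * xp b) * c⁻¹ = _)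
  have dt := det_conj (rfl : c * (dg z z * xp b) * c⁻¹ = _)
  generalize c * (dg z z * xp b) * c⁻¹ = k at *
  obtain ⟨g1, g2⟩ := mem_dT.1 h
  simp [mul_ent, g1] at tr dt
  refine mem_cen.2 ⟨g1, g2, sub_eq_zero.1 (pow_eq_zero_iff two_ne_zero |>.1 ?_)⟩
  linear_combination (-(k 0 0 + k 1 1) - 2 * z) * tr + 4 * dt

theorem YX0 (h2 : (2 : F) ≠ 0) (he : e ≠ 0) (z : Fˣ) {b : F} (hb : b ≠ 0) :
    c * (dg z z * xp b) * c⁻¹ ∉ nsT e := fun h => by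
  have ne := nsT_ne h fun h => zx_not_cen z hb (cen_of_conj h)
  have tr := tr_conj (rfl : c * (dg z z * xp b) * c⁻¹ = _)
  have dt := det_conj (rfl : c * (dg z z * xp b) * c⁻¹ = _)
  generalize c * (dg z z * xp b) * c⁻¹ = k at *
  simp [mul_ent, h.1, h.2] at tr dt
  have a : (z : F) = k 1 1 := mul_left_cancel₀ h2 (by linear_combination tr)
  exact mul_ne_zero (mul_ne_zero ne he) ne (by rw [a] at dt; linear_combination dt)

theorem tiX0 (h2 : (2 : F) ≠ 0) {z : Fˣ} {b : F} (hb : b ≠ 0) (h : c * xp b * c⁻¹ = dg z z * xp b) :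
    z = 1 ∧ ∃ a s, c = dg a a * xp s := by
  have tr := tr_conj h
  have e00 := ents h 0 0
  have e01 := ents h 0 1
  simp [mul_ent] at tr e00 e01
  have a : (z : F) = 1 := mul_left_cancel₀ h2 (by linear_combination -tr)
  rw [a] at e00 e01
  have k : c 1 0 = 0 := mul_left_cancel₀ hb (by linear_combination -e00)
  have k' : c 0 0 = c 1 1 := mul_left_cancel₀ hb (by linear_combination e01)
  have d := dne c
  rw [k, mul_zero, sub_zero] at d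
  have d1 := right_ne_zero_of_mul d
  refine ⟨Units.ext a, Units.mk0 _ d1, c 0 1 / c 1 1, gl_ext ?_ ?_ ?_ ?_⟩ <;> simp [mul_ent, k, k']
  field_simp

theorem card_dT [Fintype F] : Nat.card (dgH (F := F)).range = (Fintype.card F - 1) * (Fintype.card F - 1) := by
  rw [← Nat.card_congr (MonoidHom.ofInjective fun x y h => Prod.ext (dg_inj h).1 (dg_inj h).2).toEquiv,
    Nat.card_prod, Nat.card_units, Nat.card_eq_fintype_card]

theorem card_cen [Fintype F] : Nat.card (center (GL (Fin 2) F)) = Fintype.card F - 1 := by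
  rw [Cfsg.Agent.Lin.card_center_GL, Nat.card_units, Nat.card_eq_fintype_card]

theorem ns_ne (he : ¬ IsSquare e) {a b : F} (h : (a, b) ≠ 0) : a * a - b * e * b ≠ 0 := fun k => by
  by_cases hb : b = 0
  · rw [hb] at k h
    exact h (Prod.ext (by simpa using k) rfl)
  · exact he ⟨a / b, by field_simp; linear_combination -k⟩

theorem card_nsT [Fintype F] (he : ¬ IsSquare e) : Nat.card (nsT e) = Fintype.card F ^ 2 - 1 := by
  classical
  let f : {x : F × F // x ≠ 0} → nsT e := fun x => ⟨mk2 x.1.1 (x.1.2 * e) x.1.2 x.1.1 (ns_ne he x.2), rfl, rfl⟩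
  have hf : Function.Bijective f := ⟨fun x y h => Subtype.ext (Prod.ext
      (congrArg (fun g : nsT e => g.1 0 0) h) (congrArg (fun g : nsT e => g.1 1 0) h)), fun g =>
    ⟨⟨(g.1 1 1, g.1 1 0), fun h => dne g.1 (by
      rw [show g.1 1 1 = 0 from congrArg Prod.fst h, show g.1 1 0 = 0 from congrArg Prod.snd h]; ring)⟩,
      Subtype.ext (gl_ext g.2.1.symm g.2.2.symm rfl rfl)⟩⟩
  rw [← Nat.card_congr (Equiv.ofBijective f hf), Nat.card_eq_fintype_card, Fintype.card_subtype_compl,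
    Fintype.card_prod, Fintype.card_subtype_eq, sq]

end Mat

variable [Fintype F] {G : Type u} [Group G] {φ : GL (Fin 2) F →* G} {g g' : GL (Fin 2) F} {e : F}

theorem Tt_eq (φ : GL (Fin 2) F →* G) : Tt φ = dgH.range.map φ := MonoidHom.range_comp _ _

theorem mem_Xp {x : G} : x ∈ Xp φ ↔ ∃ c, φ (xp c) = x := ⟨fun ⟨c, h⟩ => ⟨c.toAdd, h⟩, fun ⟨_, h⟩ => ⟨_, h⟩⟩

theorem mem_Xm {x : G} : x ∈ Xm φ ↔ ∃ c, φ (xm c) = x := ⟨fun ⟨c, h⟩ => ⟨c.toAdd, h⟩, fun ⟨_, h⟩ => ⟨_, h⟩⟩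

theorem mem_Tt' {x : G} : x ∈ Tt φ ↔ ∃ a d, φ (dg a d) = x :=
  ⟨fun ⟨c, h⟩ => ⟨c.1, c.2, h⟩, fun ⟨_, _, h⟩ => ⟨_, h⟩⟩

theorem mem_Zt' {x : G} : x ∈ Zt φ ↔ ∃ a, φ (dg a a) = x :=
  ⟨fun ⟨_, h, k⟩ => let ⟨a, e⟩ := mem_cen'.1 h; ⟨a, e ▸ k⟩, fun ⟨a, h⟩ => ⟨_, dg_cen a, h⟩⟩

theorem mem_Ht' {x : G} : x ∈ Ht φ ↔ ∃ a, φ (dg a a⁻¹) = x := Iff.rfl

namespace BK

variable (h : BK φ)
include h

theorem two : (2 : F) ≠ 0 := fun e => by
  have := FiniteField.cast_card_eq_zero F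
  obtain ⟨k, hk⟩ := h.odd
  rw [hk] at this
  push_cast at this
  rw [e] at this
  simp at this

theorem neg_ne : (-1 : Fˣ) ≠ 1 := fun e => h.two (by
  have : (-1 : F) = 1 := by simpa using congrArg Units.val e
  linear_combination -this)

theorem q3 : 3 ≤ Fintype.card F := by
  have := Fintype.one_lt_card (α := F)
  obtain ⟨k, hk⟩ := h.odd
  omega

theorem mem_of {A : Subgroup (GL (Fin 2) F)} (hA : center _ ≤ A) : φ g ∈ A.map φ ↔ g ∈ A := by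
  rw [← mem_comap, comap_map_eq_self (h.kerc.trans hA)]

theorem mem_Zt : φ g ∈ Zt φ ↔ g ∈ center _ := h.mem_of le_rfl

theorem mem_Tt : φ g ∈ Tt φ ↔ g ∈ dgH.range := by rw [Tt_eq, h.mem_of cen_le_dT]

theorem mem_Yt : φ g ∈ Yt φ e ↔ g ∈ nsT e := h.mem_of cen_le_nsT

theorem card_of {A : Subgroup (GL (Fin 2) F)} (hA : center _ ≤ A) :
    Nat.card (A.map φ) * Nat.card φ.ker = Nat.card A := by
  rw [← card_map_mul_card_inf_ker A φ, inf_eq_left.2 (h.kerc.trans hA)]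

theorem ker_odd {a : Fˣ} (ha : φ (dg a a) = 1) : Odd (orderOf a) :=
  h.kero.of_dvd_nat (orderOf_dvd_of_pow_eq_one (dg_inj (by
    rw [← dg_pow, dg_one]
    exact congrArg Subtype.val (pow_card_eq_one' (x := (⟨_, ha⟩ : φ.ker))))).1)

theorem lift (e : φ g = φ g') : ∃ a : Fˣ, φ (dg a a) = 1 ∧ g = dg a a * g' := by
  have k : g * g'⁻¹ ∈ φ.ker := by rw [MonoidHom.mem_ker, map_mul, map_inv, e, mul_inv_cancel]
  obtain ⟨a, ha⟩ := mem_cen'.1 (h.kerc k)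
  exact ⟨a, ha ▸ k, by rw [← ha, inv_mul_cancel_right]⟩

theorem eq_one_of_sq {a : Fˣ} (ha : φ (dg a a) = 1) (e : a * a = 1) : a = 1 := by
  have := orderOf_dvd_of_pow_eq_one (show a ^ 2 = 1 by rw [sq, e])
  rcases (Nat.dvd_prime Nat.prime_two).1 this with k | k
  · exact orderOf_eq_one_iff.1 k
  · exact absurd (k ▸ h.ker_odd ha) (by decide)

theorem eq_of_det (e : φ g = φ g') (d : Matrix.GeneralLinearGroup.det g = Matrix.GeneralLinearGroup.det g') :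
    g = g' := by
  obtain ⟨a, ha, rfl⟩ := h.lift e
  rw [map_mul, mul_eq_right] at d
  rw [h.eq_one_of_sq ha (Units.ext (by simpa [det_ent] using congrArg Units.val d)), dg_one, one_mul]

theorem conj_lift {c : GL (Fin 2) F} (e : φ c * φ g * (φ c)⁻¹ = φ g) : c * g * c⁻¹ = g :=
  h.eq_of_det (by rw [map_mul, map_mul, map_inv, e]) (by rw [map_mul, map_mul, map_inv, mul_inv_cancel_comm])

theorem xp_inj {a b : F} (e : φ (xp a) = φ (xp b)) : a = b := by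
  simpa using congrArg (fun g : GL (Fin 2) F => g 0 1) (h.eq_of_det e (Units.ext (by simp [det_ent])))

theorem xp_ne {a : F} (ha : a ≠ 0) : φ (xp a) ≠ 1 := fun e => ha (h.xp_inj (by rw [e, xp_zero, map_one]))

theorem kZ : Nat.card (Zt φ) * Nat.card φ.ker = Fintype.card F - 1 := by rw [Zt, h.card_of le_rfl, card_cen]

theorem card_of' {A : Subgroup (GL (Fin 2) F)} (hA : center _ ≤ A) {n : ℕ}
    (k : Nat.card A = n * (Fintype.card F - 1)) : Nat.card (A.map φ) = n * Nat.card (Zt φ) :=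
  Nat.eq_of_mul_eq_mul_right (Nat.card_pos (α := φ.ker)) (by rw [h.card_of hA, k, mul_assoc, h.kZ])

theorem kX : Nat.card (Xp φ) = Fintype.card F := by
  rw [Xp, ← Nat.card_congr (MonoidHom.ofInjective (f := φ.comp xpH) fun x y e => h.xp_inj e).toEquiv,
    Nat.card_eq_fintype_card, Fintype.card_multiplicative]

omit h in
theorem cen {z c : G} (hz : z ∈ Zt φ) (hc : c ∈ φ.range) : z * c = c * z := by
  obtain ⟨a, rfl⟩ := mem_Zt'.1 hz
  obtain ⟨c, rfl⟩ := hc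
  rw [← map_mul, ← map_mul, dg_comm]

theorem ZX : Zt φ ⊓ Xp φ = ⊥ := eq_bot_iff.2 fun x hx => by
  obtain ⟨c, rfl⟩ := mem_Xp.1 hx.2
  have : c = 0 := by simpa using (mem_cen.1 (h.mem_Zt.1 hx.1)).1
  rw [this, xp_zero, map_one]; exact one_mem _

theorem cs (he : ¬ IsSquare e) : CS (Fintype.card F) φ.range (Zt φ) (Tt φ) (Yt φ e) (Ut φ) (Xp φ) (wt φ) (uu φ)
    (φ (xp 1)) := by
  have e0 : e ≠ 0 := fun k => he (k ▸ IsSquare.zero)
  have q3 := h.q3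
  have ZC : Zt φ ≤ φ.range := map_le_range _ _
  have XC : Xp φ ≤ φ.range := fun x hx => let ⟨_, k⟩ := mem_Xp.1 hx; ⟨_, k⟩
  have cj : ∀ c g, φ c * φ g * (φ c)⁻¹ = φ (c * g * c⁻¹) := fun c g => by rw [map_mul, map_mul, map_inv]
  have cm : ∀ {A : Subgroup (GL (Fin 2) F)}, (∀ a ∈ A, ∀ b ∈ A, a * b = b * a) → IsMulCommutative (A.map φ) :=
    fun k => ⟨⟨by
      rintro ⟨_, a, ha, rfl⟩ ⟨_, b, hb, rfl⟩
      exact Subtype.ext (show φ a * φ b = φ b * φ a by rw [← map_mul, k a ha b hb, map_mul])⟩⟩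
  obtain ⟨m, hm⟩ : ∃ m, Fintype.card F = m + 1 := ⟨_, (Nat.sub_add_cancel (by omega)).symm⟩
  have sq1 : (m + 1) ^ 2 - 1 = (m + 2) * m := Nat.sub_eq_of_eq_add (by ring)
  refine ⟨q3, Tt_eq φ ▸ map_mono cen_le_dT, map_mono cen_le_nsT, Tt_eq φ ▸ map_le_range _ _, map_le_range _ _, XC,
    sup_le ZC XC, fun _ hz _ hc => cen hz hc, Tt_eq φ ▸ cm fun _ ha _ hb => dT_comm ha hb,
    cm fun _ ha _ hb => nsT_comm ha hb, ⟨⟨?_⟩⟩, Tt_eq φ ▸ h.card_of' cen_le_dT card_dT,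
    h.card_of' cen_le_nsT (by rw [card_nsT he, hm, sq1]; rfl), h.kX, ?_, ?_, ⟨_, rfl⟩,
    by rw [wt, ← map_mul, ww_mul, map_one], fun k => by simpa using (mem_dT.1 (h.mem_Tt.1 k)).1, ?_, ?_, ⟨_, rfl⟩,
    by rw [uu, ← map_mul, dg_mul]; simp [dg_one], fun k => ?_, ?_, ?_, mem_Xp.2 ⟨_, rfl⟩, h.xp_ne one_ne_zero, ?_,
    ?_, ?_, ?_, ?_, ?_, ?_, ?_, ?_⟩
  · rintro ⟨_, a, rfl⟩ ⟨_, b, rfl⟩
    exact Subtype.ext (show _ * _ = _ * _ by rw [← map_mul, ← map_mul, mul_comm])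
  · rw [Ut, card_sup_of_inf_eq_bot (.inl ((show Zt φ ≤ centralizer (Xp φ : Set G) from fun z hz x hx =>
      (cen hz (XC hx)).symm).trans (centralizer_le_normalizer _))) h.ZX, h.kX, mul_comm]
  · rw [φ.range_eq_map]
    refine h.card_of' le_top ?_
    rw [card_top, Cfsg.Agent.Lin.card_GL2 rfl, hm, sq1, show (m + 1) ^ 2 - (m + 1) = (m + 1) * m from
      Nat.sub_eq_of_eq_add (by ring), Nat.add_sub_cancel]
    ring
  · intro g hg
    obtain ⟨a, d, rfl⟩ := mem_Tt'.1 hg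
    rw [wt, cj, ww_dg]; exact mem_Tt'.2 ⟨_, _, rfl⟩
  · intro g hg
    obtain ⟨a, d, rfl⟩ := mem_Tt'.1 hg
    rw [wt, cj, ww_dg, ← map_mul, dg_mul, mul_comm d]; exact mem_Zt'.2 ⟨_, rfl⟩
  · exact h.neg_ne (Units.ext (by simpa using (h.mem_Yt.1 k).1.symm))
  · rintro _ ⟨g, hg, rfl⟩
    obtain ⟨k1, k2, k3, k4⟩ := u_ent g rfl
    rw [uu, cj]
    exact h.mem_Yt.2 ⟨by rw [k1, k4, hg.1], by rw [k2, k3, hg.2, neg_mul]⟩
  · rintro _ ⟨g, hg, rfl⟩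
    obtain ⟨k1, k2, k3, k4⟩ := u_ent g rfl
    rw [uu, cj, ← map_mul]
    refine h.mem_Zt.2 (mem_cen.2 ⟨?_, ?_, ?_⟩) <;> simp only [mul_ent g, k1, k2, k3, k4, hg.1, hg.2] <;> ring
  · exact h.odd.of_dvd_nat (orderOf_dvd_of_pow_eq_one (by
      rw [← map_pow, xp_pow, FiniteField.cast_card_eq_zero, zero_mul, xp_zero, map_one]))
  · intro a ha a1
    obtain ⟨c, rfl⟩ := mem_Xp.1 ha
    have c0 : c ≠ 0 := fun k => a1 (by rw [k, xp_zero, map_one])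
    exact ⟨_, ⟨dg (Units.mk0 c c0) 1, rfl⟩, by rw [cj, dg_xp]; simp⟩
  · intro c hc
    refine mul_inv_eq_iff_eq_mul.2 (mem_centralizer_singleton_iff.1 ((sup_le (fun z hz => ?_) fun x hx => ?_ :
      Ut φ ≤ centralizer {φ (xp 1)}) hc))
    · exact mem_centralizer_singleton_iff.2 (cen hz ⟨_, rfl⟩)
    · obtain ⟨c, rfl⟩ := mem_Xp.1 hx
      rw [mem_centralizer_singleton_iff, ← map_mul, ← map_mul, xp_add, xp_add, add_comm]
  · rintro g hg hz _ ⟨c, rfl⟩ k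
    obtain ⟨a, d, rfl⟩ := mem_Tt'.1 hg
    rw [cj, h.mem_Tt] at k
    rw [wt, ← map_mul, h.mem_Tt, h.mem_Tt]
    exact tiT0 (dg_mem_dT a d) (h.mem_Zt.not.1 hz) k
  · rintro _ ⟨g, hg, rfl⟩ hz _ ⟨c, rfl⟩ k
    rw [cj, h.mem_Yt] at k
    rw [uu, ← map_mul, h.mem_Yt, h.mem_Yt]
    exact tiY0 h.two e0 hg (h.mem_Zt.not.1 hz) k
  · rintro z hz _ ⟨c, rfl⟩ k
    obtain ⟨a, rfl⟩ := mem_Zt'.1 hz
    rw [cj, ← map_mul] at k
    obtain ⟨b, -, k⟩ := h.lift k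
    rw [← mul_assoc (dg b b), dg_mul] at k
    obtain ⟨-, a, s, rfl⟩ := tiX0 h.two one_ne_zero k
    rw [map_mul]
    exact mul_mem_sup (mem_Zt'.2 ⟨_, rfl⟩) (mem_Xp.2 ⟨_, rfl⟩)
  · rintro g hg hz _ ⟨c, rfl⟩
    obtain ⟨a, d, rfl⟩ := mem_Tt'.1 hg
    rw [cj, h.mem_Yt]
    exact TY0 h.two he (dg_mem_dT a d) (h.mem_Zt.not.1 hz)
  · rintro z hz _ ⟨c, rfl⟩
    obtain ⟨a, rfl⟩ := mem_Zt'.1 hz
    rw [← map_mul, cj, h.mem_Tt]
    exact TX0 a one_ne_zero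
  · rintro z hz _ ⟨c, rfl⟩
    obtain ⟨a, rfl⟩ := mem_Zt'.1 hz
    rw [← map_mul, cj, h.mem_Yt]
    exact YX0 h.two e0 a one_ne_zero

end BK

end CA.Br
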