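import Cfsg.Agent.Br.Base2

/-!
# The non-split torus, and products of two involutions
-/

set_option autoImplicit false
set_option linter.unusedSectionVars false

open Cfsg Subgroup CA.Dih CA.FG

namespace CA.Br

universe u v

theorem exists_theta (A : Type*) [Group A] [Finite A] [IsCyclic A] :
    ∃ θ : A →* ℂˣ, ∀ a, θ a = 1 ↔ Odd (orderOf a) := by
  have : NeZero (Nat.card A) := ⟨Nat.card_pos.ne'⟩
  let e := mulEquivOfCyclicCardEq (G := A) (G' := rootsOfUnity (Nat.card A) ℂ) (Complex.card_rootsOfUnity _).symm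
  obtain ⟨k, m, hm, hk⟩ := Nat.exists_eq_two_pow_mul_odd (Nat.card_pos (α := A)).ne'
  refine ⟨(powMonoidHom m).comp ((rootsOfUnity _ ℂ).subtype.comp e.toMonoidHom), fun a => ?_⟩
  have : ((e a : ℂˣ)) ^ m = 1 ↔ a ^ m = 1 := by
    rw [← Subgroup.coe_pow, ← map_pow, OneMemClass.coe_eq_one, EmbeddingLike.map_eq_one_iff]
  refine this.trans ⟨fun h => hm.of_dvd_nat (orderOf_dvd_of_pow_eq_one h), fun h => orderOf_dvd_iff_pow_eq_one.1 ?_⟩
  exact (Nat.Coprime.pow_right k h.coprime_two_right).dvd_of_dvd_mul_left (hk ▸ orderOf_dvd_natCard a)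

theorem neg_of_sq {z : ℂˣ} (h : z * z = 1) (h1 : z ≠ 1) : z = -1 := (unit_sq h).resolve_left h1

theorem odd_of_pow {A : Type*} [Group A] {a : A} {n : ℕ} (hn : Odd n) (h : Odd (orderOf (a ^ n))) :
    Odd (orderOf a) := (hn.mul h).of_dvd_nat (orderOf_dvd_of_pow_eq_one (by rw [pow_mul, pow_orderOf_eq_one]))

variable {F : Type v} [Field F]

local notation "dt" => Matrix.GeneralLinearGroup.det

section Mat

variable {m y : GL (Fin 2) F} {e : F}

theorem det_dg (a d : Fˣ) : dt (dg a d) = a * d := Units.ext (by simp [det_ent])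

theorem det_xp (a : F) : dt (xp a) = 1 := Units.ext (by simp [det_ent])

theorem det_xm (a : F) : dt (xm a) = 1 := Units.ext (by simp [det_ent])

theorem det_cj (c g : GL (Fin 2) F) : dt (c * g * c⁻¹) = dt g := by
  rw [map_mul, map_mul, map_inv, mul_inv_cancel_comm]

theorem nsT_cyc [Finite F] (he : ¬ IsSquare e) : IsCyclic (nsT e) := by
  have : Fact (∀ r : F, r ^ 2 ≠ e + 0 * r) := ⟨fun r k => he ⟨r, by rw [← sq, k, zero_mul, add_zero]⟩⟩
  let f : nsT e →* QuadraticAlgebra F e 0 :=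
    { toFun g := ⟨g.1 1 1, g.1 1 0⟩
      map_one' := by ext <;> simp <;> rfl
      map_mul' a b := by ext <;> simp [mul_ent, b.2.1, b.2.2] <;> ring }
  refine isCyclic_of_injective_ringHom f fun a b k => Subtype.ext ?_
  have k1 : a.1 1 1 = b.1 1 1 := congrArg QuadraticAlgebra.re k
  have k2 : a.1 1 0 = b.1 1 0 := congrArg QuadraticAlgebra.im k
  exact gl_ext (by rw [a.2.1, b.2.1, k1]) (by rw [a.2.2, b.2.2, k2]) k2 k1

open Polynomial in
theorem norm_surj [Fintype F] (ho : Odd (Fintype.card F)) (he : e ≠ 0) (d : Fˣ) : ∃ y ∈ nsT e, dt y = d := by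
  obtain ⟨a, b, k⟩ := FiniteField.exists_root_sum_quadratic (f := X ^ 2 - C (d : F)) (g := C (-e) * X ^ 2)
    (degree_X_pow_sub_C (by decide) _) (degree_C_mul_X_pow 2 (neg_ne_zero.2 he)) (Nat.odd_iff.1 ho)
  simp at k
  have k' : a * a - b * e * b = d := by linear_combination k
  exact ⟨mk2 a (b * e) b a (k' ▸ d.ne_zero), ⟨rfl, rfl⟩, Units.ext (by rw [det_ent]; exact k')⟩

theorem u_nsT (hy : y ∈ nsT e) : dg 1 (-1) * y * (dg 1 (-1))⁻¹ ∈ nsT e := by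
  obtain ⟨k1, k2, k3, k4⟩ := u_ent y rfl
  exact ⟨by rw [k1, k4, hy.1], by rw [k2, k3, hy.2, neg_mul]⟩

theorem mul_u (hy : y ∈ nsT e) : y * (dg 1 (-1) * y * (dg 1 (-1))⁻¹) = dg (dt y) (dt y) := by
  obtain ⟨k1, k2, k3, k4⟩ := u_ent y rfl
  apply gl_ext <;> simp only [mul_ent y, k1, k2, k3, k4, dg_val, det_ent, hy.1, hy.2] <;> simp <;> ring

theorem hilb (h2 : (2 : F) ≠ 0) (he : e ≠ 0) (hy : y ∈ nsT e) (d : dt y = 1) :
    ∃ x ∈ nsT e, dg 1 (-1) * x * (dg 1 (-1))⁻¹ = y * x := by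
  have d : y 1 1 * y 1 1 - y 1 0 * e * y 1 0 = 1 := by
    have := det_ent y
    rwa [d, hy.1, hy.2, eq_comm] at this
  rw [u_inv]
  by_cases a : 1 + y 1 1 = 0
  · have a' : y 1 1 = -1 := by linear_combination a
    have b : y 1 0 = 0 := by
      rw [a'] at d
      simpa [he] using (show y 1 0 * e * y 1 0 = 0 by linear_combination -d)
    refine ⟨mk2 0 e 1 0 (by simpa using he), ⟨rfl, by simp⟩, gl_ext ?_ ?_ ?_ ?_⟩ <;>
      simp [mul_ent, hy.1, hy.2, a', b]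
  · refine ⟨mk2 (1 + y 1 1) (-y 1 0 * e) (-y 1 0) (1 + y 1 1) fun k => mul_ne_zero h2 a (by
      linear_combination k - d), ⟨rfl, rfl⟩, gl_ext ?_ ?_ ?_ ?_⟩ <;> simp [mul_ent, hy.1, hy.2]
    · linear_combination -d
    · ring
    · ring
    · linear_combination -d

theorem card_Y1 [Fintype F] (ho : Odd (Fintype.card F)) (he : ¬ IsSquare e) :
    Nat.card (nsT e ⊓ (dt).ker : Subgroup (GL (Fin 2) F)) = Fintype.card F + 1 := by
  have k := card_map_mul_card_inf_ker (nsT e) dt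
  rw [show (nsT e).map dt = ⊤ from eq_top_iff.2 fun d _ => norm_surj ho (fun k => he (by rw [k]; exact IsSquare.zero)) d,
    card_top, Nat.card_units, Nat.card_eq_fintype_card, card_nsT he, inf_comm] at k
  obtain ⟨n, hn⟩ : ∃ n, Fintype.card F = n + 2 :=
    ⟨_, (Nat.sub_add_cancel (Fintype.one_lt_card (α := F))).symm⟩
  rw [hn, show (n + 2) ^ 2 - 1 = (n + 1) * (n + 3) from Nat.sub_eq_of_eq_add (by ring)] at k
  exact hn ▸ Nat.eq_of_mul_eq_mul_left (Nat.succ_pos n) k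

theorem sq_of_tr (h : m 0 0 + m 1 1 = 0) (d : dt m = -1) : m * m = 1 := by
  have d : m 0 0 * m 1 1 - m 0 1 * m 1 0 = -1 := by rw [← det_ent, d]; rfl
  apply gl_ext <;> simp [mul_ent]
  · linear_combination m 0 0 * h - d
  · linear_combination m 0 1 * h
  · linear_combination m 1 0 * h
  · linear_combination m 1 1 * h - d

end Mat

variable [Fintype F] {G : Type u} [Group G] {φ : GL (Fin 2) F →* G} {g m : GL (Fin 2) F} {e : F}

namespace BK

variable (h : BK φ)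
include h

theorem J_of {i : G} (hi : i ∈ φ.range) (e : i * i = 1) (i1 : i ≠ 1) (it : i ≠ tt φ) :
    ∃ m, φ m = i ∧ m 0 0 + m 1 1 = 0 ∧ dt m = -1 := by
  obtain ⟨_, ⟨c, rfl⟩, k⟩ := h.inv_cj hi e i1 it
  exact ⟨_, (cj φ _ _).symm.trans k, by rw [← tr_conj rfl]; simp, by rw [det_cj, det_dg, one_mul]⟩

theorem J_inv [Fintype G] (t : m 0 0 + m 1 1 = 0) (d : dt m = -1) : φ m ∈ invs G :=
  mem_invs.2 ⟨by rw [← map_mul, sq_of_tr t d, map_one], fun k => by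
    obtain ⟨a, rfl⟩ := mem_cen'.1 (h.kerc k)
    exact a.ne_zero (mul_left_cancel₀ h.two (by simp at t; linear_combination t))⟩

theorem lin {μ : φ.range →* ℂˣ} (d : dt g = 1) : μ (φ.rangeRestrict g) = 1 := by
  have q := h.q3
  have k : g ∈ commutator (GL (Fin 2) F) := by
    rw [Cfsg.Agent.Lin.commutator_GL fun _ => ⟨-1, by simp, fun k => h.neg_ne (Units.ext k)⟩]; exact d
  exact Abelianization.commutator_subset_ker (μ.comp φ.rangeRestrict) k

theorem lin_eq {μ : φ.range →* ℂˣ} {g' : GL (Fin 2) F} (d : dt g = dt g') :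
    μ (φ.rangeRestrict g) = μ (φ.rangeRestrict g') := by
  have := h.lin (μ := μ) (g := g * g'⁻¹) (by rw [map_mul, map_inv, d, mul_inv_cancel])
  rwa [map_mul, map_mul, map_inv, map_inv, mul_inv_eq_one] at this

omit h in
theorem exists_lin (l : Fˣ →* ℂˣ) (hl : ∀ g, φ g = 1 → l (dt g) = 1) :
    ∃ μ : φ.range →* ℂˣ, ∀ g, μ (φ.rangeRestrict g) = l (dt g) :=
  ⟨φ.rangeRestrict.liftOfSurjective φ.rangeRestrict_surjective ⟨l.comp dt, fun g k => hl g (congrArg Subtype.val k)⟩,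
    fun g => MonoidHom.liftOfRightInverse_comp_apply _ _ _ _ g⟩

theorem kH : Nat.card (Ht φ) = Fintype.card F - 1 := by
  rw [Ht, ← Nat.card_congr (MonoidHom.ofInjective fun x y e => ?_).toEquiv, Nat.card_units, Nat.card_eq_fintype_card]
  exact (dg_inj (h.eq_of_det (g := dg x x⁻¹) (g' := dg y y⁻¹) e (by simp [det_dg]))).1

theorem mem_Ht (d : dt g = 1) : φ g ∈ Ht φ ↔ g ∈ dgH.range := by
  refine ⟨fun ⟨a, k⟩ => h.mem_Tt.1 (mem_Tt'.2 ⟨_, _, k⟩), ?_⟩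
  rintro ⟨⟨a, b⟩, rfl⟩
  obtain rfl := eq_inv_of_mul_eq_one_right ((det_dg a b).symm.trans d)
  exact ⟨a, rfl⟩

theorem kY1 (he : ¬ IsSquare e) : Nat.card (Y1t φ e) = Fintype.card F + 1 := by
  rw [← card_Y1 h.odd he, ← card_map_mul_card_inf_ker _ φ, Y1t, show φ.ker ⊓ (nsT e ⊓ (dt).ker) = ⊥ from
    eq_bot_iff.2 fun g k => h.eq_of_det (k.1.trans (map_one φ).symm) (k.2.2.trans (map_one _).symm), card_bot, mul_one]

theorem SL_Z (d : dt g = 1) (k : φ g ∈ Zt φ) : φ g = 1 ∨ φ g = tt φ := by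
  obtain ⟨a, rfl⟩ := mem_cen'.1 (h.mem_Zt.1 k)
  exact h.invZ k (by rw [← map_mul, dg_mul, ← det_dg, d, dg_one, map_one])

theorem cycY (he : ¬ IsSquare e) : IsCyclic (Yt φ e) := cyclic_map φ (nsT_cyc he)

end BK

namespace BL

variable [Fintype G] (h : BL φ)
include h

theorem rr_aux {x i : G} (hx : tt φ ∈ zpowers x) (x2 : x * x ≠ 1) (hi : i ∈ invs G) (hi' : i * x ∈ invs G) :
    ∃ m m', φ m = i ∧ φ m' = i * x ∧ m 0 0 + m 1 1 = 0 ∧ dt m = -1 ∧ m' 0 0 + m' 1 1 = 0 ∧ dt m' = -1 := by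
  obtain ⟨i2, i1⟩ := mem_invs.1 hi
  obtain ⟨j2, j1⟩ := mem_invs.1 hi'
  have xC : x ∈ φ.range := h.mem_C.2 (by obtain ⟨k, hk⟩ := hx; rw [← hk]; exact (Commute.self_zpow x k).eq)
  have iC : i ∈ φ.range := h.mem_C.2 (mul_inv_eq_iff_eq_mul.1 ((CA.GW.inv_of_mem_zpowers (by
    rw [inv_eq_of_mul_eq_one_right i2, eq_inv_iff_mul_eq_one, mul_assoc, j2]) hx).trans
      (inv_eq_of_mul_eq_one_right tt_mul)))
  obtain ⟨m, k1, k2, k3⟩ := h.toBK.J_of iC i2 i1 fun k => x2 (by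
    rw [k, mul_assoc, ← mul_assoc x, ← tt_comm xC, ← mul_assoc, ← mul_assoc, tt_mul, one_mul] at j2; exact j2)
  obtain ⟨m', l1, l2, l3⟩ := h.toBK.J_of (mul_mem iC xC) j2 j1 fun k => x2 (by
    rw [eq_inv_mul_of_mul_eq k, inv_eq_of_mul_eq_one_right i2, mul_assoc, ← mul_assoc (tt φ), tt_comm iC,
      mul_assoc, tt_mul, mul_one, i2])
  exact ⟨m, m', k1, l1, k2, k3, l2, l3⟩

theorem rr_zero {x : G} (hx : tt φ ∈ zpowers x) (x2 : x * x ≠ 1) (k : ∀ g, dt g = 1 → φ g ≠ x) : rr x = 0 := by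
  classical
  rw [rr, Finset.card_eq_zero, Finset.filter_eq_empty_iff]
  intro i hi hi'
  obtain ⟨m, m', k1, l1, -, k3, -, l3⟩ := h.rr_aux hx x2 hi hi'
  exact k (m⁻¹ * m') (by rw [map_mul, map_inv, k3, l3, inv_mul_cancel]) (by rw [map_mul, map_inv, k1, l1]; group)

theorem rr_eq (hx : tt φ ∈ zpowers (φ g)) (x2 : φ g * φ g ≠ 1) (d : dt g = 1) {A : Type*} (f : A → F × F × F)
    (hf : Function.Injective f) (hA : ∀ a b c : F, (a, b, c) ∈ Set.range f ↔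
      a * a + b * c = 1 ∧ a * (g 0 0 - g 1 1) + b * g 1 0 + c * g 0 1 = 0) : rr (φ g) = Nat.card A := by
  classical
  have p : ∀ x, (f x).1 * (f x).1 + (f x).2.1 * (f x).2.2 = 1 ∧ _ := fun x => (hA _ _ _).1 ⟨x, rfl⟩
  let M : A → GL (Fin 2) F := fun x => mk2 (f x).1 (f x).2.1 (f x).2.2 (-(f x).1) fun k =>
    one_ne_zero (by linear_combination -k - (p x).1)
  have dM : ∀ x, dt (M x) = -1 := fun x => Units.ext (by simp [det_ent, M]; linear_combination -(p x).1)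
  have tM : ∀ x, (M x * g) 0 0 + (M x * g) 1 1 = 0 := fun x => by
    simp [mul_ent, M]; linear_combination (p x).2
  rw [rr, ← Nat.card_eq_finsetCard]
  refine (Nat.card_congr (Equiv.ofBijective (fun x => ⟨φ (M x), Finset.mem_filter.2 ⟨h.toBK.J_inv (by simp [M]) (dM x),
    map_mul φ _ _ ▸ h.toBK.J_inv (tM x) (by rw [map_mul, dM, d, mul_one])⟩⟩)
      ⟨fun x y k => hf ?_, fun ⟨i, hi⟩ => ?_⟩)).symm
  · have k := h.toBK.eq_of_det (congrArg Subtype.val k) ((dM x).trans (dM y).symm)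
    exact Prod.ext (congrArg (fun g : GL (Fin 2) F => g 0 0) k) (Prod.ext (congrArg (fun g : GL (Fin 2) F => g 0 1) k)
      (congrArg (fun g : GL (Fin 2) F => g 1 0) k))
  · obtain ⟨m, m', rfl, l1, k2, k3, l2, l3⟩ := h.rr_aux hx x2 (Finset.mem_filter.1 hi).1 (Finset.mem_filter.1 hi).2
    obtain rfl := h.toBK.eq_of_det (l1.trans (map_mul φ _ _).symm) (by rw [map_mul, k3, l3, d, mul_one])
    have k4 : m 1 1 = - m 0 0 := by linear_combination k2
    have k5 : m 0 0 * m 1 1 - m 0 1 * m 1 0 = -1 := by rw [← det_ent, k3]; rfl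
    rw [mul_ent, mul_ent, k4] at l2
    obtain ⟨x, hx⟩ := (hA (m 0 0) (m 0 1) (m 1 0)).2 ⟨by rw [k4] at k5; linear_combination -k5,
      by linear_combination l2⟩
    exact ⟨x, Subtype.ext (congrArg φ (gl_ext (by simp [M, hx]) (by simp [M, hx]) (by simp [M, hx])
      (by simp [M, hx, k4])))⟩

theorem rrt : rr (tt φ) = Fintype.card F * (Fintype.card F + 1) := by
  rw [← h.toBK.relT, ← h.toBK.cent_u, inf_relIndex_left, ← CA.GW.ncard_conj, rr, ← Set.ncard_coe_finset]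
  congr 1
  ext i
  simp only [Finset.coe_filter, mem_invs, Set.mem_setOf_eq]
  refine ⟨fun ⟨⟨i2, i1⟩, j2, j1⟩ => h.toBK.inv_cj (h.mem_C.2 ?_) i2 i1 fun k => j1 (by rw [k, tt_mul]), ?_⟩
  · rw [eq_inv_of_mul_eq_one_left j2, mul_inv_rev, inv_eq_of_mul_eq_one_right i2, inv_eq_of_mul_eq_one_right tt_mul]
  · rintro ⟨c, hc, rfl⟩
    have u1 : uu φ ≠ 1 := fun k => h.toBK.uZ (k ▸ one_mem _)
    rw [← tt_conj hc, ← conj_mul', ← conj_mul', ← conj_mul', uu_mul, mul_assoc (uu φ), ← mul_assoc (tt φ),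
      tt_comm (c := uu φ) ⟨_, rfl⟩, mul_assoc (uu φ), tt_mul, mul_one, mul_one, uu_mul]
    simp only [mul_one, mul_inv_cancel, ne_eq, conj_eq_one_iff, u1, not_false_eq_true, true_and]
    exact fun k => h.toBK.uZ (by rw [eq_inv_of_mul_eq_one_left k]; exact inv_mem tt_Zt)

theorem zx {z : G} (hz : z ∈ Zt φ) (ht : tt φ ∈ zpowers z) :
    tt φ ∈ zpowers (z * φ (xp 1)) ∧ z * φ (xp 1) * (z * φ (xp 1)) ≠ 1 := by
  have c : Commute z (φ (xp 1)) := BK.cen hz ⟨_, rfl⟩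
  refine ⟨?_, fun k => ?_⟩
  · obtain ⟨j, hj⟩ := h.odd
    have : (z * φ (xp 1)) ^ Fintype.card F = z ^ Fintype.card F := by
      rw [c.mul_pow, ← map_pow, xp_pow, FiniteField.cast_card_eq_zero, zero_mul, xp_zero, map_one, mul_one]
    obtain ⟨k, hk⟩ := ht
    have e : (z ^ Fintype.card F) ^ k = tt φ := by
      rw [← zpow_natCast, zpow_comm, show z ^ k = tt φ from hk, zpow_natCast, hj, pow_succ, pow_mul, sq, tt_mul,
        one_pow, one_mul]
    exact e ▸ this ▸ zpow_mem (pow_mem (mem_zpowers _) _) _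
  · rw [c.symm.mul_mul_mul_comm, ← map_mul, xp_add] at k
    have : φ (xp (1 + 1)) ∈ Zt φ ⊓ Xp φ := ⟨by
      rw [eq_inv_of_mul_eq_one_right k]; exact (Zt φ).inv_mem (mul_mem hz hz), mem_Xp.2 ⟨_, rfl⟩⟩
    rw [h.toBK.ZX] at this
    exact h.toBK.xp_ne (by rw [one_add_one_eq_two]; exact h.toBK.two) this

theorem rrtx : rr (tt φ * φ (xp 1)) = 2 * Fintype.card F := by
  obtain ⟨k1, k2⟩ := h.zx tt_Zt (mem_zpowers _)
  rw [show tt φ * φ (xp 1) = φ (dg (-1) (-1) * xp 1) from (map_mul φ _ _).symm] at k1 k2 ⊢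
  rw [h.rr_eq k1 k2 (by simp [det_dg, det_xp]) (fun x : Bool × F => (if x.1 then 1 else -1, x.2, 0)) ?_ ?_]
  · simp
  · have : (1 : F) ≠ -1 := fun k => h.toBK.neg_ne (Units.ext k.symm)
    rintro ⟨_ | _, a⟩ ⟨_ | _, b⟩ k <;> simp_all [eq_comm]
  · intro a b c
    simp only [mul_ent]
    simp only [Set.mem_range, Prod.mk.injEq, Prod.exists, Bool.exists_bool]
    simp [mul_self_eq_one_iff]
    grind

theorem sq_ne {x : G} (hx : tt φ ∈ zpowers x) (k : x ≠ tt φ) : x * x ≠ 1 := fun e =>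
  ((CA.GW.BA.mem_zpowers_inv e).1 hx).elim h.toBK.t1 k.symm

theorem rrZ {z : G} (hz : z ∈ Zt φ) (ht : tt φ ∈ zpowers z) (k : z ≠ tt φ) : rr z = 0 ∧ rr (z * φ (xp 1)) = 0 := by
  have a : ∀ g, dt g = 1 → φ g ≠ z := fun g d e => (h.toBK.SL_Z d (e ▸ hz)).elim
    (fun l => h.sq_ne ht k (by rw [← e, l, one_mul])) fun l => k (e ▸ l)
  exact ⟨h.rr_zero ht (h.sq_ne ht k) a, h.rr_zero (h.zx hz ht).1 (h.zx hz ht).2 fun g d e =>
    a (g * (xp 1)⁻¹) (by rw [map_mul, map_inv, d, det_xp, mul_inv_cancel]) (by rw [map_mul, map_inv, e]; group)⟩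

open Classical in
theorem rrT {x : G} (hx : x ∈ Tt φ) (ht : tt φ ∈ zpowers x) (k : x ∉ Zt φ) :
    rr x = if x ∈ Ht φ then Fintype.card F - 1 else 0 := by
  have x2 := h.sq_ne ht fun e => k (e ▸ tt_Zt)
  split_ifs with l
  · obtain ⟨s, rfl⟩ := mem_Ht'.1 l
    have ne : (s : F) - (s : F)⁻¹ ≠ 0 := fun e => k (h.toBK.mem_Zt.2 (mem_cen.2 ⟨rfl, rfl, by simpa using sub_eq_zero.1 e⟩))
    rw [h.rr_eq ht x2 (by simp [det_dg]) (fun x : Fˣ => (0, x, (x : F)⁻¹))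
      (fun a b e => Units.ext (congrArg (·.2.1) e)) fun a b c => ?_, Nat.card_units, Nat.card_eq_fintype_card]
    simp only [dg_val, Set.mem_range, Prod.mk.injEq]
    simp [ne]
    refine ⟨by rintro ⟨rfl, x, rfl, rfl⟩; simp, ?_⟩
    rintro ⟨e, rfl⟩
    rw [mul_zero, zero_add] at e
    exact ⟨rfl, Units.mk0 b (left_ne_zero_of_mul_eq_one e), rfl, (eq_inv_of_mul_eq_one_right e).symm⟩
  · exact h.rr_zero ht x2 fun g d e => l (e ▸ (h.toBK.mem_Ht d).2 (h.toBK.mem_Tt.1 (e ▸ hx)))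

open Classical in
theorem rrY (he : ¬ IsSquare e) {x : G} (hx : x ∈ Yt φ e) (ht : tt φ ∈ zpowers x) (k : x ∉ Zt φ) :
    rr x = if x ∈ Y1t φ e then Fintype.card F + 1 else 0 := by
  have x2 := h.sq_ne ht fun e => k (e ▸ tt_Zt)
  split_ifs with l
  · obtain ⟨y, ⟨y1, y2⟩, rfl⟩ := l
    have ne := nsT_ne y1 (h.toBK.mem_Zt.not.1 k)
    rw [h.rr_eq ht x2 y2 (fun x : (nsT e ⊓ (dt).ker : Subgroup (GL (Fin 2) F)) => (x.1 0 0, x.1 0 1, - x.1 1 0))
      (fun a b e => ?_) fun a b c => ⟨?_, fun ⟨e1, e2⟩ => ?_⟩, card_Y1 h.odd he]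
    · obtain ⟨e1, e2, e3⟩ : _ ∧ _ ∧ _ := by simpa using e
      exact Subtype.ext (gl_ext e1 e2 e3 (by rw [← a.2.1.1, ← b.2.1.1, e1]))
    · rintro ⟨x, e⟩
      obtain ⟨rfl, rfl, rfl⟩ : _ ∧ _ ∧ _ := by simpa only [Prod.mk.injEq] using e
      have d := det_ent x.1
      rw [show dt x.1 = 1 from x.2.2, ← x.2.1.1, Units.val_one] at d
      exact ⟨by linear_combination -d, by rw [y1.1, y1.2, x.2.1.2]; ring⟩
    · rw [y1.1, y1.2] at e2
      have e3 : b = -c * e := mul_left_cancel₀ ne (by linear_combination e2)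
      have d : a * a - b * -c = 1 := by linear_combination e1
      exact ⟨⟨mk2 a b (-c) a (d ▸ one_ne_zero), ⟨rfl, e3⟩, Units.ext (by rw [det_ent]; exact d)⟩, by simp⟩
  · exact h.rr_zero ht x2 fun g d e => l ⟨g, ⟨h.toBK.mem_Yt.1 (e ▸ hx), d⟩, e⟩

end BL

end CA.Br
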