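import Cfsg.Agent.Br.Defs
import Cfsg.Agent.Dih.BSW1

/-!
# The abstract shape of `GL₂(q)/Z` used by the character theory
-/

set_option autoImplicit false
set_option linter.unusedSectionVars false

open Cfsg Subgroup CA.Dih

namespace CA.Br

universe u

variable {G : Type u} [Group G]

/-- a linear character trivial on the elements of odd order -/
def Pr {A : Type*} [Group A] (ν : A →* ℂˣ) : Prop := ∀ g : A, Odd (orderOf g) → ν g = 1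

/-- `C = GL₂(q)/Z₀`, `Z` centre, `T` split torus, `Y` non-split torus, `X` root group, `U = Z X`,
`w` swaps the diagonal entries, `u = diag(1,-1)` acts on `Y` as the Galois conjugation, `x ∈ X^#`. -/
structure CS (q : ℕ) (C Z T Y U X : Subgroup G) (w u x : G) : Prop where
  q3 : 3 ≤ q
  ZT : Z ≤ T
  ZY : Z ≤ Y
  TC : T ≤ C
  YC : Y ≤ C
  XC : X ≤ C
  UC : U ≤ C
  cen : ∀ z ∈ Z, ∀ c ∈ C, z * c = c * z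
  cT : IsMulCommutative T
  cY : IsMulCommutative Y
  cX : IsMulCommutative X
  kT : Nat.card T = (q - 1) * Nat.card Z
  kY : Nat.card Y = (q + 1) * Nat.card Z
  kX : Nat.card X = q
  kU : Nat.card U = q * Nat.card Z
  kC : Nat.card C = q * (q ^ 2 - 1) * Nat.card Z
  wC : w ∈ C
  w2 : w * w = 1
  wn : w ∉ T
  wT : ∀ g ∈ T, w * g * w⁻¹ ∈ T
  wZ : ∀ g ∈ T, g * (w * g * w⁻¹) ∈ Z
  uC : u ∈ C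
  u2 : u * u = 1
  un : u ∉ Y
  uY : ∀ g ∈ Y, u * g * u⁻¹ ∈ Y
  uZ : ∀ g ∈ Y, g * (u * g * u⁻¹) ∈ Z
  xX : x ∈ X
  x1 : x ≠ 1
  xo : Odd (orderOf x)
  cjX : ∀ a ∈ X, a ≠ 1 → ∃ c ∈ C, c * x * c⁻¹ = a
  Ux : ∀ c ∈ U, c * x * c⁻¹ = x
  tiT : ∀ g ∈ T, g ∉ Z → ∀ c ∈ C, c * g * c⁻¹ ∈ T → c ∈ T ∨ c * w ∈ T
  tiY : ∀ g ∈ Y, g ∉ Z → ∀ c ∈ C, c * g * c⁻¹ ∈ Y → c ∈ Y ∨ c * u ∈ Y
  tiX : ∀ z ∈ Z, ∀ c ∈ C, c * x * c⁻¹ = z * x → c ∈ U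
  TY : ∀ g ∈ T, g ∉ Z → ∀ c ∈ C, c * g * c⁻¹ ∉ Y
  TX : ∀ z ∈ Z, ∀ c ∈ C, c * (z * x) * c⁻¹ ∉ T
  YX : ∀ z ∈ Z, ∀ c ∈ C, c * (z * x) * c⁻¹ ∉ Y

open Classical in
/-- the extra data available under Brauer's hypothesis: `C = C(t)`, `H = {diag(a,a⁻¹)}`, `Y1` the norm one
elements, `r` of order three modulo `T`, `lam` = (a character of `2`-power order of `F^×` with
`lam(-1) = -1`) ∘ det, `θ1 θ2` characters of `2`-power order of `Y` not fixed by `u`. -/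
structure CS2 [Fintype G] (q : ℕ) (C Z T Y U X H Y1 : Subgroup G) (t w u x r : G)
    (lam : C →* ℂˣ) (θ1 θ2 : Y →* ℂˣ) : Prop extends CS q C Z T Y U X w u x where
  qo : Odd q
  hC : C = centralizer {t}
  t2 : t * t = 1
  t1 : t ≠ 1
  tZ : t ∈ Z
  uT : u ∈ T
  invY : ∀ y ∈ Y, y * y = 1 → y = 1 ∨ y = t
  invT : ∀ g ∈ T, g * g = 1 → g = 1 ∨ g = t ∨ g = u ∨ g = t * u
  cj : ∀ i : G, i * i = 1 → i ≠ 1 → IsConj t i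
  oddC : ¬ 2 ∣ C.index
  rt : r * t * r⁻¹ = u
  ru : r * u * r⁻¹ = t * u
  rT : ∀ g ∈ T, r * g * r⁻¹ ∈ T
  r3 : r * r * r ∈ T
  wr : w * r * w⁻¹ * r ∈ T
  linT : ∀ μ : C →* ℂˣ, (∀ g : C, (g : G) ∈ T → μ g = 1) → μ = 1
  linY : ∀ μ : C →* ℂˣ, (∀ g : C, (g : G) ∈ Y → μ g = 1) → μ = 1
  linH : ∀ (μ : C →* ℂˣ) (g : C), (g : G) ∈ H → μ g = 1
  linY1 : ∀ (μ : C →* ℂˣ) (g : C), (g : G) ∈ Y1 → μ g = 1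
  extY : ∀ θ : Y →* ℂˣ, (∀ y y' : Y, (y' : G) = u * y * u⁻¹ → θ y' = θ y) →
    ∃ μ : C →* ℂˣ, ∀ (y : Y) (g : C), (g : G) = y → μ g = θ y
  HT : H ≤ T
  kH : Nat.card H = q - 1
  tH : t ∈ H
  HZ : ∀ g ∈ H, g ∈ Z → g = 1 ∨ g = t
  invH : ∀ g ∈ H, g * g = 1 → g = 1 ∨ g = t
  Y1Y : Y1 ≤ Y
  kY1 : Nat.card Y1 = q + 1
  tY1 : t ∈ Y1
  Y1Z : ∀ g ∈ Y1, g ∈ Z → g = 1 ∨ g = t
  Y1u : ∀ y ∈ Y, y⁻¹ * (u * y * u⁻¹) ∈ Y1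
  Y1i : ∀ y ∈ Y1, u * y * u⁻¹ = y⁻¹
  rrt : rr t = q * (q + 1)
  rrtx : rr (t * x) = 2 * q
  rrZ : ∀ z ∈ Z, t ∈ zpowers z → z ≠ t → rr z = 0 ∧ rr (z * x) = 0
  rrT : ∀ g ∈ T, t ∈ zpowers g → g ∉ Z → rr g = if g ∈ H then q - 1 else 0
  rrY : ∀ g ∈ Y, t ∈ zpowers g → g ∉ Z → rr g = if g ∈ Y1 then q + 1 else 0
  lP : Pr lam
  lu : ∀ g : C, (g : G) = u → lam g = -1
  P1 : Pr θ1
  P2 : Pr θ2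
  n1 : ∃ y y' : Y, (y' : G) = u * y * u⁻¹ ∧ θ1 y' ≠ θ1 y
  n2 : ∃ y y' : Y, (y' : G) = u * y * u⁻¹ ∧ θ2 y' ≠ θ2 y
  n12 : θ1 ≠ θ2
  n12' : ∃ y y' : Y, (y' : G) = u * y * u⁻¹ ∧ θ1 y' ≠ θ2 y
  θt : ∀ y : Y, (y : G) = t → θ1 y = -1
  /-- `q ≡ 1 mod 4`, or `q ≡ 3 mod 4` (then `T₂ = V` and there is a third pair of characters of `Y`) -/
  cas : lam * lam ≠ 1 ∨
    ((∀ g ∈ T, Odd (orderOf g) ∨ Odd (orderOf (t * g)) ∨ Odd (orderOf (u * g)) ∨ Odd (orderOf (t * u * g))) ∧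
      ∃ θ3 : Y →* ℂˣ, Pr θ3 ∧ (∃ y y' : Y, (y' : G) = u * y * u⁻¹ ∧ θ3 y' ≠ θ3 y) ∧ θ1 ≠ θ3 ∧ θ2 ≠ θ3 ∧
        (∃ y y' : Y, (y' : G) = u * y * u⁻¹ ∧ θ1 y' ≠ θ3 y) ∧ ∃ y y' : Y, (y' : G) = u * y * u⁻¹ ∧ θ2 y' ≠ θ3 y)

theorem realizeEqns_Br_CS : True := by
  have := @CA.Br.Pr.eq_1.{0}
  have := @CA.Br.Pr.eq_def.{0}
  have := @CA.Br.Pr.congr_simp.{0}
  trivial

end CA.Br
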