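import Cfsg.Agent.Br.CS

/-!
# Class functions with prescribed values on the tori
-/

set_option autoImplicit false
set_option linter.unusedSectionVars false

open Cfsg Subgroup CA.Chr CA.Dih Finset
open scoped ComplexConjugate Classical

namespace CA.Br

universe u

variable {G : Type u} [Group G] [Fintype G]

/-- sum over all conjugates -/
noncomputable def Av (f : G → ℂ) : G → ℂ := fun g => ∑ n : G, f (n * g * n⁻¹)

theorem Av_CF (f : G → ℂ) : Av f ∈ CF G := mem_CF.mpr fun g x => by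
  unfold Av
  exact Fintype.sum_equiv (Equiv.mulRight x) _ _ fun n => by simp [mul_assoc]

theorem dot_Av {χ : G → ℂ} (hχ : χ ∈ CF G) (f : G → ℂ) : ⟪χ, Av f⟫ = ∑ g, χ g * conj (f g) := by
  rw [dot_def]
  have : ∀ n : G, ∑ g, χ g * conj (f (n * g * n⁻¹)) = ∑ g, χ g * conj (f g) := fun n =>
    Fintype.sum_equiv (MulAut.conj n).toEquiv _ _ fun g => by
      simp [CF_conj hχ]
  simp only [Av, map_sum, mul_sum]
  rw [sum_comm]
  simp only [← mul_sum, this, sum_const, card_univ, nsmul_eq_mul, Nat.card_eq_fintype_card]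
  have : (Fintype.card G : ℂ) ≠ 0 := by simp
  field_simp

theorem Av_eq {f : G → ℂ} {g : G} (p : G → Prop) [DecidablePred p] (c : ℂ)
    (h : ∀ n, f (n * g * n⁻¹) = if p n then c else 0) : Av f g = (univ.filter p).card * c := by
  simp only [Av, h]
  rw [← sum_filter, sum_const, nsmul_eq_mul]

theorem card_filter_sub (A : Subgroup G) : (univ.filter fun n => n ∈ A).card = Nat.card A := by
  rw [Nat.card_eq_fintype_card, Fintype.card_subtype]

theorem card_two_cosets (A : Subgroup G) {s : G} (hs : s ∉ A) :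
    (univ.filter fun n => n ∈ A ∨ n * s ∈ A).card = 2 * Nat.card A := by
  rw [filter_or, card_union_of_disjoint, card_filter_sub, two_mul]
  · congr 1
    rw [← card_filter_sub]
    exact card_bij (fun n _ => n * s) (fun n hn => by simpa using hn) (fun a _ b _ e => by simpa using e)
      fun b hb => ⟨b * s⁻¹, by simpa using hb, by simp⟩
  · rw [disjoint_filter]
    exact fun n _ h1 h2 => hs (by simpa using A.mul_mem (A.inv_mem h1) h2)

theorem sum_ite_sub (A : Subgroup G) (k : G → ℂ) : ∑ g, (if g ∈ A then k g else 0) = ∑ g : A, k g := by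
  rw [← sum_filter]
  exact sum_subtype _ (by simp) k

/-- `(χ z - χ (z x)) / q` on `Z` -/
noncomputable def mm (q : ℕ) (Z : Subgroup G) (x : G) (χ : G → ℂ) (g : G) : ℂ :=
  if g ∈ Z then (χ g - χ (g * x)) / q else 0

/-- the split torus part -/
noncomputable def Fa (q : ℕ) (Z : Subgroup G) (x : G) (χ : G → ℂ) (g : G) : ℂ := χ g - (q - 1) * mm q Z x χ g

/-- the non-split torus part -/
noncomputable def Fb (q : ℕ) (Z : Subgroup G) (x : G) (χ : G → ℂ) (g : G) : ℂ := χ g - (q + 1) * mm q Z x χ g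

/-- sum over `A ∩ D` -/
noncomputable def SD (A : Subgroup G) (D : Set G) (a b : G → ℂ) : ℂ :=
  ∑ g : A, if (g : G) ∈ D then a g * conj (b g) else 0

/-- the supporting function -/
noncomputable def sf (q : ℕ) (C Z T Y U : Subgroup G) (x : G) (D : Set G) (a b : G → ℂ) (g : G) : ℂ :=
  (if g ∈ Z ∧ g ∈ D then ((q + 1) * a g - (q - 1) * b g) / (2 * Nat.card C) else 0) +
  (if g ∈ T ∧ g ∉ Z ∧ g ∈ D then a g / (2 * Nat.card T) else 0) +
  (if g ∈ Y ∧ g ∉ Z ∧ g ∈ D then b g / (2 * Nat.card Y) else 0) +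
  (if g * x⁻¹ ∈ Z ∧ g * x⁻¹ ∈ D then (a (g * x⁻¹) + b (g * x⁻¹)) / (2 * Nat.card U) else 0)

/-- the class function with torus parts `a` and `b` -/
noncomputable def Ph (q : ℕ) (C Z T Y U : Subgroup G) (x : G) (D : Set G) (a b : G → ℂ) : G → ℂ :=
  Av (sf q C Z T Y U x D a b)

/-- a set of special classes -/
structure TD (C Z : Subgroup G) (x : G) (D : Set G) : Prop where
  ti : ∀ g ∈ D, ∀ n, n * g * n⁻¹ ∈ D → n ∈ C
  cj : ∀ g ∈ D, ∀ c ∈ C, c * g * c⁻¹ ∈ D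
  dx : ∀ z ∈ Z, z * x ∈ D ↔ z ∈ D

namespace CS

variable {q : ℕ} {C Z T Y U X : Subgroup G} {w u x : G} (h : CS q C Z T Y U X w u x) {D : Set G}
include h

theorem ZC : Z ≤ C := h.ZT.trans h.TC
theorem xC : x ∈ C := h.XC h.xX
theorem xT : x ∉ T := by simpa using h.TX 1 Z.one_mem 1 C.one_mem
theorem xZ : x ∉ Z := fun e => h.xT (h.ZT e)

theorem conjZ {z c : G} (hz : z ∈ Z) (hc : c ∈ C) : c * z * c⁻¹ = z := by
  rw [← h.cen z hz c hc]; group

theorem conj_notZ {g c : G} (hg : g ∉ Z) (hc : c ∈ C) : c * g * c⁻¹ ∉ Z := fun e => hg (by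
  have := h.conjZ e (C.inv_mem hc)
  rw [show c⁻¹ * (c * g * c⁻¹) * c⁻¹⁻¹ = g by group] at this
  rwa [this])

theorem conjT {g c : G} (hg : g ∈ T) (hc : c ∈ T) : c * g * c⁻¹ = g := by
  have := h.cT.is_comm.comm ⟨c, hc⟩ ⟨g, hg⟩
  rw [show c * g = g * c from congrArg Subtype.val this]; group

theorem conjY {g c : G} (hg : g ∈ Y) (hc : c ∈ Y) : c * g * c⁻¹ = g := by
  have := h.cY.is_comm.comm ⟨c, hc⟩ ⟨g, hg⟩
  rw [show c * g = g * c from congrArg Subtype.val this]; group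

theorem q0 : (q : ℂ) ≠ 0 := by have := h.q3; exact_mod_cast (by omega : q ≠ 0)
theorem q1 : (q : ℂ) - 1 ≠ 0 := by
  have := h.q3; rw [sub_ne_zero]; exact_mod_cast (by omega : q ≠ 1)
theorem q1' : (q : ℂ) + 1 ≠ 0 := by exact_mod_cast (by omega : q + 1 ≠ 0)

theorem kT' : (Nat.card T : ℂ) = (q - 1) * Nat.card Z := by
  have := h.q3; rw [h.kT]; push_cast [Nat.cast_sub (by omega : 1 ≤ q)]; ring
theorem kY' : (Nat.card Y : ℂ) = (q + 1) * Nat.card Z := by rw [h.kY]; push_cast; ring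
theorem kU' : (Nat.card U : ℂ) = q * Nat.card Z := by rw [h.kU]; push_cast; ring
theorem kC' : (Nat.card C : ℂ) = q * (q - 1) * (q + 1) * Nat.card Z := by
  have := h.q3
  rw [h.kC]; push_cast [Nat.cast_sub (by nlinarith : 1 ≤ q ^ 2)]; ring

theorem sf_zero (d : TD C Z x D) (a b : G → ℂ) {g : G} (hg : g ∉ D) : sf q C Z T Y U x D a b g = 0 := by
  have : ¬ (g * x⁻¹ ∈ Z ∧ g * x⁻¹ ∈ D) := fun e => hg (by simpa using (d.dx _ e.1).2 e.2)
  simp [sf, hg, this]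

omit h in
theorem Ph_CF (a b : G → ℂ) : Ph q C Z T Y U x D a b ∈ CF G := Av_CF _

theorem Ph_zero (d : TD C Z x D) (a b : G → ℂ) {g : G} (hg : ∀ n, n * g * n⁻¹ ∉ D) :
    Ph q C Z T Y U x D a b g = 0 :=
  sum_eq_zero fun n _ => h.sf_zero d a b (hg n)

theorem Ph_Z (d : TD C Z x D) (a b : G → ℂ) {z : G} (hz : z ∈ Z) (hD : z ∈ D) :
    Ph q C Z T Y U x D a b z = ((q + 1) * a z - (q - 1) * b z) / 2 := by
  rw [Ph, Av_eq (· ∈ C) (((q + 1) * a z - (q - 1) * b z) / (2 * Nat.card C)), card_filter_sub]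
  · have : (Nat.card C : ℂ) ≠ 0 := card_ne_zero
    field_simp
  · intro n
    split_ifs with hn
    · have : z * x⁻¹ ∉ Z := fun e => h.xZ (by simpa using Z.mul_mem (Z.inv_mem e) hz)
      simp [h.conjZ hz hn, sf, hz, hD, this]
    · exact h.sf_zero d a b fun e => hn (d.ti z hD n e)

theorem Ph_X (d : TD C Z x D) (a b : G → ℂ) {z : G} (hz : z ∈ Z) (hD : z ∈ D) :
    Ph q C Z T Y U x D a b (z * x) = (a z + b z) / 2 := by
  have hD' := (d.dx z hz).2 hD
  rw [Ph, Av_eq (· ∈ U) ((a z + b z) / (2 * Nat.card U)), card_filter_sub]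
  · have : (Nat.card U : ℂ) ≠ 0 := card_ne_zero
    field_simp
  · intro n
    by_cases hn : n ∈ C
    swap
    · rw [if_neg fun e => hn (h.UC e)]
      exact h.sf_zero d a b fun e => hn (d.ti _ hD' n e)
    have h1 := h.TX z hz n hn
    have h2 := h.YX z hz n hn
    have h3 : n * (z * x) * n⁻¹ ∉ Z := fun e => h1 (h.ZT e)
    have e1 : n * (z * x) * n⁻¹ = z * (n * x * n⁻¹) := by
      rw [← mul_assoc n z, ← h.cen z hz n hn]; group
    split_ifs with hU
    · have : n * (z * x) * n⁻¹ * x⁻¹ = z := by rw [e1, h.Ux n hU]; group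
      simp only [sf, h1, h2, h3, this, hz, hD]; simp
    · have : n * (z * x) * n⁻¹ * x⁻¹ ∉ Z := fun e => hU (h.tiX _ (Z.mul_mem (Z.inv_mem hz) e) n hn (by
        rw [e1]; group))
      simp only [sf, h1, h2, h3, this]; simp

theorem notZx {g c : G} (hc : c ∈ C) (hg : g ∈ T ∨ g ∈ Y) : c * g * c⁻¹ * x⁻¹ ∉ Z := fun e => by
  have h1 := h.TX _ e c⁻¹ (C.inv_mem hc)
  have h2 := h.YX _ e c⁻¹ (C.inv_mem hc)
  rw [show c⁻¹ * (c * g * c⁻¹ * x⁻¹ * x) * c⁻¹⁻¹ = g by group] at h1 h2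
  tauto

theorem Ph_T (d : TD C Z x D) {a : G → ℂ} (ha : ∀ g ∈ T, a (w * g * w⁻¹) = a g) (b : G → ℂ) {g : G}
    (hg : g ∈ T) (hz : g ∉ Z) (hD : g ∈ D) : Ph q C Z T Y U x D a b g = a g := by
  rw [Ph, Av_eq (fun n => n ∈ T ∨ n * w ∈ T) (a g / (2 * Nat.card T)), card_two_cosets T h.wn]
  · have : (Nat.card T : ℂ) ≠ 0 := card_ne_zero
    push_cast; field_simp
  · intro n
    have wi : w⁻¹ = w := inv_eq_of_mul_eq_one_right h.w2
    by_cases hn : n ∈ C
    swap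
    · rw [if_neg]
      · exact h.sf_zero d a b fun e => hn (d.ti _ hD n e)
      · rintro (e | e)
        · exact hn (h.TC e)
        · exact hn (by simpa using C.mul_mem (h.TC e) (C.inv_mem h.wC))
    have h1 := h.conj_notZ hz hn
    have h2 := h.TY g hg hz n hn
    have h3 := h.notZx hn (Or.inl hg)
    have h4 := d.cj g hD n hn
    split_ifs with hT
    · have : n * g * n⁻¹ ∈ T ∧ a (n * g * n⁻¹) = a g := by
        rcases hT with e | e
        · rw [h.conjT hg e]; exact ⟨hg, rfl⟩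
        · have : n * g * n⁻¹ = (n * w) * (w * g * w⁻¹) * (n * w)⁻¹ := by
            rw [show n * w * (w * g * w⁻¹) * (n * w)⁻¹ = n * (w * w) * g * (w * w)⁻¹ * n⁻¹ by group, h.w2]
            group
          rw [this, h.conjT (h.wT g hg) e]; exact ⟨h.wT g hg, ha g hg⟩
      simp only [sf, h1, h2, h3, h4, this]; simp
    · have : n * g * n⁻¹ ∉ T := fun e => hT (h.tiT g hg hz n hn e)
      simp only [sf, h1, h2, h3, this]; simp

theorem Ph_Y (d : TD C Z x D) (a : G → ℂ) {b : G → ℂ} (hb : ∀ g ∈ Y, b (u * g * u⁻¹) = b g) {g : G}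
    (hg : g ∈ Y) (hz : g ∉ Z) (hD : g ∈ D) : Ph q C Z T Y U x D a b g = b g := by
  rw [Ph, Av_eq (fun n => n ∈ Y ∨ n * u ∈ Y) (b g / (2 * Nat.card Y)), card_two_cosets Y h.un]
  · have : (Nat.card Y : ℂ) ≠ 0 := card_ne_zero
    push_cast; field_simp
  · intro n
    by_cases hn : n ∈ C
    swap
    · rw [if_neg]
      · exact h.sf_zero d a b fun e => hn (d.ti _ hD n e)
      · rintro (e | e)
        · exact hn (h.YC e)
        · exact hn (by simpa using C.mul_mem (h.YC e) (C.inv_mem h.uC))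
    have h1 := h.conj_notZ hz hn
    have h2 : n * g * n⁻¹ ∉ T := fun e => h.TY _ e h1 n⁻¹ (C.inv_mem hn) (by
      rwa [show n⁻¹ * (n * g * n⁻¹) * n⁻¹⁻¹ = g by group])
    have h3 := h.notZx hn (Or.inr hg)
    have h4 := d.cj g hD n hn
    split_ifs with hT
    · have : n * g * n⁻¹ ∈ Y ∧ b (n * g * n⁻¹) = b g := by
        rcases hT with e | e
        · rw [h.conjY hg e]; exact ⟨hg, rfl⟩
        · have : n * g * n⁻¹ = (n * u) * (u * g * u⁻¹) * (n * u)⁻¹ := by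
            rw [show n * u * (u * g * u⁻¹) * (n * u)⁻¹ = n * (u * u) * g * (u * u)⁻¹ * n⁻¹ by group, h.u2]
            group
          rw [this, h.conjY (h.uY g hg) e]; exact ⟨h.uY g hg, hb g hg⟩
      simp only [sf, h1, h2, h3, h4, this]; simp
    · have : n * g * n⁻¹ ∉ Y := fun e => hT (h.tiY g hg hz n hn e)
      simp only [sf, h1, h2, h3, this]; simp

theorem Fa_Ph (d : TD C Z x D) {a : G → ℂ} (ha : ∀ g ∈ T, a (w * g * w⁻¹) = a g) (b : G → ℂ) {g : G}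
    (hg : g ∈ T) (hD : g ∈ D) : Fa q Z x (Ph q C Z T Y U x D a b) g = a g := by
  by_cases hz : g ∈ Z
  · have := h.q0
    simp only [Fa, mm, hz, if_true, h.Ph_Z d a b hz hD, h.Ph_X d a b hz hD]
    field_simp; ring
  · simp [Fa, mm, hz, h.Ph_T d ha b hg hz hD]

theorem Fb_Ph (d : TD C Z x D) (a : G → ℂ) {b : G → ℂ} (hb : ∀ g ∈ Y, b (u * g * u⁻¹) = b g) {g : G}
    (hg : g ∈ Y) (hD : g ∈ D) : Fb q Z x (Ph q C Z T Y U x D a b) g = b g := by
  by_cases hz : g ∈ Z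
  · have := h.q0
    simp only [Fb, mm, hz, if_true, h.Ph_Z d a b hz hD, h.Ph_X d a b hz hD]
    field_simp; ring
  · simp [Fb, mm, hz, h.Ph_Y d a hb hg hz hD]

/-- the value at a central element from the two torus parts -/
theorem val_Z (χ : G → ℂ) {z : G} (hz : z ∈ Z) :
    χ z = ((q + 1) * Fa q Z x χ z - (q - 1) * Fb q Z x χ z) / 2 := by
  simp only [Fa, Fb]; ring

theorem dot_Ph {χ : G → ℂ} (hχ : χ ∈ CF G) (a b : G → ℂ) :
    ⟪χ, Ph q C Z T Y U x D a b⟫ =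
      (2 * Nat.card T : ℂ)⁻¹ * SD T D (Fa q Z x χ) a + (2 * Nat.card Y : ℂ)⁻¹ * SD Y D (Fb q Z x χ) b := by
  rw [Ph, dot_Av hχ]
  simp only [sf, map_add, mul_add, sum_add_distrib]
  have e : ∑ g, χ g * conj (if g * x⁻¹ ∈ Z ∧ g * x⁻¹ ∈ D then (a (g * x⁻¹) + b (g * x⁻¹)) / (2 * Nat.card U) else 0)
      = ∑ g, χ (g * x) * conj (if g ∈ Z ∧ g ∈ D then (a g + b g) / (2 * Nat.card U) else 0) :=
    Fintype.sum_equiv (Equiv.mulRight x⁻¹) _ _ fun g => by simp
  rw [e, SD, SD, ← sum_ite_sub T fun g => if g ∈ D then Fa q Z x χ g * conj (a g) else 0,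
    ← sum_ite_sub Y fun g => if g ∈ D then Fb q Z x χ g * conj (b g) else 0, mul_sum, mul_sum]
  simp only [← sum_add_distrib]
  refine sum_congr rfl fun g _ => ?_
  have := h.q0; have := h.q1; have := h.q1'
  have : (Nat.card Z : ℂ) ≠ 0 := card_ne_zero
  by_cases hD : g ∈ D
  swap
  · simp [hD]
  by_cases hz : g ∈ Z
  · simp only [hD, hz, h.ZT hz, h.ZY hz, Fa, Fb, mm, h.kT', h.kY', h.kU', h.kC']
    simp only [and_self, if_true, not_true, false_and, and_false, if_false, map_zero, map_div₀, map_sub, map_mul,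
      map_add, map_natCast, map_one, map_ofNat]
    field_simp; ring
  · by_cases hT : g ∈ T <;> by_cases hY : g ∈ Y <;> simp [hD, hz, hT, hY, Fa, Fb, mm, div_eq_mul_inv, map_ofNat] <;> ring

theorem dot_Ph_Ph (d : TD C Z x D) {a b : G → ℂ} (ha : ∀ g ∈ T, a (w * g * w⁻¹) = a g)
    (hb : ∀ g ∈ Y, b (u * g * u⁻¹) = b g) (a' b' : G → ℂ) :
    ⟪Ph q C Z T Y U x D a b, Ph q C Z T Y U x D a' b'⟫ =
      (2 * Nat.card T : ℂ)⁻¹ * SD T D a a' + (2 * Nat.card Y : ℂ)⁻¹ * SD Y D b b' := by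
  rw [h.dot_Ph (Ph_CF a b)]
  congr 2
  · exact sum_congr rfl fun g _ => by
      split_ifs with hD
      · rw [h.Fa_Ph d ha b g.2 hD]
      · rfl
  · exact sum_congr rfl fun g _ => by
      split_ifs with hD
      · rw [h.Fb_Ph d a hb g.2 hD]
      · rfl

theorem mm_w {χ : G → ℂ} {c g : G} (hc : c ∈ C) : mm q Z x χ (c * g * c⁻¹) = mm q Z x χ g := by
  by_cases hz : g ∈ Z
  · rw [h.conjZ hz hc]
  · simp [mm, hz, h.conj_notZ hz hc]

theorem Fa_w {χ : G → ℂ} (hχ : χ ∈ CF G) {c : G} (hc : c ∈ C) (g : G) :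
    Fa q Z x χ (c * g * c⁻¹) = Fa q Z x χ g := by
  rw [Fa, Fa, h.mm_w hc, CF_conj hχ]

theorem Fb_w {χ : G → ℂ} (hχ : χ ∈ CF G) {c : G} (hc : c ∈ C) (g : G) :
    Fb q Z x χ (c * g * c⁻¹) = Fb q Z x χ g := by
  rw [Fb, Fb, h.mm_w hc, CF_conj hχ]

/-- Bessel's inequality -/
theorem bessel_lt (d : TD C Z x D) (h1 : (1 : G) ∉ D) {χ : G → ℂ} (hχ : Dirr χ) :
    ((2 * Nat.card T : ℂ)⁻¹ * SD T D (Fa q Z x χ) (Fa q Z x χ) +
      (2 * Nat.card Y : ℂ)⁻¹ * SD Y D (Fb q Z x χ) (Fb q Z x χ)).re < 1 := by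
  have cf := ZIrr.mem_CF hχ.mem_ZIrr
  set P := Ph q C Z T Y U x D (Fa q Z x χ) (Fb q Z x χ) with hP
  have e1 := h.dot_Ph (D := D) cf (Fa q Z x χ) (Fb q Z x χ)
  have e2 := h.dot_Ph_Ph d (a := Fa q Z x χ) (b := Fb q Z x χ) (fun g _ => h.Fa_w cf h.wC g)
    (fun g _ => h.Fb_w cf h.uC g) (Fa q Z x χ) (Fb q Z x χ)
  rw [← hP] at e1 e2
  rw [← e1]
  have e3 : nrm P = (⟪χ, P⟫).re := by rw [e1, ← e2, dot_self]; simp
  have p1 : P 1 = 0 := h.Ph_zero d _ _ fun n => by simpa using h1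
  have : 0 < nrm (χ - P) := nrm_pos fun e => hχ.deg_ne_zero (by simpa [p1] using congrFun e 1)
  rw [nrm_sub, hχ.nrm, e3] at this
  linarith

/-- integrality of the multiplicities on `Z X` -/
theorem int_mm {χ : G → ℂ} (hχ : χ ∈ ZIrr G) (κ : Z →* ℂˣ) :
    ∃ n : ℤ, (Nat.card Z : ℂ)⁻¹ * ∑ z : Z, mm q Z x χ z * conj (κ z : ℂ) = n := by
  haveI := h.cX
  obtain ⟨ψ, hψ⟩ := exists_lin_ne_one (G := X) (g := ⟨x, h.xX⟩) (fun e => h.x1 (congrArg Subtype.val e))
  have hψ1 : ψ ≠ 1 := fun e => hψ (by simp [e])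
  let j : Z × X →* G := Z.subtype.noncommCoprod X.subtype fun z a => h.cen z z.2 a (h.XC a.2)
  obtain ⟨n, hn⟩ := ZIrr.dot_int (ZIrr.comp hχ j)
    (lin_mem_ZIrr ((κ.comp (MonoidHom.fst Z X)) * (ψ.comp (MonoidHom.snd Z X))))
  refine ⟨n, ?_⟩
  rw [← hn, dot_def, Fintype.sum_prod_type, Nat.card_prod, h.kX]
  have cf := ZIrr.mem_CF hχ
  have s0 : ∑ a : X, conj (ψ a : ℂ) = 0 := by rw [← map_sum, sum_lin_eq_zero hψ1, map_zero]
  have : ∀ z : Z, ∑ a : X, (χ ∘ j) (z, a) * conj (lin ((κ.comp (MonoidHom.fst Z X)) *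
      (ψ.comp (MonoidHom.snd Z X))) (z, a)) = (χ z - χ (z * x)) * conj (κ z : ℂ) := fun z => by
    have e : ∀ a : X, (χ ∘ j) (z, a) * conj (lin ((κ.comp (MonoidHom.fst Z X)) *
        (ψ.comp (MonoidHom.snd Z X))) (z, a)) =
        (if a = 1 then (χ z - χ (z * x)) * conj (κ z : ℂ) else 0) + χ (z * x) * conj (κ z : ℂ) * conj (ψ a : ℂ) := by
      intro a
      have e0 : (χ ∘ j) (z, a) = χ (z * a) := rfl
      rw [e0]
      split_ifs with ha
      · subst ha; simp [lin]; ring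
      · obtain ⟨c, hc, e⟩ := h.cjX a a.2 fun e => ha (Subtype.ext e)
        have : χ (z * a) = χ (z * x) := by
          rw [← e, ← CF_conj cf (z * x) c, ← mul_assoc c z, ← h.cen z z.2 c hc]; congr 1; group
        rw [this]; simp [lin]; ring
    simp only [e, sum_add_distrib, ← mul_sum, s0]
    simp
  simp only [this, mm, SetLike.coe_mem, if_true]
  have := h.q0
  have : (Nat.card Z : ℂ) ≠ 0 := card_ne_zero
  simp only [div_mul_eq_mul_div, ← sum_div]
  push_cast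
  field_simp

end CS

theorem realizeEqns_Br_Ch1 : True := by
  have := @CA.Br.mm.eq_1.{0}
  have := @CA.Br.mm.eq_def.{0}
  have := @CA.Br.mm.congr_simp.{0}
  have := @CA.Br.SD.eq_1.{0}
  have := @CA.Br.SD.eq_def.{0}
  have := @CA.Br.SD.congr_simp.{0}
  have := @CA.Br.Fb.eq_1.{0}
  have := @CA.Br.Fb.eq_def.{0}
  have := @CA.Br.Fb.congr_simp.{0}
  have := @CA.Br.Fa.eq_1.{0}
  have := @CA.Br.Fa.eq_def.{0}
  have := @CA.Br.Fa.congr_simp.{0}
  have := @CA.Br.sf.eq_1.{0}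
  have := @CA.Br.sf.eq_def.{0}
  have := @CA.Br.sf.congr_simp.{0}
  have := @CA.Br.Ph.eq_1.{0}
  have := @CA.Br.Ph.eq_def.{0}
  have := @CA.Br.Ph.congr_simp.{0}
  have := @CA.Br.Av.eq_1.{0}
  have := @CA.Br.Av.eq_def.{0}
  have := @CA.Br.Av.congr_simp.{0}
  trivial

end CA.Br
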