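import Cfsg.Agent.Br.Ch1
import Cfsg.Agent.Blk.B2

/-!
# The tori: integrality, and characters of the principal block
-/

set_option autoImplicit false
set_option linter.unusedSectionVars false

open Cfsg Subgroup CA.Chr CA.Dih CA.Blk Finset
open scoped ComplexConjugate Classical

namespace CA.Br

universe u

variable {G : Type u} [Group G] [Fintype G]

/-- a linear character of a subgroup, extended by zero -/
noncomputable def ex {A : Subgroup G} (ν : A →* ℂˣ) (g : G) : ℂ := if h : g ∈ A then ν ⟨g, h⟩ else 0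

theorem ex_coe {A : Subgroup G} (ν : A →* ℂˣ) (g : A) : ex ν g = ν g := by simp [ex]
theorem ex_mem {A : Subgroup G} (ν : A →* ℂˣ) {g : G} (h : g ∈ A) : ex ν g = ν ⟨g, h⟩ := by simp [ex, h]

/-- conjugation as an endomorphism of a subgroup -/
def cjH {A : Subgroup G} {s : G} (hs : ∀ g ∈ A, s * g * s⁻¹ ∈ A) : A →* A where
  toFun g := ⟨s * g * s⁻¹, hs g g.2⟩
  map_one' := by ext; simp
  map_mul' a b := by ext; simp [mul_assoc]

theorem cjH_coe {A : Subgroup G} {s : G} (hs : ∀ g ∈ A, s * g * s⁻¹ ∈ A) (g : A) :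
    (cjH hs g : G) = s * g * s⁻¹ := rfl

theorem cjH_bij {A : Subgroup G} {s : G} (hs : ∀ g ∈ A, s * g * s⁻¹ ∈ A) : Function.Bijective (cjH hs) :=
  Finite.injective_iff_bijective.1 fun a b e => Subtype.ext (by simpa [cjH_coe] using congrArg Subtype.val e)

theorem sum_cjH {A : Subgroup G} {s : G} (hs : ∀ g ∈ A, s * g * s⁻¹ ∈ A) (k : G → ℂ) :
    ∑ g : A, k (s * g * s⁻¹) = ∑ g : A, k g :=
  Fintype.sum_bijective _ (cjH_bij hs) _ _ fun _ => rfl

theorem ex_cj {A : Subgroup G} (ν : A →* ℂˣ) {s : G} (hs : ∀ g ∈ A, s * g * s⁻¹ ∈ A) (g : A) :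
    ex ν (s * g * s⁻¹) = ν.comp (cjH hs) g := ex_mem ν (hs g g.2)

theorem sum_lin_conj {A : Type*} [Group A] [Fintype A] (a b : A →* ℂˣ) :
    ∑ g, (a g : ℂ) * conj (b g : ℂ) = if a = b then (Nat.card A : ℂ) else 0 := by
  have := dot_lin a b
  rw [dot_def] at this
  have h0 : (Nat.card A : ℂ) ≠ 0 := card_ne_zero
  have e : ∑ g, (a g : ℂ) * conj (b g : ℂ) = Nat.card A * if a = b then 1 else 0 := by
    rw [← this]; field_simp; rfl
  rw [e]; split_ifs <;> simp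

theorem odd_orderOf_mul {a b : G} (c : Commute a b) (hb : Odd (orderOf b)) :
    Odd (orderOf (a * b)) ↔ Odd (orderOf a) := by
  have key : ∀ {a b : G}, Commute a b → Odd (orderOf b) → Odd (orderOf a) → Odd (orderOf (a * b)) :=
    fun c hb ha => (ha.mul hb).of_dvd_nat c.orderOf_mul_dvd_mul_orderOf
  refine ⟨fun e => ?_, key c hb⟩
  have := key (a := a * b) (b := b⁻¹) ((c.mul_left (Commute.refl b)).inv_right) (by simpa using hb) e
  simpa using this

theorem sum_shift {A : Type*} [Group A] [Fintype A] (k : A → ℂ) (y : A) (c : ℂ) (hc : c ≠ 1)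
    (h : ∀ g, k (y * g) = c * k g) : ∑ g, k g = 0 := by
  have : ∑ g, k g = c * ∑ g, k g := by
    rw [mul_sum, ← Fintype.sum_equiv (Equiv.mulLeft y) (fun g => c * k g) k fun g => (h g).symm]
  have e : (1 - c) * ∑ g, k g = 0 := by rw [sub_mul, ← this]; ring
  exact (mul_eq_zero.1 e).resolve_left (sub_ne_zero.2 hc.symm)

theorem conj_ne_one {c : ℂˣ} (h : c ≠ 1) : conj (c : ℂ) ≠ 1 := fun e => h (by
  ext; simpa using congrArg conj e)

/-- the torus part with parameter `k` -/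
noncomputable def Fk (k : ℂ) (q : ℕ) (Z : Subgroup G) (x : G) (χ : G → ℂ) (g : G) : ℂ := χ g - k * mm q Z x χ g

theorem Fa_eq (q : ℕ) (Z : Subgroup G) (x : G) : Fa q Z x = Fk (q - 1) q Z x := rfl
theorem Fb_eq (q : ℕ) (Z : Subgroup G) (x : G) : Fb q Z x = Fk (q + 1) q Z x := rfl

/-- what the two tori have in common -/
structure Tor (q : ℕ) (C Z A : Subgroup G) (s x : G) (k : ℂ) (D : Set G) (P : (G → ℂ) → G → ℂ) : Prop where
  ZA : Z ≤ A
  AC : A ≤ C
  cA : IsMulCommutative A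
  kA : (Nat.card A : ℂ) = k * Nat.card Z
  sA : ∀ g ∈ A, s * g * s⁻¹ ∈ A
  sZ : ∀ g ∈ A, g * (s * g * s⁻¹) ∈ Z
  s2 : s * s = 1
  sC : s ∈ C
  cf : ∀ a, P a ∈ CF G
  dP : ∀ χ ∈ CF G, ∀ a, ⟪χ, P a⟫ = (2 * Nat.card A : ℂ)⁻¹ * SD A D (Fk k q Z x χ) a
  vP : ∀ a : G → ℂ, (∀ g ∈ A, a (s * g * s⁻¹) = a g) → ∀ g ∈ A, g ∈ D → Fk k q Z x (P a) g = a g

theorem SD_zero (A : Subgroup G) (D : Set G) (a : G → ℂ) : SD A D a 0 = 0 := by simp [SD]
theorem SD_zero' (A : Subgroup G) (D : Set G) (a : G → ℂ) : SD A D 0 a = 0 := by simp [SD]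
theorem SD_add (A : Subgroup G) (D : Set G) (F a b : G → ℂ) : SD A D F (a + b) = SD A D F a + SD A D F b := by
  simp only [SD, ← sum_add_distrib]
  exact sum_congr rfl fun g _ => by split_ifs <;> simp [mul_add]
theorem SD_sub (A : Subgroup G) (D : Set G) (F a b : G → ℂ) : SD A D F (a - b) = SD A D F a - SD A D F b := by
  simp only [SD, ← sum_sub_distrib]
  exact sum_congr rfl fun g _ => by split_ifs <;> simp [mul_sub]
theorem SD_univ (A : Subgroup G) (a b : G → ℂ) : SD A Set.univ a b = ∑ g : A, a g * conj (b g) := by simp [SD]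

namespace CS

variable {q : ℕ} {C Z T Y U X : Subgroup G} {w u x : G} (h : CS q C Z T Y U X w u x) {D : Set G}
include h

theorem torT (d : TD C Z x D) : Tor q C Z T w x (q - 1) D fun a => Ph q C Z T Y U x D a 0 :=
  ⟨h.ZT, h.TC, h.cT, h.kT', h.wT, h.wZ, h.w2, h.wC, fun _ => Ph_CF _ _,
    fun χ hχ a => by rw [h.dot_Ph hχ, SD_zero, mul_zero, add_zero, Fa_eq],
    fun a ha g hg hD => h.Fa_Ph d ha 0 hg hD⟩

theorem torY (d : TD C Z x D) : Tor q C Z Y u x (q + 1) D fun a => Ph q C Z T Y U x D 0 a :=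
  ⟨h.ZY, h.YC, h.cY, h.kY', h.uY, h.uZ, h.u2, h.uC, fun _ => Ph_CF _ _,
    fun χ hχ a => by rw [h.dot_Ph hχ, SD_zero, mul_zero, zero_add, Fb_eq],
    fun a ha g hg hD => h.Fb_Ph d 0 ha hg hD⟩

theorem Fk_w (k : ℂ) {χ : G → ℂ} (hχ : χ ∈ CF G) {c : G} (hc : c ∈ C) (g : G) :
    Fk k q Z x χ (c * g * c⁻¹) = Fk k q Z x χ g := by
  rw [Fk, Fk, h.mm_w hc, CF_conj hχ]

theorem sum_mm {A : Subgroup G} (hA : Z ≤ A) (χ : G → ℂ) (k : G → ℂ) :
    ∑ g : A, mm q Z x χ g * k g = ∑ z : Z, mm q Z x χ z * k z := by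
  rw [← sum_ite_sub A fun g => mm q Z x χ g * k g, ← sum_ite_sub Z fun g => mm q Z x χ g * k g]
  refine sum_congr rfl fun g _ => ?_
  by_cases hz : g ∈ Z
  · simp [hz, hA hz]
  · simp [hz, mm]

theorem int_mm' {A : Subgroup G} (hA : Z ≤ A) {k : ℂ} (hk : (Nat.card A : ℂ) = k * Nat.card Z) {χ : G → ℂ}
    (hχ : χ ∈ ZIrr G) (ν : A →* ℂˣ) :
    ∃ n : ℤ, (Nat.card A : ℂ)⁻¹ * ∑ g : A, k * mm q Z x χ g * conj (ν g : ℂ) = n := by
  obtain ⟨n, hn⟩ := h.int_mm hχ (ν.comp (inclusion hA))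
  refine ⟨n, ?_⟩
  have e := h.sum_mm hA χ fun g => conj (ex ν g)
  simp only [ex_coe] at e
  have h1 : (Nat.card A : ℂ) ≠ 0 := card_ne_zero
  have h2 : (Nat.card Z : ℂ) ≠ 0 := card_ne_zero
  have h3 : k ≠ 0 := fun e => h1 (by rw [hk, e, zero_mul])
  simp only [mul_assoc, ← mul_sum]
  rw [e, ← hn, hk]
  have : ∀ z : Z, ex ν z = ν.comp (inclusion hA) z := fun z => ex_mem ν (hA z.2)
  simp only [this]
  field_simp

theorem int_coef {A : Subgroup G} (hA : Z ≤ A) {k : ℂ} (hk : (Nat.card A : ℂ) = k * Nat.card Z) {χ : G → ℂ}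
    (hχ : χ ∈ ZIrr G) (ν : A →* ℂˣ) :
    ∃ n : ℤ, (Nat.card A : ℂ)⁻¹ * ∑ g : A, Fk k q Z x χ g * conj (ν g : ℂ) = n := by
  obtain ⟨n, hn⟩ := h.int_mm' hA hk hχ ν
  obtain ⟨m, hm⟩ := ZIrr.dot_int (ZIrr.comp hχ A.subtype) (lin_mem_ZIrr ν)
  refine ⟨m - n, ?_⟩
  push_cast
  rw [← hn, ← hm, dot_def, ← mul_sub, ← sum_sub_distrib]
  congr 1
  exact sum_congr rfl fun g _ => by simp [Fk, lin]; ring

theorem SD_sym (d : TD C Z x D) {A : Subgroup G} {s : G} (hs : ∀ g ∈ A, s * g * s⁻¹ ∈ A) (sC : s ∈ C)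
    {F : G → ℂ} (hF : ∀ g, F (s * g * s⁻¹) = F g) (a : G → ℂ) :
    SD A D F (fun g => a (s * g * s⁻¹)) = SD A D F a := by
  rw [SD, SD, ← sum_cjH hs fun g => if g ∈ D then F g * conj (a g) else 0]
  refine sum_congr rfl fun g _ => ?_
  have : s * g * s⁻¹ ∈ D ↔ (g : G) ∈ D := ⟨fun e => by
    have := d.cj _ e s⁻¹ (C.inv_mem sC)
    rwa [show s⁻¹ * (s * g * s⁻¹) * s⁻¹⁻¹ = g by group] at this, fun e => d.cj _ e s sC⟩
  simp only [this, hF]

end CS

theorem td_univ {Z : Subgroup G} {x : G} : TD ⊤ Z x Set.univ := ⟨by simp, by simp, by simp⟩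

theorem sq_conj {s g : G} (s2 : s * s = 1) : s * (s * g * s⁻¹) * s⁻¹ = g := by
  rw [show s * (s * g * s⁻¹) * s⁻¹ = (s * s) * g * (s * s)⁻¹ by group, s2]; group

/-- functions in the span of the principal block have no component along characters that are nontrivial on
elements of odd order -/
theorem Tor.pr {q : ℕ} {Z T Y U X A : Subgroup G} {w u x s : G} (h : CS q ⊤ Z T Y U X w u x) {k : ℂ}
    {P : (G → ℂ) → G → ℂ} (τ : Tor q ⊤ Z A s x k Set.univ P) {f : G → ℂ} (cf : f ∈ CF G)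
    (hf : proj (B0 2 G) f = f) {ν : A →* ℂˣ} (hν : ¬ Pr ν) :
    ∑ g : A, Fk k q Z x f g * conj (ν g : ℂ) = 0 := by
  simp only [Pr, not_forall] at hν
  obtain ⟨y, yo, hy⟩ := hν
  haveI := τ.cA
  have cA : ∀ a b : A, a * b = b * a := τ.cA.is_comm.comm
  set ν' := ν.comp (cjH τ.sA) with hν'
  by_cases e : ν' = ν
  · let z : A := y * cjH τ.sA y
    have zZ : (z : G) ∈ Z := τ.sZ y y.2
    have zo : Odd (orderOf z) := by
      rw [odd_orderOf_mul (cA _ _) (by rwa [orderOf_injective _ (cjH_bij τ.sA).1])]; exact yo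
    have νz : ν z ≠ 1 := by
      have : ν z = ν y ^ 2 := by
        rw [map_mul, sq]; congr 1; exact DFunLike.congr_fun e y
      rw [this]
      intro e2
      apply hy
      obtain ⟨m, hm⟩ := yo
      have := congrArg ν (pow_orderOf_eq_one y)
      rwa [map_pow, map_one, hm, pow_succ, pow_mul, e2, one_pow, one_mul] at this
    haveI : (zpowers (z : G)).Normal := ⟨fun a ha g => by
      rwa [h.conjZ ((zpowers_le.2 zZ) ha) (mem_top g)]⟩
    have kz : (z : G) ∈ cfker f := by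
      rw [← hf]
      refine le_cfker_proj0 Nat.prime_two (K := zpowers (z : G)) ?_ f (mem_zpowers _)
      rw [Nat.card_zpowers, orderOf_coe]
      exact Nat.two_dvd_ne_zero.2 (Nat.odd_iff.1 zo)
    refine sum_shift _ z (conj (ν z : ℂ)) (conj_ne_one νz) fun g => ?_
    have e1 : (z : G) * g ∈ Z ↔ (g : G) ∈ Z := Z.mul_mem_cancel_left zZ
    simp only [Fk, mm, Subgroup.coe_mul, e1, mul_assoc, cfker_mul kz, map_mul, Units.val_mul]
    ring
  · let a : G → ℂ := ex ν + fun g => ex ν (s * g * s⁻¹)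
    have ha : ∀ g ∈ A, a (s * g * s⁻¹) = a g := fun g _ => by
      simp only [a, Pi.add_apply, sq_conj τ.s2]; ring
    have c0 : (Nat.card A : ℂ) ≠ 0 := card_ne_zero
    have dot : ∀ χ ∈ CF G, ⟪χ, P a⟫ = (Nat.card A : ℂ)⁻¹ * ∑ g : A, Fk k q Z x χ g * conj (ν g : ℂ) := by
      intro χ hχ
      rw [τ.dP χ hχ, SD_add, h.SD_sym td_univ τ.sA τ.sC (h.Fk_w k hχ τ.sC), SD_univ]
      simp only [ex_coe]
      field_simp; ring
    have PZ : P a ∈ ZIrr G := mem_ZIrr_of_dot_int (τ.cf a) fun χ hχ => by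
      obtain ⟨n, hn⟩ := h.int_coef τ.ZA τ.kA (IsIrr.mem_ZIrr hχ) ν
      exact ⟨n, dot_comm_of_int (by rw [dot χ (IsIrr.mem_CF hχ), hn])⟩
    have P1 : ⟪P a, P a⟫ = 1 := by
      rw [dot _ (τ.cf a)]
      have : ∀ g : A, Fk k q Z x (P a) g * conj (ν g : ℂ) = ν g * conj (ν g : ℂ) + ν' g * conj (ν g : ℂ) :=
        fun g => by
          rw [τ.vP a ha g g.2 trivial]
          simp only [a, Pi.add_apply, ex_coe, ex_cj ν τ.sA, add_mul]; rfl
      simp only [this, sum_add_distrib, sum_lin_conj, e, if_true, if_false]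
      field_simp; ring
    have PR : ⟪regI 2 G, P a⟫ = 0 := by
      rw [dot _ (regI_mem_CF 2), sum_shift _ y (conj (ν y : ℂ)) (conj_ne_one hy) fun g => ?_, mul_zero]
      have e1 : ∀ g : G, Fk k q Z x (regI 2 G) g = regI 2 G g := fun g => by
        by_cases hz : g ∈ Z
        · have := odd_orderOf_mul (a := g) (b := x) (h.cen g hz x (mem_top x)) h.xo
          simp only [← Nat.not_even_iff_odd, even_iff_two_dvd, not_iff_not] at this
          simp [Fk, mm, hz, regI, this]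
        · simp [Fk, mm, hz]
      have e2 : regI 2 G ((y * g : A) : G) = regI 2 G g := by
        have := odd_orderOf_mul (a := g) (b := y) (cA _ _) yo
        simp only [← Nat.not_even_iff_odd, even_iff_two_dvd, not_iff_not] at this
        rw [cA y g]
        simp only [regI, orderOf_coe, this]
      rw [e1, e1, e2, map_mul, Units.val_mul, map_mul]; ring
    obtain ⟨ε, π, hε, hπ, eπ⟩ := (ZIrr.dirr_of_dot_self PZ P1).exists_sign
    have ε0 : conj (ε : ℂ) ≠ 0 := by rcases hε with rfl | rfl <;> simp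
    have nB : π ∉ B0 2 G := fun hB => (mem_B0.1 hB).2 (dot_comm_zero (by
      rw [eπ, dot_smul_right] at PR
      exact (mul_eq_zero.1 PR).resolve_left ε0))
    have : ⟪f, P a⟫ = 0 := by
      rw [eπ, dot_smul_right, ← hf, dot_proj (B0_subset 2) f hπ, if_neg nB, mul_zero]
    rw [dot f cf] at this
    exact (mul_eq_zero.1 this).resolve_left (inv_ne_zero c0)

theorem realizeEqns_Br_Ch2 : True := by
  have := @CA.Br.Fk.eq_1.{0}
  have := @CA.Br.Fk.eq_def.{0}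
  have := @CA.Br.Fk.congr_simp.{0}
  have := @CA.Br.ex.eq_1.{0}
  have := @CA.Br.ex.eq_def.{0}
  have := @CA.Br.ex.congr_simp.{0}
  have := @CA.Br.cjH.eq_1.{0}
  have := @CA.Br.cjH.eq_def.{0}
  have := @CA.Br.cjH.congr_simp.{0}
  trivial

end CA.Br
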