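import Cfsg.Agent.Br.Ch2

/-!
# Passing to the group `C` itself
-/

set_option autoImplicit false
set_option linter.unusedSectionVars false

open Cfsg Subgroup CA.Chr CA.Dih CA.Blk Finset
open scoped ComplexConjugate Classical

namespace CA.Br

universe u

variable {G : Type u} [Group G] [Fintype G]

theorem card_subOf {A C : Subgroup G} (h : A ≤ C) : Nat.card (A.subgroupOf C) = Nat.card A :=
  Nat.card_congr (subgroupOfEquivOfLe h).toEquiv

theorem comm_subOf {A C : Subgroup G} (h : IsMulCommutative A) : IsMulCommutative (A.subgroupOf C) :=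
  ⟨⟨fun a b => Subtype.ext (Subtype.ext (by
    have := congrArg Subtype.val (h.is_comm.comm ⟨_, mem_subgroupOf.1 a.2⟩ ⟨_, mem_subgroupOf.1 b.2⟩)
    exact this))⟩⟩

theorem sum_subOf {A C : Subgroup G} (h : A ≤ C) (k : C → ℂ) :
    ∑ g : A.subgroupOf C, k g = ∑ g : A, k ⟨g, h g.2⟩ :=
  Fintype.sum_equiv (subgroupOfEquivOfLe h).toEquiv _ _ fun _ => rfl

theorem Fk_sub {C Z : Subgroup G} {x : G} (hx : x ∈ C) (k : ℂ) (q : ℕ) (χ : G → ℂ) (g : C) :
    Fk k q (Z.subgroupOf C) ⟨x, hx⟩ (χ ∘ C.subtype) g = Fk k q Z x χ g := by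
  simp [Fk, mm, mem_subgroupOf]

namespace CS

variable {q : ℕ} {C Z T Y U X : Subgroup G} {w u x : G} (h : CS q C Z T Y U X w u x)
include h

theorem sub : CS q (⊤ : Subgroup C) (Z.subgroupOf C) (T.subgroupOf C) (Y.subgroupOf C) (U.subgroupOf C)
    (X.subgroupOf C) ⟨w, h.wC⟩ ⟨u, h.uC⟩ ⟨x, h.xC⟩ where
  q3 := h.q3
  ZT := fun _ e => h.ZT e
  ZY := fun _ e => h.ZY e
  TC := le_top
  YC := le_top
  XC := le_top
  UC := le_top
  cen := fun z hz c _ => Subtype.ext (h.cen z hz c c.2)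
  cT := comm_subOf h.cT
  cY := comm_subOf h.cY
  cX := comm_subOf h.cX
  kT := by rw [card_subOf h.TC, card_subOf h.ZC, h.kT]
  kY := by rw [card_subOf h.YC, card_subOf h.ZC, h.kY]
  kX := by rw [card_subOf h.XC, h.kX]
  kU := by rw [card_subOf h.UC, card_subOf h.ZC, h.kU]
  kC := by rw [card_top, card_subOf h.ZC, h.kC]
  wC := mem_top _
  w2 := Subtype.ext h.w2
  wn := h.wn
  wT := fun g hg => h.wT g hg
  wZ := fun g hg => h.wZ g hg
  uC := mem_top _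
  u2 := Subtype.ext h.u2
  un := h.un
  uY := fun g hg => h.uY g hg
  uZ := fun g hg => h.uZ g hg
  xX := h.xX
  x1 := fun e => h.x1 (congrArg Subtype.val e)
  xo := by rw [← orderOf_coe]; exact h.xo
  cjX := fun a ha a1 => by
    obtain ⟨c, hc, e⟩ := h.cjX a ha fun e => a1 (Subtype.ext e)
    exact ⟨⟨c, hc⟩, mem_top _, Subtype.ext e⟩
  Ux := fun c hc => Subtype.ext (h.Ux c hc)
  tiT := fun g hg hz c _ e => h.tiT g hg hz c c.2 e
  tiY := fun g hg hz c _ e => h.tiY g hg hz c c.2 e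
  tiX := fun z hz c _ e => h.tiX z hz c c.2 (congrArg Subtype.val e)
  TY := fun g hg hz c _ => h.TY g hg hz c c.2
  TX := fun z hz c _ => h.TX z hz c c.2
  YX := fun z hz c _ => h.YX z hz c c.2

theorem lin_x (μ : C →* ℂˣ) : μ ⟨x, h.xC⟩ = 1 := by
  have x2 : x * x ≠ 1 := fun e => by
    have := orderOf_dvd_of_pow_eq_one (show x ^ 2 = 1 by rwa [sq])
    rcases (Nat.dvd_prime Nat.prime_two).1 this with e | e
    · exact h.x1 (orderOf_eq_one_iff.1 e)
    · have := h.xo; rw [e] at this; exact absurd this (by decide)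
  obtain ⟨c, hc, e⟩ := h.cjX _ (X.mul_mem h.xX h.xX) x2
  have : (⟨c, hc⟩ * ⟨x, h.xC⟩ * ⟨c, hc⟩⁻¹ : C) = ⟨x, h.xC⟩ * ⟨x, h.xC⟩ := Subtype.ext e
  have := congrArg μ this
  simp only [map_mul, map_inv] at this
  rw [mul_comm (μ _), mul_inv_cancel_right] at this
  exact left_eq_mul.1 this

/-- the inner product with a linear character of `C` -/
theorem dualC {χ : G → ℂ} (hχ : χ ∈ CF G) (μ : C →* ℂˣ) : ⟪χ ∘ C.subtype, lin μ⟫ =
    (2 * Nat.card T : ℂ)⁻¹ * ∑ g : T, Fa q Z x χ g * conj (ex μ g) +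
      (2 * Nat.card Y : ℂ)⁻¹ * ∑ g : Y, Fb q Z x χ g * conj (ex μ g) := by
  have s := h.sub
  have inv : ∀ c g : C, lin μ (c * g * c⁻¹) = lin μ g := fun c g => CF_conj (lin_mem_CF μ) g c
  have e1 := s.dot_Ph (D := Set.univ) (lin_mem_CF μ) (lin μ) (lin μ)
  have e2 := s.dot_Ph_Ph td_univ (a := lin μ) (b := lin μ) (fun g _ => inv _ g) (fun g _ => inv _ g) (lin μ) (lin μ)
  have e3 := s.dot_Ph (D := Set.univ) (CF_comp hχ C.subtype) (lin μ) (lin μ)
  set P := Ph q ⊤ (Z.subgroupOf C) (T.subgroupOf C) (Y.subgroupOf C) (U.subgroupOf C) ⟨x, h.xC⟩ Set.univ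
    (lin μ) (lin μ)
  have m0 : ∀ g, mm q (Z.subgroupOf C) ⟨x, h.xC⟩ (lin μ) g = 0 := fun g => by
    simp [mm, lin, h.lin_x μ]
  have ea : Fa q (Z.subgroupOf C) ⟨x, h.xC⟩ (lin μ) = lin μ := funext fun g => by simp [Fa, m0]
  have eb : Fb q (Z.subgroupOf C) ⟨x, h.xC⟩ (lin μ) = lin μ := funext fun g => by simp [Fb, m0]
  have one : ∀ A : Subgroup C, (2 * Nat.card A : ℂ)⁻¹ * SD A Set.univ (lin μ) (lin μ) = 1 / 2 := fun A => by
    have := sum_lin_conj (μ.comp A.subtype) (μ.comp A.subtype)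
    rw [if_pos rfl] at this
    have c0 : (Nat.card A : ℂ) ≠ 0 := card_ne_zero
    rw [SD_univ, show ∑ g : A, lin μ g * conj (lin μ g) = Nat.card A from this]
    field_simp
  rw [ea, eb, one, one] at e1
  rw [one, one] at e2
  have : lin μ = P := by
    rw [← sub_eq_zero, ← nrm_eq_zero, nrm_sub, e1, IsIrr.nrm (lin_irr μ), nrm_eq_of_dot (r := 1) (by
      rw [e2]; norm_num)]
    norm_num
  rw [← this] at e3
  rw [e3, SD_univ, SD_univ, card_subOf h.TC, card_subOf h.YC,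
    sum_subOf h.TC fun g => Fa q _ _ (χ ∘ C.subtype) g * conj (lin μ g),
    sum_subOf h.YC fun g => Fb q _ _ (χ ∘ C.subtype) g * conj (lin μ g)]
  simp only [Fa_eq, Fb_eq, Fk_sub]
  congr 2
  · exact sum_congr rfl fun g _ => by rw [ex_mem μ (h.TC g.2)]; rfl
  · exact sum_congr rfl fun g _ => by rw [ex_mem μ (h.YC g.2)]; rfl

end CS

/-- the elements whose involution is `t` -/
def DD (t : G) : Set G := {g | t ∈ zpowers g}

theorem mem_zpowers_odd {t g : G} (t2 : t * t = 1) {i : ℕ} (hi : Odd i) : t ∈ zpowers (g ^ i) ↔ t ∈ zpowers g := by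
  refine ⟨fun e => zpowers_le.2 (npow_mem_zpowers g i) e, fun ⟨k, hk⟩ => ⟨k, ?_⟩⟩
  obtain ⟨m, rfl⟩ := hi
  have hk' : g ^ k = t := hk
  show (g ^ (2 * m + 1)) ^ k = t
  rw [← zpow_natCast, ← zpow_mul, mul_comm, zpow_mul, hk', zpow_natCast, pow_succ, pow_mul, sq, t2]; simp

theorem mem_zpowers_conj' {t g c : G} (h : t ∈ zpowers g) : c * t * c⁻¹ ∈ zpowers (c * g * c⁻¹) := by
  obtain ⟨k, rfl⟩ := h
  exact ⟨k, by simp [conj_zpow]⟩

theorem inv_unique {g a b : G} (ha : a ∈ zpowers g) (hb : b ∈ zpowers g) (a2 : a * a = 1) (a1 : a ≠ 1)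
    (b2 : b * b = 1) (b1 : b ≠ 1) : a = b := GW.BA.dih_uniq ha hb ⟨a2, a1⟩ ⟨b2, b1⟩

theorem DD_mul {t a b : G} (t2 : t * t = 1) (c : Commute a b) (hb : Odd (orderOf b)) :
    a * b ∈ DD t ↔ a ∈ DD t := by
  show t ∈ zpowers (a * b) ↔ t ∈ zpowers a
  rw [← mem_zpowers_odd t2 hb, c.mul_pow, pow_orderOf_eq_one, mul_one, mem_zpowers_odd t2 hb]

theorem not_DD_of_odd {t g : G} (t2 : t * t = 1) (t1 : t ≠ 1) (hg : Odd (orderOf g)) : g ∉ DD t := fun e => by
  have := (mem_zpowers_odd t2 hg).2 e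
  rw [pow_orderOf_eq_one] at this
  exact t1 (by simpa using this)

theorem exists_inv_of_even {g : G} (hg : ¬ Odd (orderOf g)) : ∃ i ∈ zpowers g, i * i = 1 ∧ i ≠ 1 := by
  obtain ⟨m, hm⟩ := Nat.not_odd_iff_even.1 hg
  have h0 := orderOf_pos g
  refine ⟨g ^ m, npow_mem_zpowers g m, by rw [← pow_add, ← hm, pow_orderOf_eq_one], ?_⟩
  exact pow_ne_one_of_lt_orderOf (by omega) (by omega)

namespace CS2

variable {q : ℕ} {C Z T Y U X H Y1 : Subgroup G} {t w u x r : G} {lam : C →* ℂˣ} {θ1 θ2 : Y →* ℂˣ}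
  (h : CS2 q C Z T Y U X H Y1 t w u x r lam θ1 θ2)
include h

theorem memC {c : G} : c ∈ C ↔ c * t * c⁻¹ = t := by
  rw [h.hC, mem_centralizer_singleton_iff, mul_inv_eq_iff_eq_mul]

theorem td : TD C Z x (DD t) where
  ti := fun g hg n e => h.memC.2 (inv_unique (mem_zpowers_conj' hg) e
    (by rw [show n * t * n⁻¹ * (n * t * n⁻¹) = n * (t * t) * n⁻¹ by group, h.t2]; group)
    (by simpa using h.t1) h.t2 h.t1)
  cj := fun g hg c hc => by
    have := mem_zpowers_conj' (c := c) hg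
    rwa [h.memC.1 hc] at this
  dx := fun z hz => DD_mul h.t2 (h.cen z hz x h.toCS.xC) h.xo

theorem tD : t ∈ DD t := mem_zpowers t
theorem oneD : (1 : G) ∉ DD t := not_DD_of_odd h.t2 h.t1 (by simp)

theorem Y_even {y : G} (hy : y ∈ Y) : y ∈ DD t ↔ ¬ Odd (orderOf y) := by
  refine ⟨fun e o => not_DD_of_odd h.t2 h.t1 o e, fun e => ?_⟩
  obtain ⟨i, hi, i2, i1⟩ := exists_inv_of_even e
  rcases h.invY i (zpowers_le.2 hy hi) i2 with e | e
  · exact absurd e i1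
  · exact e ▸ hi

theorem prA {A : Subgroup G} (hA : A ≤ C) {s : C} {k : ℂ} {P : (C → ℂ) → C → ℂ}
    (τ : Tor q ⊤ (Z.subgroupOf C) (A.subgroupOf C) s ⟨x, h.toCS.xC⟩ k Set.univ P) {χ : G → ℂ} (cf : χ ∈ CF G)
    (hχ : proj (B0 2 G) χ = χ) {ν : A →* ℂˣ} (hν : ¬ Pr ν) : SD A (DD t) (Fk k q Z x χ) (ex ν) = 0 := by
  let f : C → ℂ := χ ∘ C.subtype
  let f1 : C → ℂ := fun g => if (g : G) ∈ DD t then f g else 0
  let f2 : C → ℂ := fun g => if (g : G) ∈ DD t then 0 else f g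
  have cD : ∀ c g : C, ((c * g * c⁻¹ : C) : G) ∈ DD t ↔ (g : G) ∈ DD t := fun c g =>
    ⟨fun e => by
      have := h.td.cj _ e c⁻¹ (C.inv_mem c.2)
      simpa [mul_assoc] using this, fun e => h.td.cj _ e c c.2⟩
  have sep : ∀ a b : C, (a : G) ∈ DD t → (b : G) ∉ DD t → Sep 2 a b := fun a b ha hb i hi e => by
    obtain ⟨c, hc⟩ := isConj_iff.1 e
    have io : Odd i := Nat.odd_iff.2 (Nat.two_dvd_ne_zero.1 hi)
    apply hb
    have : ((a ^ i : C) : G) ∈ DD t := (mem_zpowers_odd h.t2 io).2 ha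
    rw [← cD c, hc] at this
    exact (mem_zpowers_odd h.t2 io).1 this
  have cf1 : f1 ∈ CF C := mem_CF.mpr fun g c => by
    simp only [f1, cD, CF_conj (CF_comp cf C.subtype) g c, f]
  have p1 : proj (B0 2 C) f1 = f1 := by
    funext g
    by_cases hg : (g : G) ∈ DD t
    · have e : f1 = f - f2 := funext fun g => by simp only [f1, f2, Pi.sub_apply]; split_ifs <;> simp
      have e2 : proj (B0 2 C) f2 g = 0 := proj0_zero Nat.prime_two fun b hb => sep g b hg fun e => hb (by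
        simp [f2, e])
      have e3 := second_main Nat.prime_two (x := t) (k := 1) (by rw [pow_one, sq, h.t2]) h.hC cf g hg
      rw [hχ] at e3
      conv_lhs => rw [e, map_sub, Pi.sub_apply, e2, sub_zero, ← e3]
      simp [f1, hg, f]
    · rw [proj0_zero Nat.prime_two fun b hb => (sep b g (by_contra fun e => hb (by simp [f1, e])) hg).symm]
      simp [f1, hg]
  have hν' : ¬ Pr (ν.comp (subgroupOfEquivOfLe hA).toMonoidHom) := fun e => hν fun g hg => by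
    have := e ((subgroupOfEquivOfLe hA).symm g) (by rwa [MulEquiv.orderOf_eq])
    simpa using this
  have := Tor.pr h.toCS.sub τ cf1 p1 hν'
  rw [← this, SD]
  refine Fintype.sum_equiv (subgroupOfEquivOfLe hA).symm.toEquiv _ _ fun g => ?_
  have e : ∀ g : C, Fk k q (Z.subgroupOf C) ⟨x, h.toCS.xC⟩ f1 g =
      if (g : G) ∈ DD t then Fk k q Z x χ g else 0 := fun g => by
    by_cases hz : (g : G) ∈ Z
    · have := h.td.dx g hz
      by_cases hD : (g : G) ∈ DD t <;> simp [Fk, mm, mem_subgroupOf, hz, f1, f, this, hD]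
    · by_cases hD : (g : G) ∈ DD t <;> simp [Fk, mm, mem_subgroupOf, hz, f1, f, hD]
  rw [e, ex_coe]
  show _ = (if (g : G) ∈ DD t then Fk k q Z x χ g else 0) * conj (ν _ : ℂ)
  split_ifs <;> simp

theorem prT {χ : G → ℂ} (cf : χ ∈ CF G) (hχ : proj (B0 2 G) χ = χ) {ν : T →* ℂˣ} (hν : ¬ Pr ν) :
    SD T (DD t) (Fa q Z x χ) (ex ν) = 0 :=
  h.prA h.TC (h.toCS.sub.torT td_univ) cf hχ hν

theorem prY {χ : G → ℂ} (cf : χ ∈ CF G) (hχ : proj (B0 2 G) χ = χ) {ν : Y →* ℂˣ} (hν : ¬ Pr ν) :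
    SD Y (DD t) (Fb q Z x χ) (ex ν) = 0 :=
  h.prA h.YC (h.toCS.sub.torY td_univ) cf hχ hν

end CS2

theorem realizeEqns_Br_Ch3 : True := by
  have := @CA.Br.DD.eq_1.{0}
  have := @CA.Br.DD.eq_def.{0}
  have := @CA.Br.DD.congr_simp.{0}
  trivial

end CA.Br
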