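import Cfsg.Agent.Br.Ch3

/-!
# The action of `S₃` on the split torus, and the generalised characters `α`, `β`, `γ`
-/

set_option autoImplicit false
set_option linter.unusedSectionVars false

open Cfsg Subgroup CA.Chr CA.Dih CA.Blk Finset
open scoped ComplexConjugate Classical

namespace CA.Br

universe u

variable {G : Type u} [Group G] [Fintype G]

theorem Pr.pow {A : Type*} [Group A] [Finite A] {ν : A →* ℂˣ} (h : Pr ν) (g : A) : ∃ k, ν g ^ 2 ^ k = 1 := by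
  obtain ⟨k, m, hm, e⟩ := Nat.exists_eq_two_pow_mul_odd (orderOf_pos g).ne'
  refine ⟨k, ?_⟩
  rw [← map_pow]
  refine h _ (hm.of_dvd_nat (orderOf_dvd_of_pow_eq_one ?_))
  rw [← pow_mul, ← e, pow_orderOf_eq_one]

theorem Pr.one {A : Type*} [Group A] : Pr (1 : A →* ℂˣ) := fun _ _ => rfl
theorem Pr.mul {A : Type*} [Group A] {a b : A →* ℂˣ} (ha : Pr a) (hb : Pr b) : Pr (a * b) := fun g o => by
  simp [ha g o, hb g o]
theorem Pr.inv {A : Type*} [Group A] {a : A →* ℂˣ} (ha : Pr a) : Pr a⁻¹ := fun g o => by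
  simp [ha g o]
theorem Pr.comp {A B : Type*} [Group A] [Group B] {a : A →* ℂˣ} (ha : Pr a) (f : B →* A) : Pr (a.comp f) :=
  fun g o => ha _ (o.of_dvd_nat (orderOf_map_dvd f g))

theorem eq_one_of_pow {c : ℂˣ} {k m : ℕ} (h : c ^ 2 ^ k = 1) (hm : Odd m) (h' : c ^ m = 1) : c = 1 := by
  have := Nat.dvd_gcd (orderOf_dvd_of_pow_eq_one h) (orderOf_dvd_of_pow_eq_one h')
  rw [Nat.Coprime.gcd_eq_one (Nat.Coprime.pow_left k (Nat.coprime_two_left.2 hm))] at this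
  exact orderOf_eq_one_iff.1 (Nat.dvd_one.1 this)

theorem ex_odd {A : Subgroup G} {ν : A →* ℂˣ} (h : Pr ν) {g : G} (hg : g ∈ A) (o : Odd (orderOf g)) :
    ex ν g = 1 := by
  rw [ex_mem ν hg, h _ (by rwa [← orderOf_coe])]; rfl

theorem ex_one {A : Subgroup G} {g : G} (hg : g ∈ A) : ex (1 : A →* ℂˣ) g = 1 := by simp [ex_mem _ hg]

theorem ex_conj {A : Subgroup G} (μ : A →* ℂˣ) {c : G} (hc : c ∈ A) (g : G) : ex μ (c * g * c⁻¹) = ex μ g := by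
  by_cases hg : g ∈ A
  · rw [ex_mem μ hg, ex_mem μ (A.mul_mem (A.mul_mem hc hg) (A.inv_mem hc))]
    exact CF_conj (lin_mem_CF μ) ⟨g, hg⟩ ⟨c, hc⟩
  · have : c * g * c⁻¹ ∉ A := fun e => hg (by simpa [mul_assoc] using A.mul_mem (A.mul_mem (A.inv_mem hc) e) hc)
    simp [ex, hg, this]

theorem ex_res {A B : Subgroup G} (hA : A ≤ B) (μ : B →* ℂˣ) (g : A) : ex μ g = μ.comp (inclusion hA) g :=
  ex_mem μ (hA g.2)

theorem orderOf_cj (c g : G) : orderOf (c * g * c⁻¹) = orderOf g := (MulAut.conj c).orderOf_eq g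

/-- the sum over the orbit of `r` -/
noncomputable def Sy (r : G) (a : G → ℂ) (g : G) : ℂ := a g + a (r * g * r⁻¹) + a (r⁻¹ * g * r⁻¹⁻¹)

/-- the symmetrised split torus part -/
noncomputable def Fs (q : ℕ) (Z : Subgroup G) (x r : G) (χ : G → ℂ) (g : G) : ℂ :=
  χ g - (q - 1) * Sy r (mm q Z x χ) g

/-- Fourier coefficient -/
noncomputable def co {A : Subgroup G} (F : G → ℂ) (ν : A →* ℂˣ) : ℂ :=
  (Nat.card A : ℂ)⁻¹ * ∑ g : A, F g * conj (ν g : ℂ)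

namespace CS2

variable {q : ℕ} {C Z T Y U X H Y1 : Subgroup G} {t w u x r : G} {lam : C →* ℂˣ} {θ1 θ2 : Y →* ℂˣ}
  (h : CS2 q C Z T Y U X H Y1 t w u x r lam θ1 θ2)
include h

theorem tT : t ∈ T := h.ZT h.tZ
theorem tu : t * u = u * t := h.cen t h.tZ u h.uC
theorem rv : r * (t * u) * r⁻¹ = t := by
  rw [show r * (t * u) * r⁻¹ = (r * t * r⁻¹) * (r * u * r⁻¹) by group, h.rt, h.ru, h.tu, ← mul_assoc, h.u2,
    one_mul]
theorem u1 : u ≠ 1 := fun e => h.un (e ▸ Y.one_mem)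
theorem ut : u ≠ t := fun e => h.un (e ▸ h.ZY h.tZ)
theorem vt : t * u ≠ t := by simpa using h.u1
theorem vu : t * u ≠ u := by simpa using h.t1
theorem v2 : t * u * (t * u) = 1 := by
  rw [mul_assoc, ← mul_assoc u, ← h.tu, mul_assoc, h.u2, mul_one, h.t2]
theorem v1 : t * u ≠ 1 := fun e => h.ut (by
  rw [eq_inv_of_mul_eq_one_right e, inv_eq_of_mul_eq_one_right h.t2])

theorem rT' : ∀ g ∈ T, r⁻¹ * g * r⁻¹⁻¹ ∈ T := fun g hg => by
  obtain ⟨a, ha⟩ := (cjH_bij h.rT).2 ⟨g, hg⟩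
  have : r * a * r⁻¹ = g := congrArg Subtype.val ha
  rw [← this, show r⁻¹ * (r * a * r⁻¹) * r⁻¹⁻¹ = a by group]; exact a.2

theorem rr' {g : G} (hg : g ∈ T) : r * (r * g * r⁻¹) * r⁻¹ = r⁻¹ * g * r⁻¹⁻¹ := by
  have := h.toCS.conjT hg h.r3
  conv_rhs => rw [← this]
  group

theorem wrw {g : G} (hg : g ∈ T) : w * (r * (w * g * w⁻¹) * r⁻¹) * w⁻¹ = r⁻¹ * g * r⁻¹⁻¹ := by
  have := h.toCS.conjT (h.rT' g hg) h.wr
  have wi : w⁻¹ = w := inv_eq_of_mul_eq_one_right h.w2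
  rw [← this]
  conv_rhs => rw [mul_inv_rev, mul_inv_rev, mul_inv_rev, inv_inv w]
  rw [wi]; group

theorem wrw' {g : G} (hg : g ∈ T) : w * (r⁻¹ * (w * g * w⁻¹) * r⁻¹⁻¹) * w⁻¹ = r * g * r⁻¹ := by
  have := h.wrw (h.wT g hg)
  rw [sq_conj h.w2] at this
  rw [← this, sq_conj h.w2]

theorem Sy_r (a : G → ℂ) {g : G} (hg : g ∈ T) : Sy r a (r * g * r⁻¹) = Sy r a g := by
  simp only [Sy, h.rr' hg]
  rw [show r⁻¹ * (r * g * r⁻¹) * r⁻¹⁻¹ = g by group]; ring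

theorem Sy_w {a : G → ℂ} (ha : ∀ g, a (w * g * w⁻¹) = a g) {g : G} (hg : g ∈ T) :
    Sy r a (w * g * w⁻¹) = Sy r a g := by
  simp only [Sy]
  rw [← ha (r * _ * r⁻¹), ← ha (r⁻¹ * _ * r⁻¹⁻¹), h.wrw hg, h.wrw' hg, ha]; ring

theorem D_r {g : G} : r * g * r⁻¹ ∈ DD t ↔ t * u ∈ zpowers g :=
  ⟨fun e => by
    have := mem_zpowers_conj' (c := r⁻¹) e
    rwa [show r⁻¹ * (r * g * r⁻¹) * r⁻¹⁻¹ = g by group, ← h.rv,
      show r⁻¹ * (r * (t * u) * r⁻¹) * r⁻¹⁻¹ = t * u by group] at this,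
   fun e => by
    have := mem_zpowers_conj' (c := r) e
    rwa [h.rv] at this⟩

theorem D_r' {g : G} : r⁻¹ * g * r⁻¹⁻¹ ∈ DD t ↔ u ∈ zpowers g :=
  ⟨fun e => by
    have := mem_zpowers_conj' (c := r) e
    rwa [show r * (r⁻¹ * g * r⁻¹⁻¹) * r⁻¹ = g by group, h.rt] at this,
   fun e => by
    have := mem_zpowers_conj' (c := r⁻¹) e
    rwa [← h.rt, show r⁻¹ * (r * t * r⁻¹) * r⁻¹⁻¹ = t by group] at this⟩

theorem tri_cases {g : G} (hg : g ∈ T) (o : ¬ Odd (orderOf g)) :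
    (t ∈ zpowers g ∧ u ∉ zpowers g ∧ t * u ∉ zpowers g) ∨ (t ∉ zpowers g ∧ u ∈ zpowers g ∧ t * u ∉ zpowers g) ∨
      (t ∉ zpowers g ∧ u ∉ zpowers g ∧ t * u ∈ zpowers g) := by
  obtain ⟨i, hi, i2, i1⟩ := exists_inv_of_even o
  have a1 : t ∈ zpowers g → u ∈ zpowers g → False := fun a b => h.ut (inv_unique b a h.u2 h.u1 h.t2 h.t1)
  have a2 : t ∈ zpowers g → t * u ∈ zpowers g → False := fun a b => h.vt (inv_unique b a h.v2 h.v1 h.t2 h.t1)
  have a3 : u ∈ zpowers g → t * u ∈ zpowers g → False := fun a b => h.vu (inv_unique b a h.v2 h.v1 h.u2 h.u1)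
  rcases h.invT i (zpowers_le.2 hg hi) i2 with e | e | e | e
  · exact absurd e i1
  all_goals subst e; tauto

theorem tri (k : G → ℂ) (hk : ∀ g ∈ T, Odd (orderOf g) → k g = 0) :
    ∑ g : T, k g = ∑ g : T, if (g : G) ∈ DD t then Sy r k g else 0 := by
  have e : ∀ g : T, k g = (if (g : G) ∈ DD t then k g else 0) +
      (if r⁻¹ * g * r⁻¹⁻¹ ∈ DD t then k (r * (r⁻¹ * g * r⁻¹⁻¹) * r⁻¹) else 0) +
      (if r * g * r⁻¹ ∈ DD t then k (r⁻¹ * (r * g * r⁻¹) * r⁻¹⁻¹) else 0) := fun g => by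
    rw [show r * (r⁻¹ * g * r⁻¹⁻¹) * r⁻¹ = g by group, show r⁻¹ * (r * g * r⁻¹) * r⁻¹⁻¹ = g by group]
    by_cases o : Odd (orderOf (g : G))
    · simp [hk g g.2 o]
    · simp only [h.D_r, h.D_r']
      have := h.tri_cases g.2 o
      simp only [DD, Set.mem_setOf_eq]
      rcases this with e | e | e <;> simp [e]
  rw [sum_congr rfl fun g _ => e g, sum_add_distrib, sum_add_distrib,
    sum_cjH h.rT' fun g => if g ∈ DD t then k (r * g * r⁻¹) else 0,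
    sum_cjH h.rT fun g => if g ∈ DD t then k (r⁻¹ * g * r⁻¹⁻¹) else 0, ← sum_add_distrib, ← sum_add_distrib]
  exact sum_congr rfl fun g _ => by split_ifs <;> simp [Sy]

theorem Fs_D (χ : G → ℂ) {g : G} (hg : g ∈ T) (hD : g ∈ DD t) : Fs q Z x r χ g = Fa q Z x χ g := by
  have o : ¬ Odd (orderOf g) := fun o => not_DD_of_odd h.t2 h.t1 o hD
  have c := h.tri_cases hg o
  have hD' : t ∈ zpowers g := hD
  have n1 : r * g * r⁻¹ ∉ Z := fun e => by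
    have := h.D_r.1 ((h.Y_even (h.ZY e)).2 (by rwa [orderOf_cj])); tauto
  have n2 : r⁻¹ * g * r⁻¹⁻¹ ∉ Z := fun e => by
    have := h.D_r'.1 ((h.Y_even (h.ZY e)).2 (by rwa [orderOf_cj])); tauto
  simp only [Fs, Fa, Sy, mm, n1, n2]; simp

theorem Fs_r {χ : G → ℂ} (cf : χ ∈ CF G) {g : G} (hg : g ∈ T) :
    Fs q Z x r χ (r * g * r⁻¹) = Fs q Z x r χ g := by
  rw [Fs, Fs, h.Sy_r _ hg, CF_conj cf]

omit h in
theorem r_inv' {a : G → ℂ} (h' : ∀ g ∈ T, r⁻¹ * g * r⁻¹⁻¹ ∈ T) (ha : ∀ g ∈ T, a (r * g * r⁻¹) = a g) {g : G}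
    (hg : g ∈ T) : a (r⁻¹ * g * r⁻¹⁻¹) = a g := by
  rw [← ha _ (h' g hg)]; congr 1; group

/-- sums over `T` of an `r`-invariant function against a function vanishing on elements of odd order -/
theorem tri' {F F' : G → ℂ} (hF : ∀ g ∈ T, F (r * g * r⁻¹) = F g) (e : ∀ g ∈ T, g ∈ DD t → F g = F' g)
    {k : G → ℂ} (hk : ∀ g ∈ T, Odd (orderOf g) → F g * conj (k g) = 0) :
    ∑ g : T, F g * conj (k g) = SD T (DD t) F' (Sy r k) := by
  rw [h.tri (fun g => F g * conj (k g)) hk, SD]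
  refine sum_congr rfl fun g _ => ?_
  split_ifs with hD
  · simp only [Sy, hF g g.2, r_inv' h.rT' hF g.2, e g g.2 hD, map_add]; ring
  · rfl

theorem co_Fs {χ : G → ℂ} (ν : T →* ℂˣ) : co (Fs q Z x r χ) ν =
    co (Fa q Z x χ) ν - co (fun g => (q - 1) * mm q Z x χ g) (ν.comp (cjH h.rT')) -
      co (fun g => (q - 1) * mm q Z x χ g) (ν.comp (cjH h.rT)) := by
  have e1 := sum_cjH h.rT fun g => (q - 1) * mm q Z x χ g * conj (ex ν (r⁻¹ * g * r⁻¹⁻¹))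
  have e2 := sum_cjH h.rT' fun g => (q - 1) * mm q Z x χ g * conj (ex ν (r * g * r⁻¹))
  have a1 : ∀ g : G, r⁻¹ * (r * g * r⁻¹) * r⁻¹⁻¹ = g := fun g => by group
  have a2 : ∀ g : G, r * (r⁻¹ * g * r⁻¹⁻¹) * r⁻¹ = g := fun g => by group
  simp only [a1, a2, ex_coe, ex_cj ν h.rT, ex_cj ν h.rT'] at e1 e2
  simp only [co, ← e1, ← e2, ← mul_sub, ← sum_sub_distrib]
  congr 1
  exact sum_congr rfl fun g _ => by simp only [Fs, Fa, Sy]; ring

theorem int_fc {χ : G → ℂ} (hχ : χ ∈ ZIrr G) (ν : T →* ℂˣ) : ∃ n : ℤ, co (Fs q Z x r χ) ν = n := by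
  obtain ⟨a, ha⟩ := h.toCS.int_coef h.ZT h.toCS.kT' hχ ν
  obtain ⟨b, hb⟩ := h.toCS.int_mm' h.ZT h.toCS.kT' hχ (ν.comp (cjH h.rT'))
  obtain ⟨c, hc⟩ := h.toCS.int_mm' h.ZT h.toCS.kT' hχ (ν.comp (cjH h.rT))
  exact ⟨a - b - c, by rw [h.co_Fs]; push_cast; rw [← ha, ← hb, ← hc]; rfl⟩

theorem int_gc {χ : G → ℂ} (hχ : χ ∈ ZIrr G) (ν : Y →* ℂˣ) : ∃ n : ℤ, co (Fb q Z x χ) ν = n :=
  h.toCS.int_coef h.ZY h.toCS.kY' hχ ν

theorem co_r {F : G → ℂ} (hF : ∀ g ∈ T, F (r * g * r⁻¹) = F g) (ν : T →* ℂˣ) :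
    co F (ν.comp (cjH h.rT)) = co F ν := by
  have := sum_cjH h.rT fun g => F g * conj (ex ν g)
  simp only [ex_coe, ex_cj ν h.rT] at this
  rw [co, co, ← this]
  congr 1
  exact sum_congr rfl fun g _ => by rw [hF g g.2]

/-- parity -/
theorem parity {χ : G → ℂ} (hχ : χ ∈ ZIrr G) (μ : C →* ℂˣ) : ∃ n : ℤ,
    co (Fs q Z x r χ) (μ.comp (inclusion h.TC)) + co (Fb q Z x χ) (μ.comp (inclusion h.YC)) = 2 * n := by
  obtain ⟨a, ha⟩ := ZIrr.dot_int (ZIrr.comp hχ C.subtype) (lin_mem_ZIrr μ)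
  obtain ⟨c, hc⟩ := h.toCS.int_mm' h.ZT h.toCS.kT' hχ ((μ.comp (inclusion h.TC)).comp (cjH h.rT))
  refine ⟨a - c, ?_⟩
  have e : co (fun g => (q - 1) * mm q Z x χ g) ((μ.comp (inclusion h.TC)).comp (cjH h.rT')) =
      co (fun g => (q - 1) * mm q Z x χ g) ((μ.comp (inclusion h.TC)).comp (cjH h.rT)) := by
    rw [co, co]; congr 1
    refine sum_congr rfl fun g _ => ?_
    by_cases hz : (g : G) ∈ Z
    · rw [← ex_cj _ h.rT, ← ex_cj _ h.rT', ← h.wrw g.2, h.toCS.conjZ hz h.wC]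
      have a1 := h.rT g g.2
      rw [ex_mem _ a1, ex_mem _ (h.wT _ a1)]
      congr 2
      have := ex_conj μ h.wC (r * g * r⁻¹)
      rwa [ex_mem _ (h.TC a1), ex_mem _ (h.TC (h.wT _ a1))] at this
    · simp [mm, hz]
  rw [h.co_Fs, e]
  push_cast
  rw [← ha, ← hc, h.toCS.dualC (ZIrr.mem_CF hχ)]
  simp only [co, ex_res h.TC, ex_res h.YC]
  have : (Nat.card T : ℂ) ≠ 0 := card_ne_zero
  have : (Nat.card Y : ℂ) ≠ 0 := card_ne_zero
  field_simp; ring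

theorem fpf {ν : T →* ℂˣ} (hν : Pr ν) (e : ν.comp (cjH h.rT) = ν) : ν = 1 := by
  ext g
  obtain ⟨k, hk⟩ := hν.pow g
  have cT : ∀ a b : T, a * b = b * a := h.cT.is_comm.comm
  let τ := cjH h.rT
  have t3 : τ (τ (τ g)) = g := Subtype.ext (by
    simp only [τ, cjH_coe]; rw [h.rr' g.2]; group)
  have fx : τ (g * τ g * τ (τ g)) = g * τ g * τ (τ g) := by
    rw [map_mul, map_mul, t3, cT _ g, mul_assoc]
  have o : Odd (orderOf (g * τ g * τ (τ g))) := by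
    by_contra o
    rw [← orderOf_coe] at o
    have fx' : r * ((g * τ g * τ (τ g) : T) : G) * r⁻¹ = (g * τ g * τ (τ g) : T) := congrArg Subtype.val fx
    have a := h.D_r (g := (g * τ g * τ (τ g) : T))
    have b := h.D_r' (g := r * ((g * τ g * τ (τ g) : T) : G) * r⁻¹)
    rw [show ∀ g : G, r⁻¹ * (r * g * r⁻¹) * r⁻¹⁻¹ = g from fun g => by group] at b
    rw [fx'] at a b
    have := h.tri_cases (g * τ g * τ (τ g)).2 o
    simp only [DD, Set.mem_setOf_eq] at a b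
    tauto
  have e' : ∀ a, ν (τ a) = ν a := fun a => DFunLike.congr_fun e a
  have := hν _ o
  rw [map_mul, map_mul, e', e', e'] at this
  simpa using congrArg Units.val (eq_one_of_pow hk (m := 3) (by decide) (by rw [← this]; simp [pow_succ]))

theorem resT_inj {μ μ' : C →* ℂˣ} (e : μ.comp (inclusion h.TC) = μ'.comp (inclusion h.TC)) : μ = μ' := by
  rw [← mul_inv_eq_one]
  exact h.linT _ fun g hg => by
    have : μ g = μ' g := DFunLike.congr_fun e ⟨g, hg⟩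
    simpa [mul_inv_eq_one] using this

theorem resY_inj {μ μ' : C →* ℂˣ} (e : μ.comp (inclusion h.YC) = μ'.comp (inclusion h.YC)) : μ = μ' := by
  rw [← mul_inv_eq_one]
  exact h.linY _ fun g hg => by
    have : μ g = μ' g := DFunLike.congr_fun e ⟨g, hg⟩
    simpa [mul_inv_eq_one] using this

theorem comp_rr (ν : T →* ℂˣ) : (ν.comp (cjH h.rT)).comp (cjH h.rT) = ν.comp (cjH h.rT') := by
  ext g; simp only [MonoidHom.comp_apply]; congr 2; exact Subtype.ext (h.rr' g.2)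

theorem comp_rr' (ν : T →* ℂˣ) : (ν.comp (cjH h.rT')).comp (cjH h.rT) = ν := by
  ext g; simp only [MonoidHom.comp_apply]; congr 2; exact Subtype.ext (by simp only [cjH_coe]; group)

theorem res_r_ne {μ μ' : C →* ℂˣ} (hμ : Pr μ) (h1 : μ ≠ 1) :
    (μ.comp (inclusion h.TC)).comp (cjH h.rT) ≠ μ'.comp (inclusion h.TC) ∧
      (μ.comp (inclusion h.TC)).comp (cjH h.rT') ≠ μ'.comp (inclusion h.TC) := by
  set ν := μ.comp (inclusion h.TC) with hν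
  have key : ν.comp (cjH h.rT) ≠ ν.comp (cjH h.rT') := fun e => by
    have := congrArg (fun a : T →* ℂˣ => (a.comp (cjH h.rT)).comp (cjH h.rT)) e
    simp only [h.comp_rr, h.comp_rr'] at this
    exact h1 (h.resT_inj ((h.fpf (hμ.comp _) this.symm).trans rfl))
  have val : ∀ (a : C →* ℂˣ) (g : G) (hg : g ∈ T), (a.comp (inclusion h.TC) ⟨g, hg⟩ : ℂ) = ex a g :=
    fun a g hg => (ex_res h.TC a ⟨g, hg⟩).symm
  constructor
  · intro e
    apply key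
    ext g
    have e1 := congrArg Units.val (DFunLike.congr_fun e g)
    have e2 := congrArg Units.val (DFunLike.congr_fun e (cjH h.wT g))
    have a1 : (μ'.comp (inclusion h.TC) (cjH h.wT g) : ℂ) = μ'.comp (inclusion h.TC) g := by
      rw [← ex_res, ← ex_res, cjH_coe, ex_conj μ' h.wC]
    rw [e1, ← a1, ← e2]
    show (ν _ : ℂ) = ν _
    rw [hν, ← ex_res, ← ex_res, cjH_coe, cjH_coe, cjH_coe, ← h.wrw g.2, ex_conj μ h.wC]
  · intro e
    apply key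
    ext g
    have e1 := congrArg Units.val (DFunLike.congr_fun e g)
    have e2 := congrArg Units.val (DFunLike.congr_fun e (cjH h.wT g))
    have a1 : (μ'.comp (inclusion h.TC) (cjH h.wT g) : ℂ) = μ'.comp (inclusion h.TC) g := by
      rw [← ex_res, ← ex_res, cjH_coe, ex_conj μ' h.wC]
    rw [e1, ← a1, ← e2]
    show (ν _ : ℂ) = ν _
    rw [hν, ← ex_res, ← ex_res, cjH_coe, cjH_coe, cjH_coe, ← h.wrw' g.2, ex_conj μ h.wC]

end CS2

theorem realizeEqns_Br_Ch4 : True := by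
  have := @CA.Br.Fs.eq_1.{0}
  have := @CA.Br.Fs.eq_def.{0}
  have := @CA.Br.Fs.congr_simp.{0}
  have := @CA.Br.Sy.eq_1.{0}
  have := @CA.Br.Sy.eq_def.{0}
  have := @CA.Br.Sy.congr_simp.{0}
  have := @CA.Br.co.eq_1.{0}
  have := @CA.Br.co.eq_def.{0}
  have := @CA.Br.co.congr_simp.{0}
  trivial

end CA.Br
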