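import Cfsg.Agent.Br.Ch4

/-!
# Fourier coefficients on the `2`-part of an abelian group
-/

set_option autoImplicit false
set_option linter.unusedSectionVars false

open Cfsg Subgroup CA.Chr CA.Dih CA.Blk Finset
open scoped ComplexConjugate Classical

namespace CA.Br

universe u

theorem lev {ι : Type*} (I : Finset ι) (n : ι → ℤ) (c : ℝ) (E : Finset ℤ) :
    ∑ e ∈ E, ((I.filter fun i => n i = e).card : ℝ) * (e + c) ^ 2 ≤ ∑ i ∈ I, (n i + c) ^ 2 := by
  have : ∀ e ∈ E, ((I.filter fun i => n i = e).card : ℝ) * (e + c) ^ 2 =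
      ∑ i ∈ I with n i = e, ((n i : ℝ) + c) ^ 2 := fun e _ => by
    rw [sum_congr rfl fun i hi => by rw [(mem_filter.1 hi).2], sum_const, nsmul_eq_mul]
  rw [sum_congr rfl this, sum_fiberwise_eq_sum_filter]
  exact sum_le_sum_of_subset_of_nonneg (filter_subset _ _) fun _ _ _ => sq_nonneg _

theorem lb0 {ι : Type*} (I : Finset ι) (n : ι → ℤ) (c : ℝ) {K : Finset ι} (hK : K ⊆ I) {e : ℤ} (he : 0 < e)
    (h : ∀ i ∈ K, e ≤ n i ^ 2) : ((I.filter fun i => n i = 0).card : ℝ) * K.card * e ≤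
      (∑ i ∈ I, ((n i : ℝ) + c) ^ 2) * ((I.filter fun i => n i = 0).card + K.card) := by
  set z : ℝ := ((I.filter fun i => n i = 0).card : ℝ)
  set k : ℝ := (K.card : ℝ)
  have z0 : 0 ≤ z := Nat.cast_nonneg _
  have dj : Disjoint (I.filter fun i => n i = 0) K := disjoint_left.2 fun i hi hk => by
    have := h i hk; rw [(mem_filter.1 hi).2] at this; omega
  have h1 : z * c ^ 2 + ∑ i ∈ K, ((n i : ℝ) + c) ^ 2 ≤ ∑ i ∈ I, ((n i : ℝ) + c) ^ 2 := by
    have : z * c ^ 2 = ∑ i ∈ I with n i = 0, ((n i : ℝ) + c) ^ 2 := by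
      rw [sum_congr rfl fun i hi => by rw [(mem_filter.1 hi).2], sum_const, nsmul_eq_mul]; simp [z]
    rw [this, ← sum_union dj]
    exact sum_le_sum_of_subset_of_nonneg (union_subset (filter_subset _ _) hK) fun _ _ _ => sq_nonneg _
  rcases K.eq_empty_or_nonempty with e0 | e0
  · have : k = 0 := by simp [k, e0]
    rw [this]; simp only [mul_zero, zero_mul, add_zero]
    exact mul_nonneg (sum_nonneg fun _ _ => sq_nonneg _) z0
  have k0 : 0 < k := by simpa [k] using e0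
  have h2 : ∑ i ∈ K, k * z * e ≤ ∑ i ∈ K, (z + k) * (k * ((n i : ℝ) + c) ^ 2 + z * c ^ 2) :=
    sum_le_sum fun i hi => by
      have : (e : ℝ) ≤ n i ^ 2 := by exact_mod_cast h i hi
      nlinarith [sq_nonneg (k * (n i + c) + z * c), mul_nonneg k0.le z0]
  rw [sum_const, nsmul_eq_mul, ← mul_sum, sum_add_distrib, sum_const, nsmul_eq_mul, ← mul_sum] at h2
  refine le_of_mul_le_mul_left ?_ k0
  nlinarith [mul_le_mul_of_nonneg_left h1 (mul_nonneg k0.le (add_nonneg z0 k0.le))]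

theorem lb {ι : Type*} (I : Finset ι) (n : ι → ℤ) (c : ℝ) {K : Finset ι} (hK : K ⊆ I) {e : ℤ} (he : 0 < e)
    (h : ∀ i ∈ K, e ≤ n i ^ 2) {a b : ℕ} (a0 : 0 < a) (ha : a ≤ (I.filter fun i => n i = 0).card)
    (hb : b ≤ K.card) : (a : ℝ) * b * e ≤ (∑ i ∈ I, ((n i : ℝ) + c) ^ 2) * (a + b) := by
  have := lb0 I n c hK he h
  set z : ℝ := ((I.filter fun i => n i = 0).card : ℝ)
  set k : ℝ := (K.card : ℝ)
  set V := ∑ i ∈ I, ((n i : ℝ) + c) ^ 2
  have ha' : (a : ℝ) ≤ z := Nat.cast_le.2 ha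
  have hb' : (b : ℝ) ≤ k := Nat.cast_le.2 hb
  have a0' : (0 : ℝ) < a := by exact_mod_cast a0
  have b0 : (0 : ℝ) ≤ b := Nat.cast_nonneg _
  have e0 : (0 : ℝ) < e := by exact_mod_cast he
  refine le_of_mul_le_mul_right ?_ (show 0 < z + k by linarith)
  have h1 : a * b * (z + k) ≤ z * k * (a + b) := by
    nlinarith [mul_nonneg (mul_nonneg a0'.le (a0'.le.trans ha')) (sub_nonneg.2 hb'),
      mul_nonneg (mul_nonneg b0 (b0.trans hb')) (sub_nonneg.2 ha')]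
  nlinarith [mul_le_mul_of_nonneg_right this (add_nonneg a0'.le b0), mul_le_mul_of_nonneg_right h1 e0.le]

variable {G : Type u} [Group G] [Fintype G]

/-- the characters trivial on the elements of odd order -/
noncomputable def II (A : Subgroup G) : Finset (A →* ℂˣ) := (Set.toFinite {ν : A →* ℂˣ | Pr ν}).toFinset

theorem mem_II {A : Subgroup G} {ν : A →* ℂˣ} : ν ∈ II A ↔ Pr ν := by simp [II]

theorem card_II (A : Subgroup G) : ∃ k, (II A).card = 2 ^ k := by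
  let P : Subgroup (A →* ℂˣ) := ⟨⟨⟨{ν | Pr ν}, Pr.mul⟩, Pr.one⟩, Pr.inv⟩
  have : IsPGroup 2 P := fun ν => by
    choose k hk using fun g : A => Pr.pow ν.2 g
    refine ⟨univ.sup k, Subtype.ext (MonoidHom.ext fun g => ?_)⟩
    obtain ⟨m, hm⟩ := Nat.exists_eq_add_of_le (le_sup (f := k) (mem_univ g))
    simp [hm, pow_add, pow_mul, hk g]
  obtain ⟨k, hk⟩ := this.exists_card_eq
  refine ⟨k, ?_⟩
  rw [← hk, II, ← Set.ncard_eq_toFinset_card]
  rfl

theorem sum_II {A : Subgroup G} (cA : IsMulCommutative A) {g : A} (hg : ¬ Odd (orderOf g)) :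
    ∑ ν ∈ II A, (ν g : ℂ) = 0 := by
  obtain ⟨k, m, hm, e⟩ := Nat.exists_eq_two_pow_mul_odd (Nat.card_pos (α := A)).ne'
  obtain ⟨l, hl⟩ := exists_lin_ne_one (g := g ^ m) fun e => hg (hm.of_dvd_nat (orderOf_dvd_of_pow_eq_one e))
  have P : Pr (l ^ m) := fun y hy => by
    have : orderOf y ∣ m := (Nat.Coprime.pow_right k (Nat.coprime_two_right.2 hy)).dvd_of_dvd_mul_left
      (e ▸ orderOf_dvd_natCard y)
    rw [MonoidHom.pow_apply, ← map_pow, orderOf_dvd_iff_pow_eq_one.1 this, map_one]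
  have h1 : ∑ ν ∈ II A, (ν g : ℂ) = (l ^ m) g * ∑ ν ∈ II A, (ν g : ℂ) := by
    rw [mul_sum]
    refine (sum_bij (fun ν _ => l ^ m * ν) (fun ν hν => mem_II.2 (P.mul (mem_II.1 hν))) (fun a _ b _ e => by
      simpa using e) (fun ν hν => ⟨(l ^ m)⁻¹ * ν, mem_II.2 (P.inv.mul (mem_II.1 hν)), by simp⟩)
      fun ν _ => by simp).symm
  have h2 : ((l ^ m) g : ℂ) ≠ 1 := fun e => hl (by ext; simpa using e)
  have : (1 - ((l ^ m) g : ℂ)) * ∑ ν ∈ II A, (ν g : ℂ) = 0 := by rw [sub_mul, ← h1]; ring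
  exact (mul_eq_zero.1 this).resolve_left (sub_ne_zero.2 h2.symm)

/-- the part on the elements of even order -/
noncomputable def evn (F : G → ℂ) (g : G) : ℂ := if Odd (orderOf g) then 0 else F g

/-- differences of Fourier coefficients -/
noncomputable def nd {A : Subgroup G} (F : G → ℂ) (ν : A →* ℂˣ) : ℤ := ⌊(co F ν - co F (1 : A →* ℂˣ)).re⌋

theorem nd_one (A : Subgroup G) (F : G → ℂ) : nd F (1 : A →* ℂˣ) = 0 := by simp [nd]

theorem nd_eq {A : Subgroup G} {F : G → ℂ} (h : ∀ ν : A →* ℂˣ, ∃ n : ℤ, co F ν = n) (ν : A →* ℂˣ) :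
    (nd F ν : ℂ) = co F ν - co F (1 : A →* ℂˣ) := by
  obtain ⟨a, ha⟩ := h ν
  obtain ⟨b, hb⟩ := h 1
  rw [nd, ha, hb, ← Int.cast_sub, Complex.intCast_re, Int.floor_intCast]

theorem co_dot {A : Subgroup G} (F : G → ℂ) (ν : A →* ℂˣ) : co F ν = ⟪F ∘ A.subtype, lin ν⟫ := by
  rw [dot_def]; rfl

theorem var_eq {A : Subgroup G} (cA : IsMulCommutative A) {F : G → ℂ}
    (hz : ∀ ν : A →* ℂˣ, ¬ Pr ν → co (evn F) ν = 0) (h : ∀ ν : A →* ℂˣ, ∃ n : ℤ, co F ν = n) :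
    (∃ c : ℝ, ∑ ν ∈ II A, ((nd F ν : ℝ) + c) ^ 2 ≤ nrm (evn F ∘ A.subtype)) ∧
      ∀ g : A, ¬ Odd (orderOf g) → F g = ∑ ν ∈ II A, nd F ν * (ν g : ℂ) := by
  haveI := Fintype.ofFinite (A →* ℂˣ)
  set c := co (evn F) (1 : A →* ℂˣ)
  have e : ∀ ν ∈ II A, co (evn F) ν = nd F ν + c := fun ν hν => by
    rw [nd_eq h, ← sub_eq_iff_eq_add]
    simp only [co, c, ← mul_sub, ← sum_sub_distrib]
    congr 1
    refine sum_congr rfl fun g _ => ?_
    by_cases o : Odd (orderOf g)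
    · simp [evn, o, mem_II.1 hν g o]
    · simp [evn, o]
  have sub : ∀ k : (A →* ℂˣ) → ℂ, ∑ ν, co (evn F) ν * k ν = ∑ ν ∈ II A, (nd F ν + c) * k ν := fun k => by
    rw [← sum_subset (subset_univ (II A)) fun ν _ hν => by rw [hz ν (mt mem_II.2 hν), zero_mul]]
    exact sum_congr rfl fun ν hν => by rw [e ν hν]
  refine ⟨⟨c.re, ?_⟩, fun g hg => ?_⟩
  · rw [nrm_parseval (CF_of_comm _), sum_irr_lin]
    refine le_trans (sum_le_sum fun ν hν => ?_)
      (sum_le_sum_of_subset_of_nonneg (subset_univ (II A)) fun _ _ _ => sq_nonneg _)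
    rw [← co_dot, e ν hν]
    have := Complex.abs_re_le_norm (nd F ν + c)
    simpa using sq_le_sq' (by linarith [neg_abs_le (nd F ν + c : ℂ).re]) ((le_abs_self _).trans this)
  · have := congrFun (lin_expand (evn F ∘ A.subtype)) g
    simp only [Finset.sum_apply, Pi.smul_apply, smul_eq_mul, ← co_dot, sub] at this
    simp only [add_mul, sum_add_distrib, ← mul_sum, lin, sum_II cA hg] at this
    simpa [evn, hg] using this

theorem recon {A : Subgroup G} {n : (A →* ℂˣ) → ℤ} {S : Finset (A →* ℂˣ)} (hS : ∀ ν ∈ S, Pr ν ∧ n ν = -1)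
    (h : ∀ ν, Pr ν → ν ∉ S → n ν = 0) (g : A) : ∑ ν ∈ II A, n ν * (ν g : ℂ) = -∑ ν ∈ S, (ν g : ℂ) := by
  rw [← sum_subset (s₁ := S) (fun ν hν => mem_II.2 (hS ν hν).1) fun ν h1 h2 => by simp [h ν (mem_II.1 h1) h2],
    ← sum_neg_distrib]
  exact sum_congr rfl fun ν hν => by simp [(hS ν hν).2]

theorem realizeEqns_Br_Ch5 : True := by
  have := @CA.Br.II.eq_1.{0}
  have := @CA.Br.II.eq_def.{0}
  have := @CA.Br.II.congr_simp.{0}
  have := @CA.Br.evn.eq_1.{0}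
  have := @CA.Br.evn.eq_def.{0}
  have := @CA.Br.evn.congr_simp.{0}
  have := @CA.Br.nd.eq_1.{0}
  have := @CA.Br.nd.eq_def.{0}
  have := @CA.Br.nd.congr_simp.{0}
  trivial

end CA.Br
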