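import Cfsg.Agent.Br.BW

/-!
# Odd primes dividing `q + 1` do not divide the index of `C(t)`
-/

set_option autoImplicit false
set_option linter.unusedSectionVars false

open Cfsg Subgroup CA.Dih CA.FG CA.BG CA.GW CA.GW.BA

namespace CA.Br

universe u v

variable {G : Type u} [Group G] [Finite G]

/-- the `K`-conjugates of `A ∖ D` -/
def cjd (K A D : Subgroup G) : Set G := {x | ∃ k ∈ K, ∃ a ∈ A, a ∉ D ∧ k * a * k⁻¹ = x}

theorem big {K A D : Subgroup G} (oK : IsPiGrp {2}ᶜ K) (hA : A ≤ K) (hD : ¬ A ≤ D)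
    (ti : ∀ a ∈ A, a ∉ D → ∀ k ∈ K, k * a * k⁻¹ ∈ A → k ∈ A) : 2 * Nat.card K ≤ 3 * (cjd K A D).ncard := by
  classical
  have := Fintype.ofFinite G
  have cf : ∀ H : Subgroup G, (Finset.univ.filter (· ∈ H)).card = Nat.card H := fun H => by
    rw [Nat.card_eq_fintype_card, Fintype.card_subtype]
  have h1 := Finset.card_le_mul_card_image_of_maps_to (f := fun p : G × G => p.1 * p.2 * p.1⁻¹)
    (s := Finset.univ.filter (· ∈ K) ×ˢ (Finset.univ.filter (· ∈ A) \ Finset.univ.filter (· ∈ D ⊓ A)))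
    (t := (cjd K A D).toFinset) (fun p hp => by
      simp only [Finset.mem_product, Finset.mem_sdiff, Finset.mem_filter, Finset.mem_univ, true_and] at hp
      exact Set.mem_toFinset.2 ⟨_, hp.1, _, hp.2.1, fun e => hp.2.2 ⟨e, hp.2.1⟩, rfl⟩) (Nat.card A) fun x hx => by
      obtain ⟨k, hk, a, ha, -, rfl⟩ := Set.mem_toFinset.1 hx
      rw [← cf A]
      refine Finset.card_le_card_of_injOn (fun p => k⁻¹ * p.1) (fun p hp => ?_) fun p hp p' hp' e => ?_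
      · simp only [Finset.coe_filter, Finset.mem_product, Finset.mem_sdiff, Finset.mem_filter, Finset.mem_univ,
          true_and, Set.mem_setOf_eq] at hp ⊢
        refine ti _ hp.1.2.1 (fun e => hp.1.2.2 ⟨e, hp.1.2.1⟩) _ (mul_mem (inv_mem hk) hp.1.1) ?_
        rw [show k⁻¹ * p.1 * p.2 * (k⁻¹ * p.1)⁻¹ = k⁻¹ * (p.1 * p.2 * p.1⁻¹) * k by group, hp.2]
        simpa [mul_assoc] using ha
      · have e : p.1 = p'.1 := mul_left_cancel e
        have := (Finset.mem_filter.1 hp).2.trans (Finset.mem_filter.1 hp').2.symm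
        simp only [e] at this
        exact Prod.ext e (mul_left_cancel (mul_right_cancel this))
  rw [Finset.card_product, Finset.card_sdiff_of_subset fun x => by simp +contextual, cf, cf, cf,
    ← Set.ncard_eq_toFinset_card', ← card_inf_mul_relIndex D A] at h1
  have h2 : D.relIndex A ≠ 1 := fun e => hD (relIndex_eq_one.1 e)
  have h3 := (piNat_compl_singleton_iff Nat.prime_two).1 ((oK.of_le hA).relIndex D)
  obtain ⟨n, hn⟩ : ∃ n, D.relIndex A = n + 3 := ⟨D.relIndex A - 3, by omega⟩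
  rw [hn, show ∀ m, m * (n + 3) - m = m * (n + 2) from fun m => Nat.sub_eq_of_eq_add (by ring)] at h1
  have h4 : 0 < Nat.card (D ⊓ A : Subgroup G) * (n + 3) := Nat.mul_pos Nat.card_pos (n + 2).succ_pos
  refine Nat.le_of_mul_le_mul_left ?_ h4
  nlinarith [Nat.zero_le (Nat.card (D ⊓ A : Subgroup G) * n * Nat.card K)]

theorem mem_of_sq {K T : Subgroup G} (oK : IsPiGrp {2}ᶜ K) {k : G} (hk : k ∈ K) (h : k * k ∈ T) : k ∈ T := by
  obtain ⟨z, z1, z2⟩ := exists_sqrt oK (mul_mem hk hk)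
  rw [← sq_inj oK (zpowers_le.2 (mul_mem hk hk) z1) hk z2]
  exact zpowers_le.2 h z1

namespace CS

variable {q : ℕ} {C Z T Y U X : Subgroup G} {w u x : G} (c : CS q C Z T Y U X w u x)
include c

theorem sqT {k : G} (h : k * w ∈ T) : k * k ∈ T := by
  have := mul_mem h (c.wT _ h)
  rwa [show k * w * (w * (k * w) * w⁻¹) = k * (w * w) * k by group, c.w2, mul_one] at this

theorem sqY {k : G} (h : k * u ∈ Y) : k * k ∈ Z := by
  have := c.uZ _ h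
  rwa [show k * u * (u * (k * u) * u⁻¹) = k * (u * u) * k by group, c.u2, mul_one] at this

theorem conjZ2 {g z : G} (hg : g ∈ C) (h : g * z * g⁻¹ ∈ Z) : z ∈ Z := by
  have := c.cen _ h g hg
  rw [inv_mul_cancel_right, mul_right_inj] at this
  rwa [this]

/-- no odd order subgroup contains both a split and a non-split element -/
theorem split_ns {K : Subgroup G} (oK : IsPiGrp {2}ᶜ K) (hK : K ≤ C) {a b g : G} (ha : a ∈ K ⊓ T) (aZ : a ∉ Z)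
    (hg : g ∈ C) (hb : b ∈ K ⊓ Y :^ g) (bZ : b ∉ Z) : False := by
  have h1 := big oK inf_le_left (D := Z) (fun e => aZ (e ha)) fun a ha aZ k hk e =>
    ⟨hk, (c.tiT a ha.2 aZ k (hK hk) e.2).elim id fun e => mem_of_sq oK hk (c.sqT e)⟩
  have h2 := big oK inf_le_left (D := Z) (fun e => bZ (e hb)) fun a ha aZ k hk e => ⟨hk, by
    have := c.tiY (g⁻¹ * a * g⁻¹⁻¹) (by simpa using mem_conjg.1 ha.2) (fun e => aZ (c.conjZ2 (inv_mem hg) e))
      (g⁻¹ * k * g) (mul_mem (mul_mem (inv_mem hg) (hK hk)) hg) (by convert mem_conjg.1 e.2 using 1; group)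
    refine this.elim mem_conjg.2 fun e => mem_of_sq oK hk (mem_conjg.2 ?_)
    convert c.ZY (c.sqY e) using 1; group⟩
  have h3 : Disjoint (cjd K (K ⊓ T) Z) (cjd K (K ⊓ Y :^ g) Z) := Set.disjoint_left.2 (by
    rintro _ ⟨k, hk, a, ha, aZ, rfl⟩ ⟨l, hl, b, hb, -, e⟩
    refine c.TY a ha.2 aZ (g⁻¹ * l⁻¹ * k) (mul_mem (mul_mem (inv_mem hg) (inv_mem (hK hl))) (hK hk)) ?_
    rw [show g⁻¹ * l⁻¹ * k * a * (g⁻¹ * l⁻¹ * k)⁻¹ = g⁻¹ * (l⁻¹ * (k * a * k⁻¹) * l) * g by group, ← e]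
    simpa [mul_assoc] using mem_conjg.1 hb.2)
  have h4 : (cjd K (K ⊓ T) Z ∪ cjd K (K ⊓ Y :^ g) Z).ncard ≤ (K : Set G).ncard := Set.ncard_le_ncard (by
    rintro _ (⟨k, hk, a, ha, -, rfl⟩ | ⟨k, hk, a, ha, -, rfl⟩) <;> exact mul_mem (mul_mem hk ha.1) (inv_mem hk))
  rw [Set.ncard_union_eq h3, ← Nat.card_coe_set_eq (K : Set G)] at h4
  have : 0 < Nat.card K := Nat.card_pos
  change _ ≤ Nat.card K at h4
  omega

theorem relY : Y.relIndex C = q * (q - 1) := by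
  have k := card_mul_relIndex c.YC
  obtain ⟨n, rfl⟩ : ∃ n, q = n + 1 := ⟨_, (Nat.sub_add_cancel (by have := c.q3; omega)).symm⟩
  rw [c.kY, c.kC, show (n + 1) ^ 2 - 1 = n * (n + 2) from Nat.sub_eq_of_eq_add (by ring)] at k
  exact Nat.eq_of_mul_eq_mul_left (Nat.mul_pos (Nat.succ_pos (n + 1)) (Nat.card_pos (α := Z)))
    (k.trans (by rw [Nat.succ_eq_add_one, Nat.add_sub_cancel]; ring))

theorem not_dvd {r : ℕ} (hr : r.Prime) (r2 : r ≠ 2) (rq : r ∣ q + 1) : ¬ r ∣ q ∧ ¬ r ∣ q - 1 := by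
  have := c.q3
  exact ⟨fun e => hr.one_lt.ne' (Nat.dvd_one.1 ((Nat.dvd_add_right e).1 rq)), fun e => r2
    ((Nat.prime_dvd_prime_iff_eq hr Nat.prime_two).1 ((Nat.dvd_add_right e).1 (by rwa [show q - 1 + 2 = q + 1 by omega])))⟩

theorem sylY {r : ℕ} (hr : r.Prime) (r2 : r ≠ 2) (rq : r ∣ q + 1) {P : Subgroup G} (hP : IsSylowOf r P Y) :
    IsSylowOf r P C := hP.trans_index c.YC ((piNat_compl_singleton_iff hr).2 (by
  rw [c.relY, hr.dvd_mul, not_or]; exact c.not_dvd hr r2 rq))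

theorem core {r : ℕ} (hr : r.Prime) (r2 : r ≠ 2) (rq : r ∣ q + 1) (rZ : ¬ r ∣ Nat.card Z) {K : Subgroup G}
    (oK : IsPiGrp {2}ᶜ K) (hK : K ≤ C) (rK : r ∣ Nat.card K) {z : G} (zT : z ∈ T) (zZ : z * z ∉ Z)
    (h : z ∈ K ∨ IsPiElt {2} z ∧ z ∈ 𝒩(K)) : False := by
  obtain ⟨P0, hP0⟩ := sylow_exists hr Y
  have key : ∀ P, IsSylowOf r P K → ∃ g ∈ C, P ≤ Y :^ g ∧ ∃ y ∈ P, y ∉ Z := fun P hP => by
    obtain ⟨g, hg, e⟩ := sylow_subJ hr (c.sylY hr r2 rq hP0) hP.piGrp (hP.le.trans hK)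
    refine ⟨g, hg, e.trans (conjg_mono g hP0.le), SetLike.not_le_iff_exists.1 fun e => rZ ?_⟩
    exact ((hP.dvd_card_iff hr rfl).2 rK).trans (card_dvd_of_le e)
  have z1 : z ∉ Z := fun e => zZ (mul_mem e e)
  rcases h with h | ⟨h, h'⟩
  · obtain ⟨P, hP⟩ := sylow_exists hr K
    obtain ⟨g, hg, e, y, hy, yZ⟩ := key P hP
    exact c.split_ns oK hK ⟨h, zT⟩ z1 hg ⟨hP.le hy, e hy⟩ yZ
  · obtain ⟨P, hP, nP⟩ := sol_coprime_Sylow_exists hr (.inr (sol_zpowers z)) (zpowers_le.2 h')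
      ((piGrp_zpowers_iff.2 h).coprime oK).symm
    obtain ⟨g, hg, e, y, hy, yZ⟩ := key P hP
    have := c.tiY (g⁻¹ * y * g⁻¹⁻¹) (by simpa using mem_conjg.1 (e hy)) (fun e => yZ (c.conjZ2 (inv_mem hg) e))
      (g⁻¹ * z * g⁻¹⁻¹) (mul_mem (mul_mem (inv_mem hg) (c.TC zT)) (inv_mem (inv_mem hg))) (by
        convert mem_conjg.1 (e ((mem_normalizer_iff.1 (nP (mem_zpowers z)) y).1 hy)) using 1; group)
    exact this.elim (c.TY z zT z1 _ (inv_mem hg)) fun e => zZ (c.conjZ2 (inv_mem hg) (by rw [conj_mul']; exact c.sqY e))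

end CS

variable {F : Type v} [Field F] [Fintype F] {φ : GL (Fin 2) F →* G}

theorem BK.four (h : BK φ) : Four (tt φ) (uu φ) :=
  ⟨⟨tt_mul, h.t1⟩, ⟨uu_mul, fun e => h.uZ (e ▸ one_mem _)⟩, fun e => h.uZ (e ▸ tt_Zt), tt_comm ⟨_, rfl⟩⟩

theorem BL.gcd (h : BL φ) (hA : Zt φ ⊓ 𝒞(𝒞[uu φ]) = ⊥) (h4 : Zt φ ≠ zpowers (tt φ)) {r : ℕ} (hr : r.Prime)
    (r2 : r ≠ 2) (rq : r ∣ Fintype.card F + 1) : ¬ r ∣ φ.range.index := fun rh => by
  have k := h.toBK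
  obtain ⟨e, he⟩ := k.exists_ns
  have c := k.cs he
  have f := k.four
  obtain ⟨ρ, hρ⟩ := h.exists_rho
  have rZ : ¬ r ∣ Nat.card (Zt φ) := fun e => (c.not_dvd hr r2 rq).2 (k.kZ ▸ e.mul_right _)
  obtain ⟨P, hP⟩ := sylow_exists hr (Yt φ e)
  obtain ⟨S, hS, PS⟩ := sylow_superset hr hP.piGrp (le_top (a := P))
  have lt := nilpotent_proper_norm hS.pGrp.nil (lt_of_le_of_ne PS fun e => IsSylowOf.not_dvd_index hS hr (by
    rw [← e, relIndex_top_right]; exact rh.trans (index_dvd_of_le (hP.le.trans c.YC))))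
  have pN : IsPGrp r (S ⊓ 𝒩(P)) := hS.piGrp.inf_left _
  obtain ⟨y, hy, y1⟩ := exists_mem_ne_one (meet_center_nil pN.nil ⟨lt.le, inf_le_right⟩
    (IsSylowOf.ne_bot' hP hr (c.kY ▸ rq.mul_right _)))
  have yY := hP.le hy.1
  have rz : ∀ a ∈ Zt φ, IsPiElt {r} a → a = 1 := fun a ha pa =>
    pa.eq_one (((piGrp_compl_singleton_iff hr).2 rZ).piElt ha)
  have py := hP.piGrp.piElt hy.1
  have uy : uu φ * y * (uu φ)⁻¹ = y⁻¹ := eq_inv_of_mul_eq_one_right (rz _ (c.uZ y yY)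
    (py.mul (py.conj _) (congrArg Subtype.val (c.cY.1.1 ⟨_, yY⟩ ⟨_, c.uY y yY⟩))))
  have cy : 𝒞[y] ⊓ 𝒞[tt φ] = Yt φ e := by
    rw [← h.rng]
    refine le_antisymm (fun g hg => (c.tiY y yY (fun e => y1 (rz y e py)) g hg.2
      (by rwa [conj_eq_iff.2 hg.1])).resolve_right fun e => y1 ?_) fun g hg =>
        ⟨mem_c1.2 (congrArg Subtype.val (c.cY.1.1 ⟨_, hg⟩ ⟨_, yY⟩)), c.YC hg⟩
    refine eq_one_of_inv ((odd_of_pGrp hP.piGrp r2).piElt hy.1) ?_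
    have : g * uu φ * y * (g * uu φ)⁻¹ = y := conj_eq_iff.2 (mem_c1.2 (congrArg Subtype.val (c.cY.1.1 ⟨_, e⟩ ⟨_, yY⟩)))
    rw [show g * uu φ * y * (g * uu φ)⁻¹ = g * (uu φ * y * (uu φ)⁻¹) * g⁻¹ by group, uy, ← conj_inv,
      conj_eq_iff.2 hg.1] at this
    exact this.symm
  obtain ⟨R, hR, tR⟩ := sylow_superset Nat.prime_two (two_zpowers tt_mul) (zpowers_le.2 (c.ZY tt_Zt))
  obtain ⟨-, -, hO⟩ := npc f.it (tR (mem_zpowers _)) (cy.symm ▸ hR) (cyclic_of_le (k.cycY he) hR.le)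
  have ZK : Zt φ ≤ 𝒞[y] := c.ZY.trans (cy ▸ inf_le_left)
  have nO : ∀ g ∈ 𝒩(𝒞[y]), g ∈ 𝒩(OO 𝒞[y]) := fun g hg => norm_pcore _ le_rfl hg
  have uK : uu φ ∈ 𝒩(𝒞[y]) := mem_norm_of_forall fun g hg => cent1_symm.1 (by
    have := conj_mem_conjg (uu φ) (inv_mem (cent1_symm.1 hg))
    rwa [conjg_cent1, ← conj_inv, uy, inv_inv] at this)
  have bw := BW hO.piGrp tt_mul uu_mul f.comm (nO _ (le_normalizer (ZK tt_Zt))) (nO _ uK)
  have NO : S ⊓ 𝒩(P) ≤ OO 𝒞[y] := hO.le_of_normal (pcore_norm _ _) (odd_of_pGrp pN r2)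
    fun g hg => mem_c1.2 (hy.2.2 g hg)
  obtain ⟨z, zZ, z2⟩ : ∃ z ∈ Zt φ, z * z ≠ 1 ∧ (IsPiElt {2}ᶜ z ∨ IsPiElt {2} z) := by
    obtain ⟨z, zZ, zt⟩ := SetLike.exists_of_lt (lt_of_le_of_ne (zpowers_le.2 tt_Zt) h4.symm)
    obtain ⟨a, b, ha, hb, pa, pb, e, -⟩ := exists_piPart {2} z
    by_cases b1 : b = 1
    · rw [b1, mul_one] at e
      exact ⟨z, zZ, fun e => zt ((mem_zpowers_inv tt_mul).2 (k.invZ zZ e)), .inr (e ▸ pa)⟩
    · exact ⟨b, zpowers_le.2 zZ hb, fun e => b1 (eq_one_of_inv pb (eq_inv_of_mul_eq_one_left e)), .inl pb⟩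
  have key : ∀ g j, g * j * g⁻¹ = tt φ → (∀ a ∈ Tt φ, g * a * g⁻¹ ∈ Tt φ) → Zt φ ⊓ 𝒞(𝒞[j]) = ⊥ →
      ¬ r ∣ Nat.card (OO 𝒞[y] ⊓ 𝒞[j] : Subgroup G) := fun g j gj gT hj d => by
    have e : 𝒞[j] :^ g = φ.range := by rw [conjg_cent1, gj, h.rng]
    have zj : z ∈ 𝒞[j] := by
      rw [← conj_mem_conjg_iff (g := g), e]; exact c.TC (gT z (c.ZT zZ))
    refine c.core hr r2 rq rZ ((hO.piGrp.inf_left 𝒞[j]).conjg g) (e ▸ conjg_mono g inf_le_right) (by rwa [card_conjg])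
      (gT z (c.ZT zZ)) (fun a => z2.1 (hj.le ⟨mul_mem zZ zZ, fun b hb => ?_⟩)) (z2.2.imp (fun a => ?_) fun a => ⟨a.conj g, ?_⟩)
    · have := c.cen _ a _ (e ▸ conj_mem_conjg g hb)
      rw [← conj_mul', ← conj_mul', ← conj_mul'] at this
      exact (mul_left_cancel (mul_right_cancel this)).symm
    · exact conj_mem_conjg g ⟨hO.mem_of_normal (pcore_norm _ _) a (ZK zZ), zj⟩
    · rw [← conjg_norm]; exact conj_mem_conjg g (norm_inf_c1 (nO _ (le_normalizer (ZK zZ))) zj)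
  have k1 := key (ρ * ρ) (uu φ) (by rw [← hρ.rtu, ← hρ.ru]; group) (fun a ha => by
    convert hρ.rT h (hρ.rT h ha) using 1; group) hA
  have k2 := key ρ _ hρ.rtu (fun a => hρ.rT h) (by
    have := congrArg (· :^ wt φ) hA
    simp only [conjg_inf, conjg_cent, conjg_cent1, w_u, conjg_bot] at this
    rwa [conjg_of_mem_cent (show wt φ ∈ 𝒞(Zt φ) from fun a ha => c.cen a ha _ c.wC)] at this)
  have d : Nat.card (S ⊓ 𝒩(P) : Subgroup G) ∣ Nat.card (OO 𝒞[y] ⊓ 𝒞[tt φ] : Subgroup G) :=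
    pN.dvd_of_dvd_mul ((piNat_compl_singleton_iff hr).2 k1) (pN.dvd_of_dvd_mul ((piNat_compl_singleton_iff hr).2 k2)
      (bw ▸ (card_dvd_of_le NO).mul_right _))
  have d2 : Nat.card (S ⊓ 𝒩(P) : Subgroup G) ∣ Nat.card P := pN.dvd_of_dvd_mul hP.index (by
    rw [card_mul_relIndex hP.le, ← cy]
    exact d.trans (card_dvd_of_le (inf_le_inf_right _ (pcore_le _ _))))
  exact (card_lt_of_lt lt).not_ge (Nat.le_of_dvd Nat.card_pos d2)

theorem realizeEqns_Br_Gcd : True := by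
  have := @CA.Br.cjd.eq_1.{0}
  have := @CA.Br.cjd.eq_def.{0}
  have := @CA.Br.cjd.congr_simp.{0}
  trivial

end CA.Br
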