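import Cfsg.Agent.Lin.Basic

/-!
# The Steinberg relations of type `A₂` identify `PSL₃`
-/

set_option autoImplicit false
set_option linter.unusedSectionVars false

open Subgroup Matrix

namespace CA.Br

universe u v

variable {F : Type v} [Field F] {G : Type u} [Group G]

/-- conjugate of a subgroup -/
def ac (g : G) (H : Subgroup G) : Subgroup G := H.map (MulAut.conj g).toMonoidHom

theorem ac_mul (a b : G) (H : Subgroup G) : ac (a * b) H = ac a (ac b H) := by
  rw [ac, ac, ac, Subgroup.map_map]; congr 1; ext y; simp [mul_assoc]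

theorem ac_one (H : Subgroup G) : ac 1 H = H := by ext y; simp [ac]

theorem mem_ac {g y : G} {H : Subgroup G} (h : y ∈ H) : MulAut.conj g y ∈ ac g H := ⟨y, h, rfl⟩

theorem ac_eq {g : G} {H K : Subgroup G} (h1 : ac g H ≤ K) (h2 : ac g⁻¹ K ≤ H) : ac g H = K :=
  le_antisymm h1 (by
    have := Subgroup.map_mono (f := (MulAut.conj g).toMonoidHom) h2
    rwa [← ac, ← ac, ← ac_mul, mul_inv_cancel, ac_one] at this)

/-- the Steinberg relations -/
structure St3 (x : Fin 3 → Fin 3 → F → G) : Prop where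
  add : ∀ {i j}, i ≠ j → ∀ s t, x i j (s + t) = x i j s * x i j t
  row : ∀ {i j k}, i ≠ j → i ≠ k → ∀ s t, x i j s * x i k t = x i k t * x i j s
  col : ∀ {i j k}, i ≠ j → k ≠ j → ∀ s t, x i j s * x k j t = x k j t * x i j s
  com : ∀ {i j k}, i ≠ j → j ≠ k → i ≠ k → ∀ s t, x i j s * x j k t * (x i j s)⁻¹ = x i k (s * t) * x j k t

theorem third {i j k l : Fin 3} (h1 : i ≠ j) (h2 : j ≠ k) (h3 : i ≠ k) (h : i ≠ l) : l = j ∨ l = k := by
  revert i j k l; decide

theorem ex_third {i j : Fin 3} (h : i ≠ j) : ∃ k, j ≠ k ∧ i ≠ k := by revert i j; decide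

variable (x : Fin 3 → Fin 3 → F → G)

/-- the group of elations with centre `e_i` -/
def rowE (i : Fin 3) : Subgroup G := closure {g | ∃ j s, i ≠ j ∧ x i j s = g}

/-- `n_{ij}(a)` -/
def nn (i j : Fin 3) (a : F) : G := x i j a * x j i (-a⁻¹) * x i j a

/-- the group attached to a vector -/
def psi (i j k : Fin 3) (w : Fin 3 → F) : Subgroup G := ac (x j i (w j / w i) * x k i (w k / w i)) (rowE x i)

/-- the relation between vectors and subgroups -/
def RR (w : Fin 3 → F) (H : Subgroup G) : Prop :=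
  ∃ i j k, i ≠ j ∧ j ≠ k ∧ i ≠ k ∧ w i ≠ 0 ∧ H = psi x i j k w

variable {x}

theorem mem_rowE {i j : Fin 3} (h : i ≠ j) (s : F) : x i j s ∈ rowE x i := subset_closure ⟨j, s, h, rfl⟩

theorem ac_rowE {g : G} {i : Fin 3} {K : Subgroup G} (h : ∀ j s, i ≠ j → MulAut.conj g (x i j s) ∈ K) :
    ac g (rowE x i) ≤ K := by
  rw [ac, map_le_iff_le_comap, rowE, closure_le]
  rintro _ ⟨j, s, hj, rfl⟩
  exact h j s hj

namespace St3

variable (h : St3 x) {i j k : Fin 3}
include h

theorem zero (a : i ≠ j) : x i j 0 = 1 := by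
  have := h.add a 0 0
  rw [add_zero] at this
  exact mul_left_cancel (a := x i j 0) (by rw [← this, mul_one])

theorem inv (a : i ≠ j) (s : F) : (x i j s)⁻¹ = x i j (-s) :=
  inv_eq_of_mul_eq_one_right (by rw [← h.add a, add_neg_cancel, h.zero a])

theorem c1 (a : i ≠ j) (b : i ≠ k) (s t : F) : MulAut.conj (x i j s) (x i k t) = x i k t := by
  rw [MulAut.conj_apply, h.row a b, mul_inv_cancel_right]

theorem c2 (a : i ≠ j) (b : k ≠ j) (s t : F) : MulAut.conj (x i j s) (x k j t) = x k j t := by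
  rw [MulAut.conj_apply, h.col a b, mul_inv_cancel_right]

theorem c3 (a : i ≠ j) (b : j ≠ k) (c : i ≠ k) (s t : F) :
    MulAut.conj (x i j s) (x j k t) = x i k (s * t) * x j k t := h.com a b c s t

theorem c4 (a : i ≠ j) (b : j ≠ k) (c : i ≠ k) (s t : F) :
    MulAut.conj (x j k t) (x i j s) = x i k (-(s * t)) * x i j s := by
  have := h.com a b c s t
  rw [← h.inv c, MulAut.conj_apply, eq_inv_mul_iff_mul_eq, ← mul_assoc, ← mul_assoc, ← this]
  group

theorem cm (a : i ≠ j) (b : j ≠ k) (c : i ≠ k) (s t : F) :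
    x i k (s * t) = x i j s * x j k t * (x i j s)⁻¹ * (x j k t)⁻¹ := by rw [h.com a b c, mul_inv_cancel_right]

theorem can (a : i ≠ j) (b : k ≠ j) {s s' : F} (t : F) (e : s + s' = 0) : x i j s * (x k j t * x i j s') = x k j t := by
  rw [← h.col a b, ← mul_assoc, ← h.add a, e, h.zero a, one_mul]

theorem can' (a : i ≠ j) (b : i ≠ k) {s s' : F} (t : F) (e : s + s' = 0) : x i j s * (x i k t * x i j s') = x i k t := by
  rw [← h.row a b, ← mul_assoc, ← h.add a, e, h.zero a, one_mul]

omit h in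
theorem nc (m : F) (y : G) : MulAut.conj (nn x i j m) y =
    MulAut.conj (x i j m) (MulAut.conj (x j i (-m⁻¹)) (MulAut.conj (x i j m) y)) := by
  simp only [nn, map_mul, MulAut.mul_apply]

theorem ninv (a : i ≠ j) (m : F) : (nn x i j m)⁻¹ = nn x i j (-m) := by
  simp only [nn, _root_.mul_inv_rev, h.inv a, h.inv a.symm, mul_assoc, inv_neg]

section
variable (a : i ≠ j) (b : j ≠ k) (c : i ≠ k) {m : F} (hm : m ≠ 0)
include a b c hm

theorem n1 (s : F) : MulAut.conj (nn x i j m) (x i k s) = x j k (-m⁻¹ * s) := by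
  rw [nc, h.c1 a c, h.c3 a.symm c b, map_mul, h.c3 a b c, h.c1 a c, mul_assoc, h.can c b]
  field_simp; ring

theorem n2 (s : F) : MulAut.conj (nn x i j m) (x j k s) = x i k (m * s) := by
  rw [nc, h.c3 a b c, map_mul, h.c3 a.symm c b, h.c1 a.symm b, mul_assoc, h.can b c, h.c1 a c]
  field_simp; ring

theorem n3 (s : F) : MulAut.conj (nn x i j m) (x k j s) = x k i (s * m⁻¹) := by
  rw [nc, h.c2 a b.symm, h.c4 b.symm a.symm c.symm, map_mul, h.c4 c.symm a b.symm, h.c2 a b.symm, mul_assoc,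
    h.can' b.symm c.symm, mul_neg, neg_neg]
  field_simp; ring

theorem n4 (s : F) : MulAut.conj (nn x i j m) (x k i s) = x k j (-(s * m)) := by
  rw [nc, h.c4 c.symm a b.symm, map_mul, h.c4 b.symm a.symm c.symm, h.c2 a.symm c.symm, mul_assoc,
    h.can' c.symm b.symm, h.c2 a b.symm]
  field_simp; ring

theorem n5 (s : F) : MulAut.conj (nn x i j m) (x i j s) ∈ rowE x j := by
  rw [← mul_one s, h.cm c b.symm a, map_mul, map_mul, map_mul, map_inv, map_inv, h.n1 a b c hm, h.n3 a b c hm,
    ← h.cm b c.symm a.symm]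
  exact mem_rowE a.symm _

theorem n6 (s : F) : MulAut.conj (nn x i j m) (x j i s) ∈ rowE x i := by
  rw [← mul_one s, h.cm b c.symm a.symm, map_mul, map_mul, map_mul, map_inv, map_inv, h.n2 a b c hm, h.n4 a b c hm,
    ← h.cm c b.symm a]
  exact mem_rowE a _

end

theorem nE (a : i ≠ j) {m : F} (hm : m ≠ 0) : ac (nn x i j m) (rowE x i) = rowE x j := by
  obtain ⟨k, b, c⟩ := ex_third a
  refine ac_eq (ac_rowE fun l s hl => ?_) (ac_rowE fun l s hl => ?_)
  · rcases third a b c hl with rfl | rfl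
    · exact h.n5 a b c hm s
    · rw [h.n1 a b c hm]; exact mem_rowE b _
  · rw [h.ninv a]
    rcases third a.symm c b hl with rfl | rfl
    · exact h.n6 a b c (neg_ne_zero.2 hm) s
    · rw [h.n2 a b c (neg_ne_zero.2 hm)]; exact mem_rowE c _

theorem fixE (a : j ≠ k) (c : i ≠ k) (s : F) : ac (x j k s) (rowE x i) = rowE x i := by
  have key (s : F) : ac (x j k s) (rowE x i) ≤ rowE x i := ac_rowE fun l t hl => by
    by_cases b : i = j
    · subst b; rw [h.c1 a hl]; exact mem_rowE hl _
    rcases third b a c hl with rfl | rfl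
    · rw [h.c4 b a c]; exact mul_mem (mem_rowE c _) (mem_rowE b _)
    · rw [h.c2 a c]; exact mem_rowE c _
  exact ac_eq (key s) (by rw [h.inv a]; exact key _)

theorem key (a : i ≠ j) {m : F} (hm : m ≠ 0) : ac (x j i m) (rowE x i) = ac (x i j m⁻¹) (rowE x j) := by
  rw [← h.nE a (neg_ne_zero.2 (inv_ne_zero hm)), ← ac_mul, nn, ← mul_assoc, ← mul_assoc, ← h.add a, add_neg_cancel,
    h.zero a, one_mul, ac_mul, h.fixE a a, inv_neg, inv_inv, neg_neg]

variable {w : Fin 3 → F}

theorem psi_swap (a : i ≠ j) (c : i ≠ k) : psi x i j k w = psi x i k j w := by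
  rw [psi, psi, h.col a.symm c.symm]

theorem psi_ch (a : i ≠ j) (b : j ≠ k) (c : i ≠ k) (hi : w i ≠ 0) (hj : w j ≠ 0) :
    psi x i j k w = psi x j i k w := by
  have e : w k / w i = w k / w j * (w j / w i) := by field_simp
  rw [psi, psi, h.col a b.symm, ac_mul (x k j _), ← inv_div (w j) (w i), ← h.key a (div_ne_zero hj hi),
    h.col a.symm c.symm, e, ← h.com b.symm a.symm c.symm, ac_mul, ac_mul, h.inv b.symm, h.fixE b.symm a]

theorem rr_eq {H : Subgroup G} (r : RR x w H) (a : i ≠ j) (b : j ≠ k) (c : i ≠ k) (hi : w i ≠ 0) :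
    H = psi x i j k w := by
  obtain ⟨i', j', k', a', b', c', hi', rfl⟩ := r
  have A {i j k j' k' : Fin 3} (a : i ≠ j) (b : j ≠ k) (c : i ≠ k) (a' : i ≠ j') (b' : j' ≠ k') (c' : i ≠ k') :
      psi x i j' k' w = psi x i j k w := by
    rcases third a b c a' with rfl | rfl <;> rcases third a b c c' with rfl | rfl
    exacts [absurd rfl b', rfl, h.psi_swap a' c', absurd rfl b']
  by_cases e : i' = i
  · subst e; exact A a b c a' b' c'
  obtain ⟨l, l1, l2⟩ := ex_third e
  rw [A e l1 l2 a' b' c', h.psi_ch e l1 l2 hi' hi, A a b c (Ne.symm e) l2 l1]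

omit h in
theorem tv (a : i ≠ j) (t : F) (l : Fin 3) :
    (SpecialLinearGroup.transvection a t • w) l = if l = i then w i + t * w j else w l := by
  simp only [Matrix.SpecialLinearGroup.smul_def, Matrix.SpecialLinearGroup.transvection_coe, smul_eq_mulVec, add_mulVec,
    one_mulVec, Pi.add_apply, single_mulVec, Function.update_apply]
  split_ifs with e <;> simp [e]

theorem rr_tv {H : Subgroup G} (r : RR x w H) (a : i ≠ j) (t : F) :
    RR x (SpecialLinearGroup.transvection a t • w) (ac (x i j t) H) := by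
  obtain ⟨k, b, c⟩ := ex_third a
  have e1 := (tv (w := w) a t j).trans (if_neg a.symm)
  have e2 := (tv (w := w) a t k).trans (if_neg c.symm)
  have e0 := (tv (w := w) a t i).trans (if_pos rfl)
  by_cases hj : w j = 0
  · rw [hj, mul_zero, add_zero] at e0
    by_cases hi : w i = 0
    · have hk : w k ≠ 0 := by
        obtain ⟨i', -, -, -, -, -, hi', -⟩ := r
        by_cases e : i = i'
        · exact absurd hi (e ▸ hi')
        rcases third a b c e with rfl | rfl
        exacts [absurd hj hi', hi']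
      refine ⟨k, i, j, c.symm, a, b.symm, e2 ▸ hk, ?_⟩
      rw [h.rr_eq r c.symm a b.symm hk, psi, psi, e0, e1, e2, hj, zero_div, h.zero b, mul_one, ← ac_mul, h.row a c,
        ac_mul, h.fixE a b.symm]
    · refine ⟨i, j, k, a, b, c, e0 ▸ hi, ?_⟩
      rw [h.rr_eq r a b c hi, psi, psi, e0, e1, e2, hj, zero_div, h.zero a.symm, one_mul, ← ac_mul,
        show x i j t * x k i (w k / w i) = MulAut.conj (x i j t) (x k i (w k / w i)) * x i j t by simp,
        h.c4 c.symm a b.symm, h.row b.symm c.symm, ac_mul, ac_mul, h.fixE a a, h.fixE b.symm a]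
  · refine ⟨j, i, k, a.symm, c, b, e1 ▸ hj, ?_⟩
    rw [h.rr_eq r a.symm c b hj, psi, psi, e0, e1, e2, ← ac_mul, ← mul_assoc, ← h.add a]
    congr 3; field_simp; ring

omit h in
theorem small [Finite G] [IsSimpleGroup G] (H : Subgroup G) (h3 : H.index ≤ 3) (h6 : 6 < Nat.card G) : H = ⊤ := by
  rcases (inferInstance : H.normalCore.Normal).eq_bot_or_eq_top with k | k
  · have := Nat.card_le_card_of_injective _ ((MonoidHom.ker_eq_bot_iff _).1 (H.normalCore_eq_ker ▸ k))
    rw [Nat.card_perm, ← index_eq_card] at this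
    have := Nat.factorial_le h3
    simp only [Nat.factorial] at this
    omega
  · exact top_le_iff.1 (k ▸ H.normalCore_le)

theorem psl [Finite G] [IsSimpleGroup G] [Fintype F] (ne : rowE x 0 ≠ rowE x 1)
    (hc : Nat.card G ≤ Nat.card (SpecialLinearGroup (Fin 3) F)) (h6 : 6 < Nat.card G) :
    Nonempty (G ≃* ProjectiveSpecialLinearGroup (Fin 3) F) := by
  classical
  set Γ : Subgroup (G × SpecialLinearGroup (Fin 3) F) :=
    closure {p | ∃ i j, ∃ a : i ≠ j, ∃ t, (x i j t, Matrix.SpecialLinearGroup.transvection a t) = p} with hΓ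
  have gen {i j} (a : i ≠ j) (t : F) : (x i j t, Matrix.SpecialLinearGroup.transvection a t) ∈ Γ :=
    subset_closure ⟨i, j, a, t, rfl⟩
  have Q (p) (hp : p ∈ Γ) : ∀ w H, RR x w H → RR x (p.2 • w) (ac p.1 H) := by
    refine closure_induction'' ?_ ?_ ?_ ?_ hp
    · rintro _ ⟨i, j, a, t, rfl⟩ w H r
      exact h.rr_tv r a t
    · rintro _ ⟨i, j, a, t, rfl⟩ w H r
      simpa only [Prod.inv_mk, h.inv a, Matrix.SpecialLinearGroup.transvection_inv] using h.rr_tv r a (-t)
    · intro w H r; simpa [ac_one] using r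
    · intro p q _ _ hp hq w H r
      simpa only [Prod.fst_mul, Prod.snd_mul, mul_smul, ac_mul] using hp _ _ (hq w H r)
  have a01 : (0 : Fin 3) ≠ 1 := by decide
  have nfix : (nn x 0 1 1, 1) ∉ Γ := fun k => ne (by
    have r : RR x (Pi.single 0 1) (rowE x 0) := ⟨0, 1, 2, a01, by decide, by decide, by simp, by
      simp [psi, h.zero a01.symm, h.zero (show (2 : Fin 3) ≠ 0 by decide), ac_one]⟩
    have r' := Q _ k _ _ r
    rw [one_smul, h.nE a01 one_ne_zero] at r'
    exact (h.rr_eq r a01 (show (1 : Fin 3) ≠ 2 by decide) (by decide) (by simp)).trans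
      (h.rr_eq r' a01 (by decide) (by decide) (by simp)).symm)
  let π1 := (MonoidHom.fst _ _).comp Γ.subtype
  let π2 := (MonoidHom.snd _ _).comp Γ.subtype
  have s2 : Function.Surjective π2 := MonoidHom.range_eq_top.1
    (Cfsg.Agent.Lin.eq_top_of_transvection_mem _ fun i j a t => ⟨⟨_, gen a t⟩, rfl⟩)
  have := (MonoidHom.normal_ker π1).map π2 s2
  have := Cfsg.Agent.Lin.isSimpleGroup_PSL (ι := Fin 3) (F := F) (by simp)
  have n2 : π1.ker.map π2 ≤ center _ := by
    rcases (this.eq_bot_or_eq_top_of_normal _ (Subgroup.Normal.map ‹(π1.ker.map π2).Normal› (QuotientGroup.mk' _)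
      (QuotientGroup.mk'_surjective (center _)))) with k | k
    · rwa [Subgroup.map_eq_bot_iff, QuotientGroup.ker_mk'] at k
    · exfalso
      have k2 : π1.ker.map π2 = ⊤ := by
        have k1 := congrArg (comap (QuotientGroup.mk' (center (SpecialLinearGroup (Fin 3) F)))) k
        rw [comap_map_eq, QuotientGroup.ker_mk', comap_top] at k1
        rw [eq_top_iff, ← Cfsg.Agent.Lin.commutator_SL_eq_top (by simp)]
        refine Subgroup.Normal.quotient_commutative_iff_commutator_le.1 ⟨⟨fun a b => ?_⟩⟩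
        obtain ⟨a, rfl⟩ := QuotientGroup.mk_surjective a
        obtain ⟨b, rfl⟩ := QuotientGroup.mk_surjective b
        obtain ⟨y, hy, z, hz, rfl⟩ := mem_sup_of_normal_left.1 (k1 ▸ mem_top a)
        rw [QuotientGroup.mk_mul, (QuotientGroup.eq_one_iff y).2 hy, one_mul, ← QuotientGroup.mk_mul,
          ← QuotientGroup.mk_mul, mem_center_iff.1 hz]
      have g1 {i j} (a : i ≠ j) (t : F) : (x i j t, 1) ∈ Γ := by
        obtain ⟨⟨⟨y, z⟩, hp⟩, h1, h2⟩ := k2 ▸ mem_top (Matrix.SpecialLinearGroup.transvection a t)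
        obtain rfl : y = 1 := h1
        obtain rfl : z = _ := h2
        simpa using mul_mem (gen a t) (inv_mem hp)
      exact nfix (by simpa [nn] using mul_mem (mul_mem (g1 a01 1) (g1 a01.symm (-1))) (g1 a01 1))
  have s1 : π1.range = ⊤ := by
    refine small _ ?_ h6
    have k1 : Nat.card π1.ker ≤ 3 := by
      refine (Nat.card_le_card_of_injective (fun p : π1.ker => (⟨π2 p, n2 ⟨p, p.2, rfl⟩⟩ : center _))
        fun p q e => ?_).trans ?_
      · exact Subtype.ext (Subtype.ext (Prod.ext (p.2.trans q.2.symm) (congrArg Subtype.val e)))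
      · rw [Cfsg.Agent.Lin.card_center_SL_fin rfl 3 (by simp)]; exact Nat.gcd_le_left _ (by simp)
    have k2 := Nat.card_le_card_of_surjective _ s2
    rw [← π1.ker.card_mul_index, index_ker] at k2
    have k3 := π1.range.card_mul_index
    have : 0 < Nat.card π1.range := Nat.card_pos
    nlinarith
  have s1' := MonoidHom.range_eq_top.1 s1
  have i2 : Function.Injective π2 := by
    rcases ((MonoidHom.normal_ker π2).map π1 s1').eq_bot_or_eq_top with k | k
    · refine (injective_iff_map_eq_one _).2 fun p hp => Subtype.ext (Prod.ext ?_ hp)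
      exact mem_bot.1 (k ▸ mem_map_of_mem π1 hp)
    · obtain ⟨⟨⟨y, z⟩, hp⟩, h1, h2⟩ := k ▸ mem_top (nn x 0 1 1)
      obtain rfl : z = 1 := h1
      obtain rfl : y = _ := h2
      exact absurd hp nfix
  let e := MulEquiv.ofBijective π2 ⟨i2, s2⟩
  let f := π1.comp e.symm.toMonoidHom
  have sf : Function.Surjective f := s1'.comp e.symm.surjective
  have kf : f.ker = center _ := by
    refine le_antisymm (fun z hz => n2 ⟨e.symm z, hz, e.apply_symm_apply z⟩) ?_
    rcases ((inferInstance : (center _).Normal).map f sf).eq_bot_or_eq_top with k | k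
    · rwa [Subgroup.map_eq_bot_iff] at k
    · refine absurd ?_ ne
      rw [← h.nE a01 one_ne_zero]
      obtain ⟨z, hz, k⟩ := k ▸ mem_top (nn x 0 1 1)
      have (y : G) : MulAut.conj (nn x 0 1 1) y = y := by
        obtain ⟨y, rfl⟩ := sf y
        rw [← k, MulAut.conj_apply, ← map_mul, ← mem_center_iff.1 hz, map_mul, mul_inv_cancel_right]
      ext y; simp [ac, this]
  exact ⟨((QuotientGroup.quotientMulEquivOfEq kf.symm).trans (QuotientGroup.quotientKerEquivOfSurjective f sf)).symm⟩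

end St3

theorem realizeEqns_Br_Id1 : True := by
  have := @CA.Br.RR.eq_1.{0,0}
  have := @CA.Br.RR.eq_def.{0,0}
  have := @CA.Br.RR.congr_simp.{0,0}
  have := @CA.Br.rowE.eq_1.{0,0}
  have := @CA.Br.rowE.eq_def.{0,0}
  have := @CA.Br.rowE.congr_simp.{0,0}
  have := @CA.Br.psi.eq_1.{0,0}
  have := @CA.Br.psi.eq_def.{0,0}
  have := @CA.Br.psi.congr_simp.{0,0}
  have := @CA.Br.ac.eq_1.{0}
  have := @CA.Br.ac.eq_def.{0}
  have := @CA.Br.ac.congr_simp.{0}
  have := @CA.Br.nn.eq_1.{0,0}
  have := @CA.Br.nn.eq_def.{0,0}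
  have := @CA.Br.nn.congr_simp.{0,0}
  trivial

end CA.Br
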