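import Cfsg.Agent.Br.Gcd

/-!
# Subgroups of `GL₂(q)` containing the diagonal matrices; root groups
-/

set_option autoImplicit false
set_option linter.unusedSectionVars false

open Cfsg Subgroup CA.Dih CA.FG CA.BG CA.GW CA.GW.BA

namespace CA.Br

universe u v

variable {F : Type v} [Field F]

section Mat

variable {c g : GL (Fin 2) F} {s : F} {K : Subgroup (GL (Fin 2) F)}

theorem up_xp (h : c 1 0 = 0) (s : F) : c * xp s * c⁻¹ = xp (c 0 0 * s / c 1 1) := by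
  have d := dne c
  rw [h, mul_zero, sub_zero] at d
  have := right_ne_zero_of_mul d
  rw [mul_inv_eq_iff_eq_mul]
  apply gl_ext <;> simp [mul_ent, h]
  field_simp; ring

theorem up_ne (h : c 1 0 = 0) (hs : s ≠ 0) : c 0 0 * s / c 1 1 ≠ 0 := by
  have d := dne c
  rw [h, mul_zero, sub_zero] at d
  exact div_ne_zero (mul_ne_zero (left_ne_zero_of_mul d) hs) (right_ne_zero_of_mul d)

theorem lo_xp (h : c 0 0 = 0) (s : F) : c * xp s * c⁻¹ = xm (c 1 0 * s / c 0 1) := by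
  have := up_xp (c := ww F * c) (by simp [mul_ent, h]) s
  rw [show (ww F * c) 0 0 = c 1 0 by simp [mul_ent], show (ww F * c) 1 1 = c 0 1 by simp [mul_ent]] at this
  rw [← ww_xp, ← this, mul_inv_rev, ww_inv]
  calc _ = ww F * ww F * (c * xp s * c⁻¹) * (ww F * ww F) := by rw [ww_mul]; group
    _ = _ := by group

theorem lo_ne (h : c 0 0 = 0) (hs : s ≠ 0) : c 1 0 * s / c 0 1 ≠ 0 := by
  have d := dne c
  rw [h, zero_mul, zero_sub, neg_ne_zero] at d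
  exact div_ne_zero (mul_ne_zero (right_ne_zero_of_mul d) hs) (left_ne_zero_of_mul d)

theorem uni_ent (h : c * xp s * c⁻¹ = g) : (c 0 0 * c 1 1 - c 0 1 * c 1 0) * g 1 0 = - s * c 1 0 ^ 2 ∧
    (c 0 0 * c 1 1 - c 0 1 * c 1 0) * (1 - g 0 0) = s * c 0 0 * c 1 0 := by
  have e00 := ents h 0 0
  have e01 := ents h 0 1
  have e10 := ents h 1 0
  have e11 := ents h 1 1
  simp at e00 e01 e10 e11
  exact ⟨by linear_combination -c 1 1 * e10 + c 1 0 * e11, by linear_combination c 1 1 * e00 - c 1 0 * e01⟩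

theorem UP (h2 : (2 : F) ≠ 0) (hT : ∀ a d, ∀ k ∈ K, dg a d * k * (dg a d)⁻¹ ∈ K) (hs : s ≠ 0) (h : c * xp s * c⁻¹ ∈ K) :
    ∃ s, s ≠ 0 ∧ (xp s ∈ K ∨ xm s ∈ K) := by
  by_cases c1 : c 1 0 = 0
  · exact ⟨_, up_ne c1 hs, .inl (up_xp c1 s ▸ h)⟩
  by_cases c0 : c 0 0 = 0
  · exact ⟨_, lo_ne c0 hs, .inr (lo_xp c0 s ▸ h)⟩
  obtain ⟨z, zK, z0, z1⟩ : ∃ z ∈ K, z 0 0 ≠ 0 ∧ z 1 0 ≠ 0 := by
    obtain ⟨a1, a2⟩ := uni_ent (rfl : c * xp s * c⁻¹ = _)
    obtain ⟨b1, b2⟩ := uni_ent (rfl : c * xp (s + s) * c⁻¹ = _)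
    by_cases a : (c * xp s * c⁻¹) 0 0 = 0
    · refine ⟨c * xp (s + s) * c⁻¹, by rw [← xp_add, conj_mul']; exact mul_mem h h, fun b => dne c ?_, fun b => ?_⟩
      · rw [a] at a2; rw [b] at b2; linear_combination 2 * a2 - b2
      · exact mul_ne_zero (mul_ne_zero h2 hs) (pow_ne_zero 2 c1) (by rw [b] at b1; linear_combination b1)
    · exact ⟨_, h, a, fun b => mul_ne_zero hs (pow_ne_zero 2 c1) (by rw [b] at a1; linear_combination a1)⟩
  let t := dg (Units.mk0 _ (mul_ne_zero z0 c1)) (Units.mk0 _ (mul_ne_zero z1 c0))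
  have b : (z⁻¹ * t * c) 1 0 = 0 := by
    have e : ∀ i, z i 0 * (z⁻¹ * t * c) 0 0 + z i 1 * (z⁻¹ * t * c) 1 0 = (t * c) i 0 := fun i => by
      rw [← mul_ent, mul_assoc, mul_inv_cancel_left]
    have e0 := e 0
    have e1 := e 1
    generalize z⁻¹ * t * c = β at *
    simp [t, mul_ent] at e0 e1
    exact mul_left_cancel₀ (dne z) (by linear_combination z 0 0 * e1 - z 1 0 * e0)
  refine ⟨_, up_ne b hs, .inl (up_xp b s ▸ ?_)⟩
  have k : t * (c * xp s * c⁻¹) * t⁻¹ ∈ K := hT _ _ _ h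
  convert mul_mem (mul_mem (inv_mem zK) k) zK using 1
  group

theorem KL (h2 : (2 : F) ≠ 0) (hT : dgH.range ≤ K) (hw : ww F ∈ K) (hx : ∀ s, xp s ∈ K → s = 0) :
    (∀ g ∈ K, g ∈ (dgH (F := F)).range ∨ g * ww F ∈ (dgH (F := F)).range) ∨ ∀ s : F, s ≠ 0 → s ^ 4 = 1 := by
  have Z : ∀ g ∈ K, g 1 0 = 0 → g 0 1 = 0 := fun g hg k => by
    have d := dne g
    rw [k, mul_zero, sub_zero] at d
    have d1 := right_ne_zero_of_mul d
    have e : g * dg 1 (-1) * g⁻¹ * dg 1 (-1) = xp (2 * g 0 1 / g 1 1) := by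
      rw [← u_inv, mul_inv_eq_iff_eq_mul, mul_inv_eq_iff_eq_mul, u_inv]
      apply gl_ext <;> simp [mul_ent, k]
      field_simp; ring
    have u := hT (dg_mem_dT 1 (-1))
    simpa [h2, d1] using hx (2 * g 0 1 / g 1 1) (by rw [← e]; exact mul_mem (mul_mem (mul_mem hg u) (inv_mem hg)) u)
  have N : ∀ g ∈ K, (g ∈ (dgH (F := F)).range ∨ g * ww F ∈ (dgH (F := F)).range) ∨
      (g 0 0 ≠ 0 ∧ g 0 1 ≠ 0 ∧ g 1 0 ≠ 0 ∧ g 1 1 ≠ 0) := fun g hg => by
    have a := Z g hg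
    have b := Z _ (mul_mem (mul_mem hw hg) hw)
    have c := Z _ (mul_mem hw hg)
    have d := Z _ (mul_mem hg hw)
    simp [mul_ent] at b c d
    simp only [mem_dT, mul_ent]
    simp
    tauto
  have L : ∀ g ∈ K, g 0 0 ≠ 0 → g 0 1 ≠ 0 → g 1 0 ≠ 0 → g 1 1 ≠ 0 → g 0 0 * g 1 1 = - (g 0 1 * g 1 0) :=
    fun g hg a b c d => by
      have := Z _ (mul_mem (mul_mem (mul_mem hw hg) (hT (dg_mem_dT (Units.mk0 _ (mul_ne_zero b c))
        (-Units.mk0 _ (mul_ne_zero a a))))) hg) (by simp [mul_ent]; ring)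
      simp [mul_ent] at this
      exact mul_left_cancel₀ (dne g) (by linear_combination -this)
  by_contra! ne
  obtain ⟨⟨g, hg, g1⟩, s, s0, s4⟩ := ne
  obtain ⟨a, b, c, d⟩ := (N g hg).resolve_left (not_or.2 g1)
  have l := L g hg a b c d
  have m : s - 1 ≠ 0 := fun e => s4 (by rw [sub_eq_zero.1 e, one_pow])
  have n : s + 1 ≠ 0 := fun e => s4 (by rw [eq_neg_of_add_eq_zero_left e]; ring)
  have k := mul_mem (mul_mem hg (hT (dg_mem_dT (Units.mk0 _ (mul_ne_zero s0 d)) (Units.mk0 _ a)))) hg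
  have e : ∀ i j, (g * dg (Units.mk0 _ (mul_ne_zero s0 d)) (Units.mk0 _ a) * g) i j =
      g i 0 * (s * g 1 1) * g 0 j + g i 1 * g 0 0 * g 1 j := fun i j => by simp [mul_ent]
  have := L _ k (by
      rw [e]; intro z; exact mul_ne_zero (mul_ne_zero (mul_ne_zero a a) d) m (by linear_combination z - g 0 0 * l))
    (by rw [e]; intro z; exact mul_ne_zero (mul_ne_zero (mul_ne_zero a b) d) n (by linear_combination z))
    (by rw [e]; intro z; exact mul_ne_zero (mul_ne_zero (mul_ne_zero a c) d) n (by linear_combination z))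
    (by rw [e]; intro z; exact mul_ne_zero (mul_ne_zero (mul_ne_zero a d) d) m (by linear_combination s * g 1 1 * l - z))
  simp only [e] at this
  have bc : g 0 1 * g 1 0 = - (g 0 0 * g 1 1) := by linear_combination l
  have : s ^ 2 = -1 := mul_left_cancel₀ (mul_ne_zero h2 (pow_ne_zero 3 (mul_ne_zero a d))) (by
    linear_combination (-1) * this + (g 0 0 * g 1 1 * (g 0 0 * g 1 1 * (2 * s ^ 2 + 1) + s * (g 0 1 * g 1 0 + g 0 0 * g 1 1))
      + (g 0 0 * g 1 1) ^ 2) * bc)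
  exact s4 (by linear_combination (s ^ 2 - 1) * this)

end Mat

end CA.Br
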