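import Cfsg.Agent.Br.PL1

/-!
# Root groups
-/

set_option autoImplicit false
set_option linter.unusedSectionVars false

open Cfsg Subgroup CA.Dih CA.FG CA.BG CA.GW CA.GW.BA

namespace CA.Br

universe u v

variable {G : Type u} [Group G] [Finite G]

theorem rel_cj {K N : Subgroup G} {t : G} (hK : K ≤ N) (h : ∀ n ∈ N, ∃ k ∈ K, k * t * k⁻¹ = n * t * n⁻¹) :
    (𝒞[t]).relIndex N = (𝒞[t]).relIndex K := by
  rw [← ncard_conj, ← ncard_conj]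
  congr 1
  ext b
  exact ⟨fun ⟨n, hn, e⟩ => e ▸ h n hn, fun ⟨k, hk, e⟩ => ⟨k, hK hk, e⟩⟩

theorem BW' {O : Subgroup G} (oO : IsPiGrp {2}ᶜ O) {a b : G} (f : Four a b) (ha : a ∈ 𝒩(O)) (hb : b ∈ 𝒩(O)) :
    (𝒞[a]).relIndex O * Nat.card (O ⊓ (𝒞[a] ⊓ 𝒞[b]) : Subgroup G) ^ 2 =
      Nat.card (O ⊓ 𝒞[b] : Subgroup G) * Nat.card (O ⊓ 𝒞[a * b] : Subgroup G) := by
  have := BW oO f.it.1 f.is.1 f.comm ha hb
  rw [← card_inf_mul_relIndex 𝒞[a] O, inf_comm, mul_assoc, mul_assoc, inf_assoc] at this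
  exact Nat.eq_of_mul_eq_mul_left Nat.card_pos this

theorem comm_of_inv {P : Subgroup G} (oP : IsPiGrp {2}ᶜ P) {j a b : G} (j2 : j * j = 1) (hj : j ∈ 𝒩(P))
    (hc : P ⊓ 𝒞[j] ≤ 𝒞(P)) (ha : a ∈ Iset P j) (hb : b ∈ Iset P j) : a * b * a⁻¹ * b⁻¹ ∈ 𝒞[j] := by
  obtain ⟨i, hi, c, hc', e⟩ := exists_inv_mul oP j2 hj (mul_mem ha.1 hb.1)
  have e' := congrArg (j * · * j⁻¹) e
  simp only [conj_mul', ha.2, hb.2, hi.2, conj_eq_iff'.2 hc'.2] at e'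
  rw [mul_assoc (a * b), e, e', hc hc' i hi.1, show c * i * (i⁻¹ * c) = c * c by group]
  exact mul_mem hc'.2 hc'.2

variable {F : Type v} [Field F] [Fintype F] {φ : GL (Fin 2) F →* G} {r : G} {p : ℕ}

/-- `R` is a root group centralised by `j` -/
def Root (φ : GL (Fin 2) F →* G) (j : G) (R : Subgroup G) : Prop :=
  ∃ g ∈ 𝒩(V4 (tt φ) (uu φ)), g * tt φ * g⁻¹ = j ∧ Xp φ :^ g = R

/-- Brauer's hypothesis together with `ρ` and the characteristic -/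
structure PL (φ : GL (Fin 2) F →* G) (r : G) (p : ℕ) : Prop extends BL φ, Rho φ r where
  hp : p.Prime
  hq : PiNat {p} (Fintype.card F)

theorem BL.pl (h : BL φ) (hr : Rho φ r) : ∃ p, PL φ r p := by
  obtain ⟨p, _⟩ := CharP.exists F
  obtain ⟨n, hp, e⟩ := FiniteField.card F p
  exact ⟨p, h, hr, hp, e ▸ piNat_self_pow hp n⟩

theorem nV {g : G} (h1 : g * tt φ * g⁻¹ ∈ V4 (tt φ) (uu φ)) (h2 : g * uu φ * g⁻¹ ∈ V4 (tt φ) (uu φ)) : g ∈ 𝒩(V4 (tt φ) (uu φ)) :=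
  mem_norm_of_conjg_le (by rw [conjg_sup, conjg_zpowers, conjg_zpowers]; exact Four.le h1 h2)

theorem tu_mem : tt φ * (uu φ) ∈ V4 (tt φ) (uu φ) := mul_mem (Four.t_mem _ _) (Four.s_mem _ _)

theorem wV : wt φ ∈ 𝒩(V4 (tt φ) (uu φ)) := nV (by rw [wt, tt_conj ⟨_, rfl⟩]; exact Four.t_mem _ _) (w_u (φ := φ) ▸ tu_mem)

theorem Rho.rV (h : Rho φ r) : r ∈ 𝒩(V4 (tt φ) (uu φ)) := nV (h.rt ▸ Four.s_mem _ _) (h.ru ▸ tu_mem)

theorem TX : Tt φ ≤ 𝒩(Xp φ) := fun g hg => mem_norm_of_forall fun x hx => by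
  obtain ⟨a, d, rfl⟩ := mem_Tt'.1 hg
  obtain ⟨c, rfl⟩ := mem_Xp.1 hx
  rw [cj, dg_xp]
  exact mem_Xp.2 ⟨_, rfl⟩

theorem Xp_w : Xp φ :^ wt φ = Xm φ := by
  ext x
  simp only [mem_conjg', mem_Xm, mem_Xp, exists_exists_eq_and, wt, cj, ww_xp]

theorem Xm_w : Xm φ :^ wt φ = Xp φ := by rw [← Xp_w, conjg_eq_iff, wt_inv]

theorem Xp_le {H : Subgroup G} (hT : Tt φ ≤ 𝒩(H)) {s : F} (hs : s ≠ 0) (h : φ (xp s) ∈ H) : Xp φ ≤ H := fun x hx => by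
  obtain ⟨c, rfl⟩ := mem_Xp.1 hx
  rcases eq_or_ne c 0 with rfl | c0
  · rw [xp_zero, map_one]; exact one_mem _
  have := conj_mem_of_mem_norm (hT (mem_Tt'.2 ⟨Units.mk0 c c0, Units.mk0 s hs, rfl⟩)) h
  rwa [cj, dg_xp, Units.val_mk0, Units.val_mk0, mul_inv_cancel_right₀ hs] at this

theorem root_p : Root φ (tt φ) (Xp φ) := ⟨1, one_mem _, by simp, conjg_one _⟩

theorem root_m : Root φ (tt φ) (Xm φ) := ⟨_, wV, tt_conj ⟨_, rfl⟩, Xp_w⟩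

theorem Root.conj {j g : G} {R : Subgroup G} (h : Root φ j R) (hg : g ∈ 𝒩(V4 (tt φ) (uu φ))) : Root φ (g * j * g⁻¹) (R :^ g) := by
  obtain ⟨a, ha, rfl, rfl⟩ := h
  exact ⟨g * a, mul_mem hg ha, by group, conjg_mul _ _ _⟩

theorem Root.mem {j : G} {R : Subgroup G} (h : Root φ j R) : j ∈ V4 (tt φ) (uu φ) := by
  obtain ⟨a, ha, rfl, rfl⟩ := h
  exact conj_mem_of_mem_norm ha (Four.t_mem _ _)

namespace PL

variable (h : PL φ r p) {j : G} {R : Subgroup G}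
include h

theorem four : Four (tt φ) (uu φ) := h.toBK.four

theorem pq : p ∣ Fintype.card F := by
  obtain ⟨k, e⟩ := (piNat_singleton_iff h.hp Fintype.card_ne_zero).1 h.hq
  have := h.toBK.q3
  rcases k with _ | k
  · rw [e] at this; simp at this
  · exact e ▸ dvd_pow_self p k.succ_ne_zero

theorem p2 : p ≠ 2 := fun e => (Nat.not_even_iff_odd.2 h.odd) (even_iff_two_dvd.2 (e ▸ h.pq))

theorem nd {a : ℕ} (k : p ∣ a * Fintype.card F + 1) : False :=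
  h.hp.one_lt.ne' (Nat.dvd_one.1 ((Nat.dvd_add_right (h.pq.mul_left a)).1 k))

theorem nd' (k : p ∣ Fintype.card F - 1) : False :=
  h.hp.one_lt.ne' (Nat.dvd_one.1 ((Nat.dvd_add_right k).1 (by rw [Nat.sub_add_cancel Fintype.card_pos]; exact h.pq)))

theorem T_eq : Tt φ = 𝒞[tt φ] ⊓ 𝒞[uu φ] := by rw [← h.rng, h.toBK.cent_u]

theorem T_cj {g : G} (hg : g ∈ 𝒩(V4 (tt φ) (uu φ))) : Tt φ :^ g = Tt φ := by
  rw [h.T_eq, ← Four.cent, conjg_cent, conjg_of_mem_norm hg]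

theorem VT : V4 (tt φ) (uu φ) ≤ Tt φ := Four.le (h.toBL.mem_T.2 ⟨by simp, by rw [h.four.comm]; simp⟩) uu_Tt

theorem TV : Tt φ ≤ 𝒩(V4 (tt φ) (uu φ)) := by rw [h.T_eq, ← Four.cent]; exact cent_le_norm _

theorem kT : Nat.card (Tt φ) = (Fintype.card F - 1) * Nat.card (Zt φ) :=
  let ⟨_, he⟩ := h.toBK.exists_ns; (h.toBK.cs he).kT

theorem pT : IsPiGrp {p}ᶜ (Tt φ) := (piGrp_compl_singleton_iff h.hp).2 fun k => by
  rw [h.kT, h.hp.dvd_mul] at k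
  exact h.nd' (k.elim id fun k => h.toBK.kZ ▸ k.mul_right _)

theorem kC : Nat.card 𝒞[tt φ] = Fintype.card F * (Fintype.card F + 1) * Nat.card (Tt φ) := by
  rw [← h.rng, ← h.toBK.relT, mul_comm, card_mul_relIndex (h.toBK.cent_u ▸ inf_le_left)]

theorem sylX : IsSylowOf p (Xp φ) 𝒞[tt φ] := by
  have k : Xp φ ≤ 𝒞[tt φ] := h.rng ▸ fun x hx => let ⟨_, e⟩ := mem_Xp.1 hx; ⟨_, e⟩
  refine sylow_mk k (h.toBK.kX ▸ h.hq :) fun d => ?_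
  have := card_mul_relIndex k
  rw [h.kC, h.toBK.kX, mul_assoc] at this
  rw [Nat.eq_of_mul_eq_mul_left Fintype.card_pos this, h.hp.dvd_mul] at d
  exact d.elim (fun d => h.nd (by rwa [one_mul])) ((piGrp_compl_singleton_iff h.hp).1 h.pT)

theorem syl (k : Root φ j R) : IsSylowOf p R 𝒞[j] := by
  obtain ⟨a, ha, rfl, rfl⟩ := k
  exact conjg_cent1 _ a ▸ h.sylX.conjg a

theorem card (k : Root φ j R) : Nat.card R = Fintype.card F := by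
  obtain ⟨a, ha, rfl, rfl⟩ := k
  rw [card_conjg, h.toBK.kX]

theorem inv (k : Root φ j R) : IsInv j := by
  obtain ⟨a, ha, rfl, rfl⟩ := k
  exact h.four.it.conj a

theorem nT (k : Root φ j R) : Tt φ ≤ 𝒩(R) := by
  obtain ⟨a, ha, rfl, rfl⟩ := k
  rw [← h.T_cj ha]
  exact conjg_le_norm_iff.2 TX

theorem ab (k : Root φ j R) : R ≤ 𝒞(R) := by
  obtain ⟨a, ha, rfl, rfl⟩ := k
  obtain ⟨_, he⟩ := h.toBK.exists_ns
  exact conjg_le_cent_iff.2 (abelian_iff_le_cent.1 (h.toBK.cs he).cX)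

theorem invs (k : Root φ j R) {i x : G} (hi : i ∈ V4 (tt φ) (uu φ)) (i1 : i ≠ 1) (ij : i ≠ j) (hx : x ∈ R) : i * x * i⁻¹ = x⁻¹ := by
  obtain ⟨a, ha, rfl, rfl⟩ := k
  obtain ⟨x, hx', rfl⟩ := mem_conjg'.1 hx
  obtain ⟨i, hi', rfl⟩ := mem_conjg'.1 ((conjg_of_mem_norm ha).ge hi)
  obtain ⟨c, rfl⟩ := mem_Xp.1 hx'
  have u : uu φ * φ (xp c) * (uu φ)⁻¹ = (φ (xp c))⁻¹ := by
    rw [uu, cj, dg_xp, eq_inv_iff_mul_eq_one, ← map_mul, xp_add]; simp [xp_zero]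
  rw [conj_inv, conj_inv, ← conj_mul', ← conj_mul']
  congr 2
  rcases h.four.mem.1 hi' with rfl | rfl | rfl | rfl
  · simp at i1
  · exact (ij rfl).elim
  · exact u
  · rw [mul_inv_rev, show ∀ x, tt φ * uu φ * x * ((uu φ)⁻¹ * (tt φ)⁻¹) = tt φ * (uu φ * x * (uu φ)⁻¹) * (tt φ)⁻¹ from fun x => by group, u,
      tt_comm (inv_mem ⟨_, rfl⟩), mul_inv_cancel_right]

theorem inf_eq (k : Root φ j R) {P : Subgroup G} (pP : IsPGrp p P) (hP : R ≤ P) : P ⊓ 𝒞[j] = R :=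
  (h.syl k).eq_of_le (pP.inf_left _) (le_inf hP (h.syl k).le) inf_le_right

theorem cls (k : Root φ (tt φ) R) : R = Xp φ ∨ R = Xm φ := by
  obtain ⟨a, ha, e, rfl⟩ := k
  obtain ⟨_, he⟩ := h.toBK.exists_ns
  refine ((h.toBK.cs he).tiT _ uu_Tt h.toBK.uZ a (h.rng ▸ conj_eq_iff.1 e)
    (h.VT (conj_mem_of_mem_norm ha (Four.s_mem _ _)))).imp (fun k => conjg_of_mem_norm (TX k)) fun k => ?_
  rw [← conjg_of_mem_norm (h.nT root_m k), conjg_mul, Xm_w]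

theorem cls1 (k : Root φ (uu φ) R) : R = Xp φ :^ r ∨ R = Xm φ :^ r := by
  have := k.conj (inv_mem h.toRho.rV)
  rw [← h.rt, show r⁻¹ * (r * tt φ * r⁻¹) * r⁻¹⁻¹ = (tt φ) by group] at this
  exact (h.cls this).imp (fun e => by rw [← e, conjg_cancel_inv]) fun e => by rw [← e, conjg_cancel_inv]

theorem cls2 (k : Root φ (tt φ * (uu φ)) R) : R = Xp φ :^ r :^ r ∨ R = Xm φ :^ r :^ r := by
  have := k.conj (inv_mem h.toRho.rV)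
  rw [← h.ru, show r⁻¹ * (r * uu φ * r⁻¹) * r⁻¹⁻¹ = (uu φ) by group] at this
  exact (h.cls1 this).imp (fun e => by rw [← e, conjg_cancel_inv]) fun e => by rw [← e, conjg_cancel_inv]

theorem RT0 {H : Subgroup G} (hT : Tt φ ≤ 𝒩(H)) (d : p ∣ Nat.card (H ⊓ 𝒞[tt φ] : Subgroup G)) :
    Xp φ ≤ H ∨ Xm φ ≤ H := by
  obtain ⟨y, hy, oy⟩ := exists_mem_orderOf_eq h.hp d
  obtain ⟨_, hc, e⟩ := sylow_subJ h.hp h.sylX (piGrp_zpowers_iff.2 (by rw [IsPiElt, oy]; exact piNat_singleton_self h.hp)) (zpowers_le.2 hy.2)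
  obtain ⟨c, rfl⟩ := h.rng.ge hc
  obtain ⟨_, hx, rfl⟩ := mem_conjg'.1 (e (mem_zpowers y))
  obtain ⟨s, rfl⟩ := mem_Xp.1 hx
  obtain ⟨s, hs, e⟩ := UP (K := H.comap φ) (c := c) (s := s) h.toBK.two (fun a d k hk => by
      rw [mem_comap, ← cj]; exact conj_mem_of_mem_norm (hT (mem_Tt'.2 ⟨a, d, rfl⟩)) hk)
    (by rintro rfl; simp [xp_zero, h.hp.one_lt.ne] at oy) (by rw [mem_comap, ← cj]; exact hy.1)
  refine e.imp (Xp_le hT hs) fun e => ?_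
  rw [← Xp_w, conjg_le_iff]
  refine Xp_le (by rw [← h.T_cj (inv_mem wV)]; exact conjg_le_norm_iff.2 hT) hs (mem_conjg_inv.2 ?_)
  rwa [wt, cj, ww_xp]

theorem exV (hj : j ∈ V4 (tt φ) (uu φ)) (j1 : j ≠ 1) : ∃ g ∈ 𝒩(V4 (tt φ) (uu φ)), g * tt φ * g⁻¹ = j := by
  rcases h.four.mem.1 hj with rfl | rfl | rfl | rfl
  · exact (j1 rfl).elim
  · exact ⟨1, one_mem _, by simp⟩
  · exact ⟨r, h.toRho.rV, h.rt⟩
  · exact ⟨r * r, mul_mem h.toRho.rV h.toRho.rV, by rw [← h.ru, ← h.rt]; group⟩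

theorem RT {H : Subgroup G} (hT : Tt φ ≤ 𝒩(H)) (hj : j ∈ V4 (tt φ) (uu φ)) (j1 : j ≠ 1) (d : p ∣ Nat.card (H ⊓ 𝒞[j] : Subgroup G)) :
    ∃ R, Root φ j R ∧ R ≤ H := by
  obtain ⟨g, hg, rfl⟩ := h.exV hj j1
  obtain ⟨H, rfl⟩ : ∃ H', H = H' :^ g := ⟨_, (conjg_cancel_inv H g).symm⟩
  rw [← conjg_cent1, ← conjg_inf, card_conjg] at d
  rw [← h.T_cj hg, conjg_le_norm_iff] at hT
  exact (h.RT0 hT d).elim (fun e => ⟨_, root_p.conj hg, conjg_mono g e⟩) fun e => ⟨_, root_m.conj hg, conjg_mono g e⟩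

end PL

theorem realizeEqns_Br_PL2 : True := by
  have := @CA.Br.Root.eq_1.{0,0}
  have := @CA.Br.Root.eq_def.{0,0}
  have := @CA.Br.Root.congr_simp.{0,0}
  trivial

end CA.Br
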