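import Cfsg.Agent.Br.PL2

/-!
# Commuting root groups
-/

set_option autoImplicit false
set_option linter.unusedSectionVars false

open Cfsg Subgroup CA.Dih CA.FG CA.BG CA.GW CA.GW.BA

namespace CA.Br

universe u v

variable {G : Type u} [Group G] [Finite G] {F : Type v} [Field F] [Fintype F] {φ : GL (Fin 2) F →* G} {r : G} {p : ℕ}

namespace PL

variable (h : PL φ r p) {j : G} {R A : Subgroup G}
include h

theorem cX : 𝒞(Xp φ) ⊓ 𝒞[tt φ] = Ut φ := by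
  obtain ⟨_, he⟩ := h.toBK.exists_ns
  have c := h.toBK.cs he
  rw [← h.rng]
  exact le_antisymm (fun g hg => c.tiX 1 (one_mem _) g hg.2 (by rw [one_mul, ← hg.1 _ c.xX, mul_inv_cancel_right]))
    (le_inf (sup_le (fun z hz x hx => (c.cen z hz x (c.XC hx)).symm) (h.ab root_p)) c.UC)

theorem TC : Tt φ ≤ 𝒞[tt φ] := h.T_eq ▸ inf_le_left

theorem cardR (k : Root φ j R) {H : Subgroup G} (hR : R ≤ H) (hH : H ≤ 𝒞(R)) :
    Nat.card (H ⊓ 𝒞[j] : Subgroup G) = Fintype.card F * Nat.card (H ⊓ Tt φ : Subgroup G) := by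
  obtain ⟨g, hg, rfl, rfl⟩ := k
  obtain ⟨H, rfl⟩ : ∃ H', H = H' :^ g := ⟨_, (conjg_cancel_inv H g).symm⟩
  rw [← conjg_cent1, ← h.T_cj hg, ← conjg_inf, ← conjg_inf, card_conjg, card_conjg]
  rw [conjg_le_conjg] at hR
  rw [conjg_le_cent_iff] at hH
  rw [eq_sup_inf_of_le (.inr TX) (le_inf hR h.sylX.le) ((inf_le_inf_right _ hH).trans (h.cX.le.trans
    (sup_le (le_sup_of_le_right fun z hz => let ⟨a, e⟩ := mem_Zt'.1 hz; mem_Tt'.2 ⟨a, a, e⟩) le_sup_left))),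
    card_sup_of_inf_eq_bot (.inr (inf_le_right.trans TX)) (h.sylX.piGrp.inf_eq_bot (h.pT.inf_right _)), h.toBK.kX,
    inf_assoc, inf_eq_right.2 h.TC]

theorem deg0 (d : p ∣ (𝒞[tt φ]).index) : ∃ R, (Root φ (uu φ) R ∨ Root φ (tt φ * uu φ) R) ∧ R ≤ 𝒞(Xp φ) := by
  obtain ⟨_, he⟩ := h.toBK.exists_ns
  have c := h.toBK.cs he
  have f := h.four
  obtain ⟨S, hS, tS⟩ := sylow_superset Nat.prime_two (two_zpowers tt_mul) (zpowers_le.2 (tt_Zt (φ := φ)))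
  have cy := cyclic_of_le (h.toBK.cycY he) (hS.le.trans c.ZY)
  have hU : IsSylowOf 2 S (𝒞(Xp φ) ⊓ 𝒞[tt φ]) := h.cX ▸ hS.trans_index le_sup_left
    ((piNat_compl_singleton_iff Nat.prime_two).2 (by
      have := (card_mul_relIndex (K := Ut φ) le_sup_left).trans c.kU
      rw [mul_comm] at this
      rw [show (Zt φ).relIndex (Ut φ) = _ from Nat.eq_of_mul_eq_mul_right Nat.card_pos this]
      exact h.odd.not_two_dvd_nat))
  obtain ⟨s, sd, hO⟩ := npc f.it (tS (mem_zpowers _)) hU cy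
  have nO : Tt φ ≤ 𝒩(OO 𝒞(Xp φ)) := norm_pcore _ (norm_cent TX)
  have e := rel_cj (N := 𝒩(Xp φ)) (t := tt φ) (hO.le.trans (cent_le_norm _)) fun n hn => by
    obtain ⟨x, hx, m, hm, rfl⟩ := frattini_arg_mem Nat.prime_two s (norm_cent le_rfl hn)
    obtain ⟨o, ho, y, hy, rfl⟩ := (mem_sup_of_right_le_norm sd.norm).1 (sd.sup_eq.ge hx)
    obtain ⟨c, -, rfl⟩ := exists_gen_of_cyclic cy
    refine ⟨o, ho, ?_⟩
    rw [show o * y * m * tt φ * (o * y * m)⁻¹ = o * (y * (m * tt φ * m⁻¹) * y⁻¹) * o⁻¹ by group,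
      dih_uniq (conj_mem_of_mem_norm hm (tS (mem_zpowers _))) (tS (mem_zpowers _)) (f.it.conj m) f.it,
      conj_eq_iff.2 (hU.le hy).2]
  by_contra! ne
  have a : ∀ j ∈ V4 (tt φ) (uu φ), j ≠ 1 → (∀ R, Root φ j R → ¬ R ≤ 𝒞(Xp φ)) →
      ¬ p ∣ Nat.card (OO 𝒞(Xp φ) ⊓ 𝒞[j] : Subgroup G) := fun j hj j1 k d =>
    let ⟨R, k1, k2⟩ := h.RT nO hj j1 d; k R k1 (k2.trans hO.le)
  have b := BW' hO.piGrp f (nO (h.VT (Four.t_mem _ _))) (nO uu_Tt)
  have : IsSylowOf p (Xp φ) ⊤ := sylow_of_sylow_norm h.hp le_top (by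
    rw [top_inf_eq]
    refine (h.sylX.of_le (le_inf h.sylX.le le_normalizer) inf_le_left).trans_index inf_le_right
      ((piNat_compl_singleton_iff h.hp).2 fun d => ?_)
    rw [inf_relIndex_right, e] at d
    exact (h.hp.dvd_mul.1 (b ▸ d.mul_right _)).elim (a _ (Four.s_mem _ _) f.is.2 fun R k => ne R (.inl k))
      (a _ tu_mem f.ts.2 fun R k => ne R (.inr k)))
  exact IsSylowOf.not_dvd_index this h.hp (by rw [relIndex_top_right]; exact d.trans (index_dvd_of_le h.sylX.le))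

theorem r3_cj (k : Root φ j R) : R :^ r :^ r :^ r = R := by
  rw [← conjg_mul, ← conjg_mul, conjg_of_mem_norm (h.nT k (h.toRho.r3 h.toBL))]

theorem rw_cj (k : Root φ j R) : R :^ r :^ wt φ = R :^ wt φ :^ r :^ r := by
  have := conjg_of_mem_norm (h.nT k (h.toRho.wr h.toBL))
  rw [conjg_mul, conjg_mul, conjg_mul, conjg_eq_iff, wt_inv] at this
  rw [← this, h.r3_cj ((k.conj h.toRho.rV).conj wV)]

theorem r1 (k : Root φ (tt φ) R) : Root φ (uu φ) (R :^ r) := h.rt ▸ k.conj h.toRho.rV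

theorem r2 (k : Root φ (tt φ) R) : Root φ (tt φ * uu φ) (R :^ r :^ r) := h.ru ▸ (h.r1 k).conj h.toRho.rV

theorem pair (d : p ∣ (𝒞[tt φ]).index) : Xp φ :^ r ≤ 𝒞(Xp φ) ∨ ∃ A, Root φ (uu φ) A ∧ A ≤ 𝒞(A :^ wt φ) := by
  obtain ⟨R, k | k, e⟩ := h.deg0 d
  · rcases h.cls1 k with rfl | rfl
    · exact .inl e
    · exact .inr ⟨_, h.r1 root_p, by rw [h.rw_cj root_p, Xp_w]; exact le_cent_symm (conjg_le_cent_iff.2 e)⟩
  · rcases h.cls2 k with rfl | rfl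
    · exact .inl (le_cent_symm (by rw [← h.r3_cj root_p, conjg_le_cent_iff, h.r3_cj root_p]; exact e))
    · exact .inr ⟨_, h.r1 root_m, by
        rw [h.rw_cj root_m, Xm_w, ← h.r3_cj (h.r1 root_m), conjg_le_cent_iff, conjg_le_cent_iff]; exact e⟩

theorem card3 {P A B : Subgroup G} (pP : IsPGrp p P) (hT : Tt φ ≤ 𝒩(P)) (k : Root φ (tt φ) R) (a : Root φ (uu φ) A)
    (b : Root φ (tt φ * uu φ) B) (hR : R ≤ P) (hA : A ≤ P) (hB : B ≤ P) : Nat.card P = Fintype.card F ^ 3 := by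
  have := BW (odd_of_pGrp pP h.p2) tt_mul uu_mul h.four.comm (hT (h.VT (Four.t_mem _ _))) (hT uu_Tt)
  rw [inf_assoc, ← h.T_eq, pP.inf_eq_bot h.pT, h.inf_eq k pP hR, h.inf_eq a pP hA, h.inf_eq b pP hB, h.card k, h.card a,
    h.card b] at this
  simpa [pow_succ] using this

theorem rw (a : Root φ (uu φ) A) : Root φ (tt φ * uu φ) (A :^ wt φ) := w_u (φ := φ) ▸ a.conj wV

section E

variable (a : Root φ (uu φ) A) (c : A ≤ 𝒞(A :^ wt φ))
include a c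

theorem pE : IsPGrp p (A ⊔ A :^ wt φ) := (h.syl a).piGrp.sup (h.syl (h.rw a)).piGrp (.inl (norm_of_cent c))

theorem nE : Tt φ ≤ 𝒩(A ⊔ A :^ wt φ) := norm_sup (h.nT a) (h.nT (h.rw a))

theorem kE : Nat.card (A ⊔ A :^ wt φ : Subgroup G) = Fintype.card F ^ 2 := by
  rw [card_sup_of_inf_eq_bot (.inl (norm_of_cent c)), h.card a, h.card (h.rw a), sq]
  refine eq_bot_iff.2 fun x hx => eq_one_of_inv ((odd_of_pGrp (h.syl a).piGrp h.p2).piElt hx.1) ?_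
  rw [← h.invs (h.rw a) (Four.s_mem _ _) h.four.is.2 h.four.it.mul_ne'.symm hx.2, conj_eq_iff'.2 ((h.syl a).le hx.1)]

theorem relE : (𝒞[tt φ]).relIndex 𝒩(A ⊔ A :^ wt φ) = Fintype.card F ^ 2 := by
  have f := h.four
  have b := h.rw a
  have pE := h.pE a c
  have i : ∀ x ∈ A ⊔ A :^ wt φ, tt φ * x * (tt φ)⁻¹ = x⁻¹ := fun x hx => by
    obtain ⟨y, hy, z, hz, rfl⟩ := (mem_sup_of_left_le_norm (norm_of_cent c)).1 hx
    rw [conj_mul', h.invs a (Four.t_mem _ _) f.it.2 f.ne hy, h.invs b (Four.t_mem _ _) f.it.2 f.left.ne hz,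
      ← mul_inv_rev, c hy z hz]
  have n : ∀ z ∈ 𝒞(A ⊔ A :^ wt φ), ¬ IsInv z := fun z hz iz => by
    obtain ⟨g, rfl⟩ := isConj_iff.1 (h.toBL.cjt iz.1 iz.2)
    have := (h.sylX.conjg g).card_dvd pE (conjg_cent1 _ g ▸ mem_cent_iff_le_cent_singleton.1 hz)
    rw [h.kE a c, card_conjg, h.toBK.kX, sq] at this
    have := Nat.le_of_dvd Fintype.card_pos this
    nlinarith [h.toBK.q3]
  have o : IsPiGrp {2}ᶜ 𝒞(A ⊔ A :^ wt φ) := (piGrp_compl_singleton_iff Nat.prime_two).2 fun d =>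
    let ⟨z, hz, e⟩ := exists_mem_orderOf_eq Nat.prime_two d; n z hz (isInv_of_ord e)
  rw [rel_cj (cent_le_norm _) fun g hg => by
    have m : g * tt φ * g⁻¹ * tt φ ∈ 𝒞(A ⊔ A :^ wt φ) := fun x hx => by
      have := i _ (conj_mem_of_mem_norm' hg (inv_mem hx))
      calc _ = g * (g⁻¹ * x⁻¹ * g)⁻¹ * tt φ * g⁻¹ * tt φ := by group
        _ = g * (tt φ * (g⁻¹ * (tt φ * x * (tt φ)⁻¹) * g) * (tt φ)⁻¹) * tt φ * g⁻¹ * tt φ := by rw [i x hx, this]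
        _ = _ := by group
    by_contra ne
    obtain ⟨z, hz, iz, -⟩ := exists_comm_inv (f.it.conj g).1 tt_mul fun ⟨k, hk, e⟩ => ne ⟨k, zpowers_le.2 m hk, e⟩
    exact n z (zpowers_le.2 m hz) iz]
  have ab := abelian_iff_le_cent.1 (abelian_sup (abelian_iff_le_cent.2 (h.ab a)) (abelian_iff_le_cent.2 (h.ab b)) c)
  have nC := norm_cent (h.nE a c)
  have := BW' o f (nC (h.VT (Four.t_mem _ _))) (nC uu_Tt)
  rw [← h.T_eq, h.cardR a (le_sup_left.trans ab) (cent_anti le_sup_left),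
    h.cardR b (le_sup_right.trans ab) (cent_anti le_sup_right)] at this
  exact Nat.eq_of_mul_eq_mul_right (pow_pos Nat.card_pos 2) (this.trans (by ring))

end E

end PL

end CA.Br
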