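import Cfsg.Agent.Br.PL3

/-!
# The two possible indices: the hexagon of root groups and `q = 3`
-/

set_option autoImplicit false
set_option linter.unusedSectionVars false

open Cfsg Subgroup CA.Dih CA.FG CA.BG CA.GW CA.GW.BA

namespace CA.Br

universe u v

variable {G : Type u} [Group G] [Finite G] {F : Type v} [Field F] [Fintype F] {φ : GL (Fin 2) F →* G} {r : G} {p : ℕ}

theorem fin3 {P : Fin 3 → Fin 3 → Fin 3 → Prop} (s : ∀ i j k, i ≠ j → i ≠ k → j ≠ k → P i j k → P (i + 1) (j + 1) (k + 1))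
    (a : P 1 0 2) (b : P 2 0 1) (i j k : Fin 3) (h1 : i ≠ j) (h2 : i ≠ k) (h3 : j ≠ k) : P i j k := by
  have a1 : P 2 1 0 := s 1 0 2 (by decide) (by decide) (by decide) a
  have a2 : P 0 2 1 := s 2 1 0 (by decide) (by decide) (by decide) a1
  have b1 : P 0 1 2 := s 2 0 1 (by decide) (by decide) (by decide) b
  have b2 : P 1 2 0 := s 0 1 2 (by decide) (by decide) (by decide) b1
  fin_cases i <;> fin_cases j <;> fin_cases k <;> first | assumption | contradiction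

namespace PL

variable (h : PL φ r p) {j : G} {R A : Subgroup G}
include h

theorem kG : Nat.card G = (𝒞[tt φ]).index * (Fintype.card F * (Fintype.card F + 1) * Nat.card (Tt φ)) := by rw [← h.kC, index_mul_card]

theorem nd1 : ¬ p ∣ (Fintype.card F + 1) * Nat.card (Tt φ) := fun d => (h.hp.dvd_mul.1 d).elim (fun d => h.nd (by rwa [one_mul]))
  ((piGrp_compl_singleton_iff h.hp).1 h.pT)

theorem kN (a : Root φ (uu φ) A) (c : A ≤ 𝒞(A :^ wt φ)) : Nat.card 𝒩(A ⊔ A :^ wt φ) =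
    Nat.card (𝒩(A ⊔ A :^ wt φ) ⊓ 𝒞[tt φ] : Subgroup G) * Fintype.card F ^ 2 := by
  rw [← h.relE a c, inf_comm, card_inf_mul_relIndex]

theorem tri (c : Xp φ :^ r ≤ 𝒞(Xp φ)) : ∃ U, IsPGrp p U ∧ Tt φ ≤ 𝒩(U) ∧ r ∈ 𝒩(U) ∧ Xp φ ≤ U ∧ Nat.card U = Fintype.card F ^ 3 := by
  have a := h.r1 root_p
  have b := h.r2 root_p
  have pU := ((h.sylX.piGrp.sup (h.syl a).piGrp (.inr (norm_of_cent c))).sup (h.syl b).piGrp (.inl (norm_of_cent
    (sup_le (by rw [← h.r3_cj root_p, conjg_le_cent_iff, conjg_le_cent_iff, h.r3_cj root_p]; exact c)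
      (le_cent_symm (conjg_le_cent_iff.2 c))))))
  have n := norm_sup (norm_sup TX (h.nT a)) (h.nT b)
  refine ⟨_, pU, n, conjg_eq_self_iff.1 ?_, le_sup_of_le_left le_sup_left,
    h.card3 pU n root_p a b (le_sup_of_le_left le_sup_left) (le_sup_of_le_left le_sup_right) le_sup_right⟩
  rw [conjg_sup, conjg_sup, h.r3_cj root_p, sup_comm, sup_assoc]

theorem rel2 {K : Subgroup G} (hw : wt φ ∈ K) (k : ∀ b ∈ K, b ∈ Tt φ ∨ b * wt φ ∈ Tt φ) : (Tt φ).relIndex K = 2 := by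
  obtain ⟨_, he⟩ := h.toBK.exists_ns
  have : ∀ b, b ∈ Tt φ → b * wt φ ∉ Tt φ := fun b k1 k2 => (h.toBK.cs he).wn ((mul_mem_cancel_left k1).1 k2)
  exact relIndex_eq_two_iff.2 ⟨_, hw, fun b hb => (k b hb).elim (fun e => .inr ⟨e, this b e⟩)
    fun e => .inl ⟨e, fun e' => this b e' e⟩⟩

theorem m11 {m : ℕ} (hm : m + 1 = Fintype.card F ^ 2 + Fintype.card F) (e : (𝒞[tt φ]).index = Fintype.card F * (Fintype.card F + 2) * m) : Fintype.card F = 3 := by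
  have q3 := h.toBK.q3
  have hp := h.hp
  have kG : Nat.card G = Fintype.card F ^ 2 * ((Fintype.card F + 2) * m * ((Fintype.card F + 1) * Nat.card (Tt φ))) := by rw [h.kG, e]; ring
  have pm : p ∣ m + 1 := hm ▸ dvd_add (dvd_pow h.pq two_ne_zero) h.pq
  have nd : ¬ p ∣ (Fintype.card F + 2) * m * ((Fintype.card F + 1) * Nat.card (Tt φ)) := fun d => (hp.dvd_mul.1 d).elim (fun d =>
    (hp.dvd_mul.1 d).elim (fun d => h.p2 ((Nat.prime_dvd_prime_iff_eq hp Nat.prime_two).1 ((Nat.dvd_add_right h.pq).1 d)))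
      fun d => hp.one_lt.ne' (Nat.dvd_one.1 ((Nat.dvd_add_right d).1 pm))) h.nd1
  rcases h.pair (e ▸ (h.pq.mul_right _).mul_right _) with c | ⟨A, a, c⟩
  · obtain ⟨U, pU, -, -, -, kU⟩ := h.tri c
    have := Nat.le_of_dvd (by positivity) (kU ▸ pU.dvd_of_dvd_mul ((piNat_compl_singleton_iff hp).2 nd)
      (kG ▸ card_subgroup_dvd_card U))
    exact absurd this (Nat.pow_lt_pow_right (by omega) (by omega)).not_ge
  have s : IsSylowOf p (A ⊔ A :^ wt φ) ⊤ := sylow_mk le_top (h.pE a c) (by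
    have := card_mul_index (A ⊔ A :^ wt φ)
    rw [h.kE a c, kG] at this
    rwa [relIndex_top_right, Nat.eq_of_mul_eq_mul_left (by positivity) this])
  have n1 := index_norm_mod hp s
  have n0 := index_pos 𝒩(A ⊔ A :^ wt φ)
  have k := index_mul_card 𝒩(A ⊔ A :^ wt φ)
  have TK := le_inf (h.nE a c) h.TC
  have wK : wt φ ∈ 𝒩(A ⊔ A :^ wt φ) ⊓ 𝒞[tt φ] := ⟨conjg_eq_self_iff.1 (by
    rw [conjg_sup, sup_comm, conjg_eq_iff.2 (by rw [wt_inv] : A :^ wt φ = A :^ (wt φ)⁻¹)]), h.rng.le ⟨_, rfl⟩⟩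
  rw [h.kN a c, kG] at k
  have KC : 𝒩(A ⊔ A :^ wt φ) ⊓ 𝒞[tt φ] ≤ φ.range := h.rng ▸ inf_le_right
  generalize 𝒩(A ⊔ A :^ wt φ) ⊓ 𝒞[tt φ] = K at k TK wK KC
  generalize (𝒩(A ⊔ A :^ wt φ)).index = n at k n0 n1
  have pK : ¬ p ∣ Nat.card K := fun d => nd (by
    rw [← Nat.eq_of_mul_eq_mul_left (pow_pos Fintype.card_pos 2) ((show _ = n * (Nat.card K * Fintype.card F ^ 2) by ring).trans k :
      Fintype.card F ^ 2 * (n * Nat.card K) = _)]
    exact d.mul_left _)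
  rw [← card_mul_relIndex TK] at k
  have k : n * (Tt φ).relIndex K = (Fintype.card F + 2) * m * (Fintype.card F + 1) := Nat.eq_of_mul_eq_mul_left
    (Nat.mul_pos (pow_pos Fintype.card_pos 2) (Nat.card_pos (α := Tt φ))) (by linarith)
  rcases KL (K := K.comap φ) h.toBK.two (fun g hg => TK (h.toBK.mem_Tt.2 hg)) wK (fun s hs => by_contra fun s0 =>
    h.toBK.xp_ne s0 ((h.sylX.piGrp.piElt (mem_Xp.2 ⟨s, rfl⟩)).eq_one (((piGrp_compl_singleton_iff hp).2 pK).piElt hs)))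
    with l | l
  · rw [h.rel2 wK fun b hb => by
      obtain ⟨g, rfl⟩ := KC hb
      exact (l g hb).imp h.toBK.mem_Tt.2 fun e => by rw [wt, ← map_mul]; exact h.toBK.mem_Tt.2 e] at k
    obtain ⟨n, rfl⟩ := Nat.exists_eq_add_of_lt n0
    obtain ⟨a, rfl⟩ : p ∣ n := by simpa using n1
    obtain ⟨b, hb⟩ := h.pq
    obtain ⟨c, hc⟩ := pm
    have : (p : ℤ) ∣ 2 ^ 2 := ⟨-2 * a + (c * (p * b + 2) * (p * b + 1) - p * b * b - 3 * b), by
      rw [hb] at k; zify at k hc; linear_combination k + (p * b + 2) * (p * b + 1) * hc⟩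
    exact (h.p2 ((Nat.prime_dvd_prime_iff_eq hp Nat.prime_two).1 (hp.dvd_of_dvd_pow (by exact_mod_cast this)))).elim
  replace l := Nat.le_of_dvd (by decide) ((FiniteField.forall_pow_eq_one_iff F 4).1 fun x => Units.ext (l x x.ne_zero))
  obtain ⟨_, he⟩ := h.toBK.exists_ns
  have k2 : 2 ∣ (Tt φ).relIndex K := h.rel2 (K := K ⊓ 𝒩(V4 (tt φ) (uu φ))) ⟨wK, wV⟩ (fun b hb => (h.toBK.cs he).tiT _ uu_Tt
    h.toBK.uZ b (KC hb.1) (h.VT (conj_mem_of_mem_norm hb.2 (Four.s_mem _ _)))) ▸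
    relIndex_dvd_relIndex_of_le (le_inf TK h.TV) inf_le_left
  have k3 := h.toBK.relT ▸ relIndex_dvd_relIndex_of_le TK KC
  obtain ⟨b, hb⟩ := h.odd
  by_contra ne
  have q5 : Fintype.card F = 5 := by omega
  obtain rfl : p = 5 := (Nat.prime_dvd_prime_iff_eq hp Nat.prime_five).1 (q5 ▸ h.pq)
  rw [q5] at k k3 hm
  obtain rfl : m = 29 := by omega
  have := Nat.le_of_dvd (by decide) k3
  generalize (Tt φ).relIndex K = i at *
  interval_cases i <;> omega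

theorem pm : Xp φ ⊓ Xm φ = ⊥ := eq_bot_iff.2 fun x hx => by
  obtain ⟨a, rfl⟩ := mem_Xp.1 hx.1
  obtain ⟨b, e⟩ := mem_Xm.1 hx.2
  have := congrArg (fun g : GL (Fin 2) F => g 0 1) (h.toBK.eq_of_det e (by rw [det_xp, det_xm]))
  simp at this
  simp [← this, xp_zero]

theorem no_tri (e : (𝒞[tt φ]).index = Fintype.card F ^ 2 * (Fintype.card F ^ 2 + Fintype.card F + 1)) (c : Xp φ :^ r ≤ 𝒞(Xp φ)) : False := by
  obtain ⟨U, pU, TU, rU, XU, kU⟩ := h.tri c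
  have q3 := h.toBK.q3
  have f := h.four
  have kG : Nat.card G = Fintype.card F ^ 3 * (((Fintype.card F + 1) * Fintype.card F + 1) * ((Fintype.card F + 1) * Nat.card (Tt φ))) := by rw [h.kG, e]; ring
  have s : IsSylowOf p U ⊤ := sylow_mk le_top pU (by
    have := card_mul_index U
    rw [kU, kG] at this
    rw [relIndex_top_right, Nat.eq_of_mul_eq_mul_left (by positivity) this, h.hp.dvd_mul]
    exact fun d => d.elim h.nd h.nd1)
  have X1 : Xp φ :^ r ≤ U := conjg_le_of_mem_norm XU rU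
  have X2 : Xp φ :^ r :^ r ≤ U := conjg_le_of_mem_norm X1 rU
  have TU' : Tt φ ≤ 𝒩(U :^ wt φ) := by rw [← h.T_cj wV]; exact conjg_le_norm_iff.2 TU
  have key : ∀ j A B, Root φ j A → Root φ j B → A ≤ U → B ≤ U :^ wt φ → A ⊓ B = ⊥ → U ⊓ U :^ wt φ ⊓ 𝒞[j] ≤ ⊥ :=
    fun j A B a b hA hB e => by rw [← e, ← h.inf_eq a pU hA, ← h.inf_eq b (pU.conjg _) hB, inf_inf_distrib_right]
  have d : U ⊓ U :^ wt φ ≤ ⊥ := f.gen (odd_of_pGrp (pU.inf_left _) h.p2) (norm_inf TU TU' (h.VT (Four.t_mem _ _)))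
    (norm_inf TU TU' uu_Tt) (key _ _ _ root_p root_m XU (Xp_w (φ := φ) ▸ conjg_mono _ XU) h.pm)
    (key _ _ _ (h.r1 root_p) (h.r1 root_m) X1 (by
      have := conjg_mono (wt φ) X2
      rwa [h.rw_cj (h.r1 root_p), h.rw_cj root_p, Xp_w, h.r3_cj (h.r1 root_m)] at this)
      (by rw [← conjg_inf, h.pm, conjg_bot]))
    (key _ _ _ (h.r2 root_p) (h.r2 root_m) X2 (by
      have := conjg_mono (wt φ) X1
      rwa [h.rw_cj root_p, Xp_w] at this) (by rw [← conjg_inf, ← conjg_inf, h.pm, conjg_bot, conjg_bot]))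
  have k1 : Fintype.card F ^ 3 ≤ (𝒩(U)).index := by
    have := card_inf_mul_relIndex 𝒩(U :^ wt φ) U
    rw [le_bot_iff.1 (le_trans (le_inf inf_le_right ((s.conjg_of_mem (mem_top _)).le_of_le_norm (pU.inf_right _) le_top
      inf_le_left)) d), card_bot, one_mul, kU] at this
    rw [← this, ← index_conjg _ (wt φ), conjg_norm, ← relIndex_top_right]
    exact relIndex_le_of_le_right le_top (relIndex_pos _ _).ne'
  have k2 : (U ⊔ Tt φ).relIndex 𝒩(U) ≠ 1 := fun e => by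
    obtain ⟨x, hx, y, hy, e⟩ := (mem_sup_of_right_le_norm TU).1 (relIndex_eq_one.1 e rU)
    have := h.rt
    rw [← e, show x * y * tt φ * (x * y)⁻¹ = x * (y * tt φ * y⁻¹) * x⁻¹ by group, conj_eq_iff.2 (h.TC hy)] at this
    refine f.ts.2 (eq_one_of_odd (odd_of_pGrp pU h.p2) ?_ f.ts.1)
    convert mul_mem (conj_mem_of_mem_norm (TU (h.VT (Four.t_mem _ _))) hx) (inv_mem hx) using 1
    rw [← this, f.it.inv_eq]; group
  have k3 := card_mul_relIndex (sup_le le_normalizer TU : U ⊔ Tt φ ≤ 𝒩(U))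
  have k4 := relIndex_pos (U ⊔ Tt φ) 𝒩(U)
  have k5 := index_mul_card 𝒩(U)
  rw [card_sup_of_inf_eq_bot (.inr TU) (pU.inf_eq_bot h.pT), kU] at k3
  rw [← k3, kG] at k5
  have k6 : (𝒩(U)).index * (U ⊔ Tt φ).relIndex 𝒩(U) = ((Fintype.card F + 1) * Fintype.card F + 1) * (Fintype.card F + 1) := Nat.eq_of_mul_eq_mul_left
    (Nat.mul_pos (pow_pos Fintype.card_pos 3) (Nat.card_pos (α := Tt φ))) (by linarith)
  have := Nat.mul_le_mul k1 (show 2 ≤ (U ⊔ Tt φ).relIndex 𝒩(U) by omega)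
  rw [k6] at this
  obtain ⟨n, hn⟩ := Nat.exists_eq_add_of_le q3
  rw [hn] at this
  nlinarith [Nat.zero_le (n ^ 3), Nat.zero_le (n ^ 2)]

theorem core (e : (𝒞[tt φ]).index = Fintype.card F ^ 2 * (Fintype.card F ^ 2 + Fintype.card F + 1)) : Xm φ :^ r ≤ 𝒞(Xp φ) ∧ Xm φ :^ r :^ r ≤ 𝒞(Xp φ) ∧
    ⁅Xm φ :^ r :^ r, Xm φ :^ r⁆ ≤ Xp φ := by
  have f := h.four
  have hp := h.hp
  obtain ⟨A, a, c⟩ := (h.pair (e ▸ (dvd_pow h.pq two_ne_zero).mul_right _)).resolve_left (h.no_tri e)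
  have pE := h.pE a c
  obtain ⟨Y, y, hY⟩ := h.RT (norm_norm (h.nE a c)) (Four.t_mem _ _) f.it.2 (by
    by_contra ne
    have := card_mul_relIndex (le_normalizer : A ⊔ A :^ wt φ ≤ _)
    rw [h.kN a c, h.kE a c, mul_comm] at this
    have s := sylow_of_sylow_norm hp le_top (sylow_mk (le_inf le_top le_normalizer) pE (by
      rwa [top_inf_eq, Nat.eq_of_mul_eq_mul_right (pow_pos Fintype.card_pos 2) this]))
    have := card_mul_index (A ⊔ A :^ wt φ)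
    rw [h.kE a c, h.kG, e, mul_assoc] at this
    refine IsSylowOf.not_dvd_index s hp ?_
    rw [relIndex_top_right, Nat.eq_of_mul_eq_mul_left (pow_pos Fintype.card_pos 2) this]
    exact ((h.pq.mul_right _).mul_right _).mul_left _)
  have pP := pE.sup (h.syl y).piGrp (.inr hY)
  have nP := norm_sup (h.nE a c) (h.nT y)
  have all : ∀ j ∈ V4 (tt φ) (uu φ), j ≠ 1 → ∃ B, Root φ j B ∧ B ≤ A ⊔ A :^ wt φ ⊔ Y := fun j hj j1 => by
    rcases f.mem.1 hj with rfl | rfl | rfl | rfl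
    exacts [(j1 rfl).elim, ⟨_, y, le_sup_right⟩, ⟨_, a, le_sup_of_le_left le_sup_left⟩,
      ⟨_, h.rw a, le_sup_of_le_left le_sup_right⟩]
  have P1 : A ⊔ A :^ wt φ ⊔ Y ≠ ⊥ := ne_bot_mono le_sup_right (ne_bot_of_prime_dvd_card hp (h.card y ▸ h.pq))
  generalize A ⊔ A :^ wt φ ⊔ Y = P at pP nP all P1
  have nZ := norm_inf nP (norm_cent nP)
  obtain ⟨j, hj, j1, d⟩ : ∃ j ∈ V4 (tt φ) (uu φ), j ≠ 1 ∧ P ⊓ 𝒞(P) ⊓ 𝒞[j] ≠ ⊥ := by
    by_contra! ne
    exact meet_center_nil (IsPGrp.nil pP) ⟨le_rfl, le_normalizer⟩ P1 (le_bot_iff.1 (inf_le_right.trans (f.gen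
      (odd_of_pGrp (pP.inf_left _) h.p2) (nZ (h.VT (Four.t_mem _ _))) (nZ uu_Tt) (ne _ (Four.t_mem _ _) f.it.2).le
      (ne _ (Four.s_mem _ _) f.is.2).le (ne _ tu_mem f.ts.2).le)))
  obtain ⟨_, ⟨g, hg, -, rfl⟩, hR⟩ := h.RT nZ hj j1 (IsPGrp.dvd_card ((pP.inf_left _).inf_left _) d)
  obtain ⟨P, rfl⟩ : ∃ H', P = H' :^ g := ⟨_, (conjg_cancel_inv P g).symm⟩
  rw [← conjg_cent, ← conjg_inf, conjg_le_conjg] at hR
  rw [← h.T_cj hg, conjg_le_norm_iff] at nP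
  replace pP := piGrp_conjg.1 pP
  have all : ∀ j ∈ V4 (tt φ) (uu φ), j ≠ 1 → ∃ B, Root φ j B ∧ B ≤ P := fun j hj j1 => by
    obtain ⟨B, b, hB⟩ := all _ (conj_mem_of_mem_norm hg hj) (by simpa using j1)
    exact ⟨_, by simpa [mul_assoc] using b.conj (inv_mem hg), le_conjg_iff.1 hB⟩
  have cP := le_cent_symm (hR.trans inf_le_right)
  obtain ⟨B, b, hB⟩ := all _ (Four.s_mem _ _) f.is.2
  obtain ⟨B', b', hB'⟩ := all _ tu_mem f.ts.2
  obtain rfl := (h.cls1 b).resolve_left fun k => h.no_tri e (k ▸ hB.trans cP)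
  obtain rfl := (h.cls2 b').resolve_left fun k => h.no_tri e (le_cent_symm (by
    rw [← h.r3_cj root_p, conjg_le_cent_iff, h.r3_cj root_p]; exact k ▸ hB'.trans cP))
  have i := h.inf_eq root_p pP (hR.trans inf_le_left)
  refine ⟨hB.trans cP, hB'.trans cP, commutator_le.2 fun x hx y hy => i.le ⟨?_, ?_⟩⟩
  · exact P.mul_mem (P.mul_mem (P.mul_mem (hB' hx) (hB hy)) (P.inv_mem (hB' hx))) (P.inv_mem (hB hy))
  · exact comm_of_inv (odd_of_pGrp pP h.p2) tt_mul (nP (h.VT (Four.t_mem _ _))) (i.le.trans (hR.trans inf_le_right))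
      ⟨hB' hx, h.invs b' (Four.t_mem _ _) f.it.2 f.left.ne hx⟩ ⟨hB hy, h.invs b (Four.t_mem _ _) f.it.2 f.ne hy⟩

end PL

theorem BL.m11 (h : BL φ) (e : (φ.range.index : ℤ) = (Fintype.card F ^ 2 - 1 + Fintype.card F) * (Fintype.card F ^ 2 + Fintype.card F + Fintype.card F)) : Fintype.card F = 3 := by
  obtain ⟨r, hr⟩ := h.exists_rho
  obtain ⟨p, k⟩ := h.pl hr
  have : 1 ≤ Fintype.card F ^ 2 + Fintype.card F := le_add_left Fintype.card_pos
  refine k.m11 (Nat.sub_add_cancel this) ?_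
  rw [← h.rng]
  zify [this]
  rw [e]; ring

theorem BL.hex (h : BL φ) (hr : Rho φ r) (e : φ.range.index = Fintype.card F ^ 2 * (Fintype.card F ^ 2 + Fintype.card F + 1)) : ∃ X, Hex φ r X := by
  obtain ⟨p, k⟩ := h.pl hr
  obtain ⟨c1, c2, c3⟩ := k.core (h.rng ▸ e)
  let X : Fin 3 → Fin 3 → Subgroup G := ![![⊥, Xp φ :^ r :^ r, Xm φ :^ r], ![Xm φ :^ r :^ r, ⊥, Xp φ], ![Xp φ :^ r, Xm φ, ⊥]]
  have rX : ∀ i j, i ≠ j → X i j :^ r = X (i + 1) (j + 1) := fun i j ij => by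
    fin_cases i <;> fin_cases j <;> first | contradiction | rfl | exact k.r3_cj root_p | exact k.r3_cj root_m
  have ab : ∀ i j, i ≠ j → X i j ≤ 𝒞(X i j) := fun i j ij => by
    fin_cases i <;> fin_cases j <;> first | contradiction | skip
    exacts [k.ab (k.r2 root_p), k.ab (k.r1 root_m), k.ab (k.r2 root_m), k.ab root_p, k.ab (k.r1 root_p), k.ab root_m]
  have w1 := conjg_le_cent_iff (g := wt φ).2 c1
  have w2 := conjg_le_cent_iff (g := wt φ).2 c2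
  have w3 := conjg_mono (wt φ) c3
  rw [conjg_comm] at w3
  simp only [k.rw_cj (k.r1 root_m), k.rw_cj root_m, Xm_w, Xp_w, k.r3_cj (k.r1 root_p)] at w1 w2 w3
  refine ⟨X, hr, rfl, rfl, rX, fun i j l ij il => ?_, fun i j l ij lj => ?_, fun i j l ij jl il => ?_⟩
  · rcases eq_or_ne j l with rfl | jl
    · exact ab i j ij
    refine fin3 (P := fun i j l => X i j ≤ 𝒞(X i l)) (fun i j l ij il _ e => ?_) c2 w2 i j l ij il jl
    rw [← rX i j ij, ← rX i l il]; exact conjg_le_cent_iff.2 e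
  · rcases eq_or_ne i l with rfl | il
    · exact ab i j ij
    refine fin3 (P := fun i l j => X l j ≤ 𝒞(X i j)) (fun i l j _ ij lj e => ?_) c1 w1 l i j il.symm lj ij
    rw [← rX i j ij, ← rX l j lj]; exact conjg_le_cent_iff.2 e
  · refine fin3 (P := fun i j l => ⁅X i j, X j l⁆ ≤ X i l) (fun i j l ij il jl e => ?_) c3 w3 i j l ij il jl
    rw [← rX i j ij, ← rX i l il, ← rX j l jl, ← conjg_comm]; exact conjg_mono r e

end CA.Br
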