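import Cfsg.Agent.Br.BW
import Cfsg.Agent.GW.Ch7

/-!
# The case `Z(C(t)) = ⟨t⟩`: the centraliser of the odd part of the split torus
-/

set_option autoImplicit false
set_option linter.unusedSectionVars false

open Cfsg Subgroup CA.Dih CA.FG CA.BG CA.GW CA.GW.BA

namespace CA.Br

universe u

theorem inv_sum_nonneg {a b : ℤ} (ha : 4 ∣ a - 1) (h : a + b = -2) : (0 : ℚ) ≤ 1 / a + 1 / b := by
  have key : ∀ a b : ℤ, 1 ≤ a → a + b = -2 → (0 : ℚ) ≤ 1 / a + 1 / b := fun a b h1 h => by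
    have h1 : (1 : ℚ) ≤ a := by exact_mod_cast h1
    have : (b : ℚ) = -(a + 2) := by rw [show b = -(a + 2) by omega]; push_cast; ring
    rw [this, one_div_neg_eq_neg_one_div, ← sub_eq_add_neg, sub_nonneg]
    exact one_div_le_one_div_of_le (by linarith) (by linarith)
  by_cases c : 1 ≤ a
  · exact key a b c h
  · rw [add_comm]; exact key b a (by omega) (by omega)

theorem ar2_le {n : ℕ} {y z w : ℤ} (h : Ar2 n 2 1 y z w) : n ≤ 15 := by
  have e := h.e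
  have s := h.sum
  have n0 : (0 : ℚ) ≤ n := Nat.cast_nonneg n
  have fin : (2 * n : ℚ) ≤ 8 → n ≤ 15 := fun c => by
    have : 2 * n ≤ 8 := by exact_mod_cast c
    omega
  by_cases y1 : y = 1
  · have := inv_sum_nonneg h.cz (show z + w = -2 by omega)
    subst y1; push_cast at e; exact fin (by nlinarith)
  by_cases z1 : z = 1
  · have := inv_sum_nonneg h.cy (show y + w = -2 by omega)
    subst z1; push_cast at e; exact fin (by nlinarith)
  by_cases w1 : w = 1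
  · have := inv_sum_nonneg h.cy (show y + z = -2 by omega)
    subst w1; push_cast at e; exact fin (by nlinarith)
  have := h.b15 y1 z1 w1
  omega

variable {G : Type u} [Group G] [Finite G]

theorem card_V4 {t u : G} (f : Four t u) : Nat.card (V4 t u) = 4 := by
  have : ((V4 t u : Subgroup G) : Set G) = {1, t, u, t * u} := Set.ext fun x => by simpa using f.mem
  rw [← SetLike.coe_sort_coe, this, Nat.card_coe_set_eq, Set.ncard_insert_of_notMem, Set.ncard_insert_of_notMem,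
    Set.ncard_pair f.it.mul_ne'.symm]
  · simp [f.ne, f.is.2]
  · simp [f.it.2.symm, f.is.2.symm, f.ts.2.symm]

/-- a group in which the centraliser of an involution is abelian with Sylow `2`-subgroup of type `(2,2)` -/
theorem four_idx {t u r : G} (f : Four t u) (rt : r * t * r⁻¹ = u) (ru : r * u * r⁻¹ = t * u)
    (ab : ∀ a ∈ 𝒞[t], ∀ b ∈ 𝒞[t], a * b = b * a) (two : ∀ g ∈ 𝒞[t], IsPiElt {2} g → g ∈ V4 t u) :
    IsSylowOf 2 (V4 t u) ⊤ ∧ (𝒞[t]).index ≤ 15 ∧ ¬ 2 ∣ (𝒞[t]).index := by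
  have rv : r * (t * u) * r⁻¹ = t := by rw [conj_mul', rt, ru, f.sts]
  have c1 : 𝒞[u] ≤ 𝒞[t] := fun x hx => by
    have := ab (r⁻¹ * x * r) (conj_eq_iff.1 (by
      calc _ = r⁻¹ * (x * (r * t * r⁻¹) * x⁻¹) * r := by group
        _ = r⁻¹ * (r * t * r⁻¹) * r := by rw [rt, conj_eq_iff.2 hx]
        _ = t := by group)) _ (mul_mem (mem_c1.2 rfl) f.ct)
    rw [mem_c1, ← rv]
    calc _ = r * (r⁻¹ * x * r * (t * u)) * r⁻¹ := by group
      _ = _ := by rw [this]; group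
  have c2 : 𝒞[t * u] ≤ 𝒞[t] := fun x hx => by
    have := ab (r * x * r⁻¹) (conj_eq_iff.1 (by
      calc _ = r * x * r⁻¹ * (r * (t * u) * r⁻¹) * (r * x * r⁻¹)⁻¹ := by rw [rv]
        _ = r * (x * (t * u) * x⁻¹) * r⁻¹ := by group
        _ = t := by rw [conj_eq_iff.2 hx, rv])) _ f.ct
    rw [mem_c1, ← mul_right_inj r, ← mul_left_inj r⁻¹, conj_mul', conj_mul', rt, this]
  have s : IsSylowOf 2 (V4 t u) ⊤ := sylow_of_maximal Nat.prime_two f.two le_top fun Q pQ hQ _ => by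
    obtain ⟨⟨z, z1, z2⟩, z3⟩ := ne_bot_iff_exists_ne_one.1 (pGrp_inf_cent_ne_bot pQ pQ le_normalizer fun e =>
      f.it.2 (mem_bot.1 (e ▸ hQ (Four.t_mem t u))))
    have h1 : Q ≤ 𝒞[z] := mem_cent_iff_le_cent_singleton.1 z2
    have h2 : 𝒞[z] ≤ 𝒞[t] := by
      rcases f.mem.1 (two z (cent1_symm.1 (h1 (hQ (Four.t_mem t u)))) (pQ.piElt z1)) with e | e | e | e
      · exact absurd (Subtype.ext e) z3
      · rw [e]
      · rw [e]; exact c1
      · rw [e]; exact c2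
    exact le_antisymm (fun g hg => two g (h2 (h1 hg)) (pQ.piElt hg)) hQ
  have d : DS (V4 t u) t t u := by
    refine ⟨s, ⟨Four.t_mem t u, ?_, fun g hg _ => ?_⟩, f.it, mem_zpowers t, Four.s_mem t u, fun e => ?_, fun a ha => ?_⟩
    · have := card_mul_relIndex (H := zpowers t) (K := V4 t u) le_sup_left
      rw [card_V4 f, Nat.card_zpowers, f.it.ord] at this
      omega
    · rcases f.mem.1 hg with rfl | rfl | rfl | rfl
      exacts [mul_one 1, f.it.1, f.is.1, f.ts.1]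
    · rcases (mem_zpowers_inv f.it.1).1 e with e | e
      exacts [f.is.2 e, f.ne e.symm]
    · obtain ⟨x, -, hx⟩ := sylow_Jsub Nat.prime_two s (piGrp_zpowers_iff.2 ha.two) le_top
      refine IsConj.trans ?_ (isConj_iff.2 ⟨x, rfl⟩).symm
      rcases f.mem.1 (hx (conj_mem_conjg x (mem_zpowers a))) with e | e | e | e
      · exact absurd e (ha.conj x).2
      · rw [e]
      · rw [e]; exact isConj_iff.2 ⟨r, rt⟩
      · rw [e]; exact (isConj_iff.2 ⟨r, rv⟩).symm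
  have := Fintype.ofFinite G
  obtain ⟨y, z, w, a, -⟩ := d.pr2 f.it.ord
  have k1 : ∀ a ∈ 𝒞[t], kk t a = 1 := fun a ha => relIndex_eq_one.2 fun b hb => mem_c1.2 (ab b hb a ha)
  rw [kS, k1 _ f.ct, k1 _ (mul_mem f.ct (mem_c1.2 rfl))] at a
  exact ⟨s, ar2_le a, d.odd_nn⟩

/-- the local data: `T = ⟨t,u⟩ × H`, `w` inverts `H`, `r` centralises `H` -/
structure WS (T H : Subgroup G) (t u w r : G) : Prop where
  f : Four t u
  tT : t ∈ T
  uT : u ∈ T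
  HT : H ≤ T
  cT : ∀ a ∈ T, ∀ b ∈ T, a * b = b * a
  oH : IsPiGrp {2}ᶜ H
  dec : ∀ g ∈ T, ∃ v ∈ V4 t u, ∃ y ∈ H, g = v * y
  w2 : w * w = 1
  wt : w * t * w⁻¹ = t
  wu : w * u * w⁻¹ = t * u
  wH : ∀ y ∈ H, w * y * w⁻¹ = y⁻¹
  rt : r * t * r⁻¹ = u
  ru : r * u * r⁻¹ = t * u
  rH : r ∈ 𝒞(H)
  ti : ∀ y ∈ H, y ≠ 1 → ∀ c ∈ 𝒞[t], c * y * c⁻¹ ∈ T → c ∈ T ∨ c * w ∈ T

/-- the extended centraliser -/
def Nn (y : G) : Subgroup G where
  carrier := {g | g * y * g⁻¹ = y ∨ g * y * g⁻¹ = y⁻¹}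
  one_mem' := Or.inl (by simp)
  mul_mem' {a b} ha hb := by
    have e : a * b * y * (a * b)⁻¹ = a * (b * y * b⁻¹) * a⁻¹ := by group
    have e' : a * y⁻¹ * a⁻¹ = (a * y * a⁻¹)⁻¹ := by group
    rw [Set.mem_setOf_eq, e]
    rcases hb with hb | hb <;> rcases ha with ha | ha <;> simp [hb, e', ha]
  inv_mem' {a} ha := by
    rcases ha with ha | ha
    · left; conv_lhs => rw [← ha]
      group
    · right; rw [← inv_inj, inv_inv y, show (a⁻¹ * y * a⁻¹⁻¹)⁻¹ = a⁻¹ * y⁻¹ * a by group, ← ha]; group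

theorem mem_Nn {y g : G} : g ∈ Nn y ↔ g * y * g⁻¹ = y ∨ g * y * g⁻¹ = y⁻¹ := Iff.rfl

theorem le_Nn (y : G) : 𝒞[y] ≤ Nn y := fun _ h => Or.inl (conj_eq_iff.2 h)

namespace WS

variable {T H : Subgroup G} {t u w r y : G} (h : WS T H t u w r)
include h

theorem VT : V4 t u ≤ T := Four.le h.tT h.uT

theorem TH : T ≤ 𝒞(H) := fun a ha => mem_centralizer_iff.2 fun b hb => h.cT b (h.HT hb) a ha

theorem rv : r * (t * u) * r⁻¹ = t := by rw [conj_mul', h.rt, h.ru, h.f.sts]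

theorem wi : w⁻¹ = w := inv_inv' h.w2

theorem ne_inv (hy : y ∈ H) (y1 : y ≠ 1) : y ≠ y⁻¹ := fun e => y1 (eq_one_of_inv (h.oH.piElt hy) e)

theorem wc (hy : y ∈ H) (y1 : y ≠ 1) : w ∉ 𝒞[y] := fun e => h.ne_inv hy y1 ((conj_eq_iff.2 e).symm.trans (h.wH y hy))

theorem wN (hy : y ∈ H) : w ∈ Nn y := Or.inr (h.wH y hy)

theorem N_cases (hy : y ∈ H) {g : G} (hg : g ∈ Nn y) : g ∈ 𝒞[y] ∨ g * w ∈ 𝒞[y] := by
  refine hg.imp conj_eq_iff.1 fun e => conj_eq_iff.1 ?_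
  rw [show g * w * y * (g * w)⁻¹ = g * (w * y * w⁻¹) * g⁻¹ by group, h.wH y hy,
    show g * y⁻¹ * g⁻¹ = (g * y * g⁻¹)⁻¹ by group, e, inv_inv]

theorem idxN (hy : y ∈ H) (y1 : y ≠ 1) : (𝒞[y]).relIndex (Nn y) = 2 :=
  relIndex_eq_two_iff.2 ⟨w, h.wN hy, fun b hb => by
    by_cases c : b ∈ 𝒞[y]
    · exact Or.inr ⟨c, fun e => h.wc hy y1 ((mul_mem_cancel_left c).1 e)⟩
    · exact Or.inl ⟨(h.N_cases hy hb).resolve_left c, c⟩⟩

theorem Tc (hy : y ∈ H) : T ≤ 𝒞[y] := h.TH.trans (cent_le_cent_singleton hy)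

theorem cty (hy : y ∈ H) (y1 : y ≠ 1) {g : G} (h1 : g ∈ 𝒞[y]) (h2 : g ∈ 𝒞[t]) : g ∈ T :=
  (h.ti y hy y1 g h2 (by rw [conj_eq_iff.2 h1]; exact h.HT hy)).resolve_right fun e =>
    h.wc hy y1 ((mul_mem_cancel_left h1).1 (h.Tc hy e))

theorem Tt : T ≤ 𝒞[t] := fun a ha => mem_c1.2 (h.cT a ha t h.tT)

theorem twoT {g : G} (hg : g ∈ T) (p : IsPiElt {2} g) : g ∈ V4 t u := by
  obtain ⟨v, hv, y, hy, rfl⟩ := h.dec g hg
  have : IsPiElt {2} (v⁻¹ * (v * y)) := (h.f.two.piElt hv).inv.mul p (h.cT _ (inv_mem (h.VT hv)) _ hg)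
  rw [inv_mul_cancel_left] at this
  rw [this.eq_one (h.oH.piElt hy), mul_one]; exact hv

theorem VH : V4 t u ⊓ H = ⊥ := h.f.two.inf_eq_bot h.oH

theorem cardT : Nat.card T = 4 * Nat.card H := by
  rw [← card_V4 h.f]
  refine (complIn_of_norm (Or.inl (h.VT.trans (h.TH.trans (centralizer_le_normalizer _)))) (le_antisymm
    (sup_le h.VT h.HT) fun g hg => ?_) h.VH).card_mul.symm
  obtain ⟨v, hv, y, hy, rfl⟩ := h.dec g hg
  exact mul_mem_sup hv hy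

theorem loc (hy : y ∈ H) (y1 : y ≠ 1) : IsSylowOf 2 (V4 t u) 𝒞[y] ∧ (𝒞[t]).relIndex 𝒞[y] ≤ 15 ∧
    ¬ 2 ∣ (𝒞[t]).relIndex 𝒞[y] := by
  let t' : 𝒞[y] := ⟨t, h.Tc hy h.tT⟩
  let u' : 𝒞[y] := ⟨u, h.Tc hy h.uT⟩
  have f' : Four t' u' := ⟨⟨Subtype.ext h.f.it.1, fun e => h.f.it.2 (congrArg Subtype.val e)⟩,
    ⟨Subtype.ext h.f.is.1, fun e => h.f.is.2 (congrArg Subtype.val e)⟩, fun e => h.f.ne (congrArg Subtype.val e),
    Subtype.ext h.f.comm⟩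
  have m : ∀ a : 𝒞[y], a ∈ 𝒞[t'] → (a : G) ∈ T := fun a ha =>
    h.cty hy y1 a.2 (mem_c1.2 (congrArg Subtype.val (mem_c1.1 ha)))
  have eV : V4 t' u' = (V4 t u).subgroupOf 𝒞[y] := by
    ext a; rw [mem_subgroupOf, f'.mem, h.f.mem]; simp only [Subtype.ext_iff]; rfl
  obtain ⟨a, b, c⟩ := four_idx (r := ⟨r, cent_le_cent_singleton hy h.rH⟩) f' (Subtype.ext h.rt) (Subtype.ext h.ru)
    (fun a ha b hb => Subtype.ext (h.cT _ (m a ha) _ (m b hb))) fun g hg p => by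
      rw [eV, mem_subgroupOf]; exact h.twoT (m g hg) (p.map (𝒞[y]).subtype)
  rw [← subgroupOf_cent1_eq t'] at b c
  refine ⟨?_, b, c⟩
  exact (pHall_subgroupOf_iff (h.VT.trans (h.Tc hy)) le_rfl).1 (by rw [subgroupOf_self, ← eV]; exact a)

/-- an element moving `t` inside `V` -/
theorem red {g : G} (e : g * t * g⁻¹ ∈ V4 t u) : ∃ s ∈ zpowers r, s * g ∈ 𝒞[t] := by
  have k : ∀ s, s * (g * t * g⁻¹) * s⁻¹ = t → s * g ∈ 𝒞[t] := fun s e => conj_eq_iff.1 (Eq.trans (by group) e)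
  rcases h.f.mem.1 e with e | e | e | e
  · exact absurd e (h.f.it.conj g).2
  · exact ⟨1, one_mem _, k 1 (by simpa using e)⟩
  · exact ⟨r⁻¹, inv_mem (mem_zpowers r), k _ (by rw [e, ← h.rt]; group)⟩
  · exact ⟨r, mem_zpowers r, k _ (by rw [e, h.rv])⟩

theorem red_cent (hy : y ∈ H) (y1 : y ≠ 1) {g : G} (hg : g ∈ 𝒞[y]) (e : g * t * g⁻¹ ∈ V4 t u) : g ∈ 𝒞(H) := by
  obtain ⟨s, hs, e⟩ := h.red e
  have s1 := zpowers_le.2 h.rH hs
  exact (mul_mem_cancel_left s1).1 (h.TH (h.cty hy y1 (mul_mem (cent_le_cent_singleton hy s1) hg) e))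

theorem rV : r ∈ 𝒩(V4 t u) := mem_normalizer_fintype fun x hx => by
  rcases h.f.mem.1 hx with rfl | rfl | rfl | rfl
  · simp
  · rw [h.rt]; exact Four.s_mem _ _
  · rw [h.ru]; exact mul_mem (Four.t_mem _ _) (Four.s_mem _ _)
  · rw [h.rv]; exact Four.t_mem _ _

theorem wV : w ∈ 𝒩(V4 t u) := mem_normalizer_fintype fun x hx => by
  rcases h.f.mem.1 hx with rfl | rfl | rfl | rfl
  · simp
  · rw [h.wt]; exact Four.t_mem _ _
  · rw [h.wu]; exact mul_mem (Four.t_mem _ _) (Four.s_mem _ _)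
  · rw [conj_mul', h.wt, h.wu, h.f.tts]; exact Four.s_mem _ _

theorem TV : T ≤ 𝒩(V4 t u) := fun g hg => centralizer_le_normalizer _ (mem_centralizer_iff.2 fun b hb =>
  h.cT b (h.VT hb) g hg)

theorem Nt (hy : y ∈ H) (y1 : y ≠ 1) {g : G} (hg : g ∈ Nn y) (e : g ∈ 𝒞[t]) : g ∈ T ∨ g * w ∈ T :=
  h.ti y hy y1 g e (by rcases hg with c | c <;> rw [c]; exacts [h.HT hy, inv_mem (h.HT hy)])

theorem red_norm (hy : y ∈ H) (y1 : y ≠ 1) {g : G} (hg : g ∈ Nn y) (e : g * t * g⁻¹ ∈ V4 t u) : g ∈ 𝒩(V4 t u) := by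
  obtain ⟨s, hs, e⟩ := h.red e
  refine (mul_mem_cancel_left (zpowers_le.2 h.rV hs)).1 ?_
  rcases h.Nt hy y1 (mul_mem (le_Nn y (cent_le_cent_singleton hy (zpowers_le.2 h.rH hs))) hg) e with c | c
  exacts [h.TV c, (mul_mem_cancel_right h.wV).1 (h.TV c)]

/-- elements of `C(y)` commuting with `w` and normalising `V` -/
theorem cw (hy : y ∈ H) (y1 : y ≠ 1) {g : G} (hg : g ∈ 𝒞[y]) (c : g ∈ 𝒞[w]) (e : g * t * g⁻¹ ∈ V4 t u) :
    g ∈ zpowers t := by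
  have e1 : w * (g * t * g⁻¹) * w⁻¹ = g * t * g⁻¹ := by
    rw [conj_mul', conj_mul', h.wt, conj_eq_iff'.2 c, conj_eq_iff'.2 (inv_mem c)]
  have k : ∀ v ∈ V4 t u, w * v * w⁻¹ = v → v = 1 ∨ v = t := fun v hv e' => by
    rcases h.f.mem.1 hv with c | c | c | c
    · exact Or.inl c
    · exact Or.inr c
    · rw [c, h.wu] at e'; exact absurd e' h.f.it.mul_ne'
    · rw [c, conj_mul', h.wt, h.wu, h.f.tts] at e'; exact absurd e'.symm h.f.it.mul_ne'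
  have gT := h.cty hy y1 hg (conj_eq_iff.1 ((k _ e e1).resolve_left (h.f.it.conj g).2))
  obtain ⟨v, hv, x, hx, rfl⟩ := h.dec g gT
  have e2 := conj_eq_iff'.2 c
  rw [conj_mul', h.wH x hx] at e2
  have e3 : x * x ∈ V4 t u ⊓ H := mem_inf.2 ⟨by
    rw [show x * x = v⁻¹ * (v * x) * x by group, ← e2, mul_assoc, inv_mul_cancel_right]
    exact mul_mem (inv_mem hv) ((mem_normalizer_iff.1 h.wV v).1 hv), mul_mem hx hx⟩
  rw [h.VH] at e3
  obtain rfl := eq_one_of_odd h.oH hx e3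
  rw [inv_one, mul_one, mul_one] at e2
  rw [mul_one, mem_zpowers_inv h.f.it.1]; exact k v hv e2

end WS

theorem realizeEqns_Br_W1 : True := by
  have := @CA.Br.Nn.eq_1.{0}
  have := @CA.Br.Nn.eq_def.{0}
  have := @CA.Br.Nn.congr_simp.{0}
  trivial

end CA.Br
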