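import Cfsg.Agent.Br.W1
import Cfsg.Agent.Br.Gcd

/-!
# The case `Z(C(t)) = ⟨t⟩`: structure of `N(H)`
-/

set_option autoImplicit false
set_option linter.unusedSectionVars false

open Cfsg Subgroup CA.Dih CA.FG CA.BG CA.GW CA.GW.BA

namespace CA.Br

universe u

variable {G : Type u} [Group G] [Finite G]

namespace WS

variable {T H : Subgroup G} {t u w r y : G} (h : WS T H t u w r)
include h

theorem exists_r {i : G} (hi : i ∈ V4 t u) (i1 : i ≠ 1) : ∃ s ∈ zpowers r, s * t * s⁻¹ = i := by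
  rcases h.f.mem.1 hi with e | e | e | e
  · exact absurd e i1
  · exact ⟨1, one_mem _, by simp [e]⟩
  · exact ⟨r, mem_zpowers r, h.rt.trans e.symm⟩
  · exact ⟨r⁻¹, inv_mem (mem_zpowers r), by
      rw [e]; exact (congrArg (r⁻¹ * · * r⁻¹⁻¹) h.rv.symm).trans (by group)⟩

theorem rN (hy : y ∈ H) : zpowers r ≤ 𝒞[y] := zpowers_le.2 (cent_le_cent_singleton hy h.rH)

theorem Nc (hy : y ∈ H) {b g : G} (hb : b ∈ Nn y) (hg : g ∈ 𝒞[y]) : b * g * b⁻¹ ∈ 𝒞[y] := by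
  rw [← conj_eq_iff, show b * g * b⁻¹ * y * (b * g * b⁻¹)⁻¹ = b * (g * (b⁻¹ * y * b⁻¹⁻¹) * g⁻¹) * b⁻¹ by group]
  have : g * (b⁻¹ * y * b⁻¹⁻¹) * g⁻¹ = b⁻¹ * y * b⁻¹⁻¹ := by
    rcases inv_mem hb with e | e <;> rw [e]
    exacts [conj_eq_iff.2 hg, conj_eq_iff.2 (by rwa [cent_singleton_inv])]
  rw [this]; group

theorem cardC (hy : y ∈ H) (y1 : y ≠ 1) : Nat.card 𝒞[y] = 4 * Nat.card H * (𝒞[t]).relIndex 𝒞[y] := by
  rw [← card_inf_mul_relIndex 𝒞[t] 𝒞[y], ← h.cardT, show 𝒞[t] ⊓ 𝒞[y] = T from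
    le_antisymm (fun g hg => h.cty hy y1 hg.2 hg.1) (le_inf h.Tt (h.Tc hy))]

theorem act (hy : y ∈ H) (y1 : y ≠ 1) : (Nn y ≤ 𝒩(V4 t u) ∧ (𝒞[t]).relIndex 𝒞[y] = 3) ∨
    ((𝒞[t]).relIndex 𝒞[y] = 15 ∧ ∃ f : Nn y →* Equiv.Perm (Fin 5), Function.Surjective f ∧
      ∀ g, f g = 1 ↔ (g : G) ∈ H) := by
  obtain ⟨s, n15, n2⟩ := h.loc hy y1
  have cC := h.cardC hy y1
  set n := (𝒞[t]).relIndex 𝒞[y] with hn
  set N := Nn y with hN
  set M := N ⊓ 𝒩(V4 t u) with hM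
  have TN : T ≤ N := (h.Tc hy).trans (le_Nn y)
  have e1 : (𝒞[t]).relIndex N = n := by
    rw [hn, ← ncard_conj, ← ncard_conj]
    congr 1; ext b
    refine ⟨fun ⟨g, hg, e⟩ => ?_, fun ⟨g, hg, e⟩ => ⟨g, le_Nn y hg, e⟩⟩
    rcases h.N_cases hy hg with c | c
    · exact ⟨g, c, e⟩
    · exact ⟨_, c, by rw [← e, show g * w * t * (g * w)⁻¹ = g * (w * t * w⁻¹) * g⁻¹ by group, h.wt]⟩
  have e2 : (𝒞[t]).relIndex M = 3 := by
    rw [← ncard_conj, show {b | ∃ g ∈ M, g * t * g⁻¹ = b} = {t, u, t * u} from ?_, Set.ncard_insert_of_notMem,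
      Set.ncard_pair h.f.it.mul_ne'.symm]
    · simp [h.f.ne, h.f.is.2]
    · ext b
      constructor
      · rintro ⟨g, hg, rfl⟩
        simpa [h.f.it.2] using h.f.mem.1 ((mem_normalizer_iff.1 hg.2 t).1 (Four.t_mem t u))
      · intro hb
        obtain ⟨s, hs, e⟩ := h.exists_r (i := b) (h.f.mem.2 (Or.inr hb)) (by
          rcases hb with rfl | rfl | rfl
          exacts [h.f.it.2, h.f.is.2, h.f.ts.2])
        exact ⟨s, ⟨le_Nn y (h.rN hy hs), zpowers_le.2 h.rV hs⟩, e⟩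
  have e3 : 3 * M.relIndex N = n := by
    rw [← e1, ← e2, ← inf_relIndex_right 𝒞[t] M, ← inf_relIndex_right 𝒞[t] N,
      show 𝒞[t] ⊓ N = 𝒞[t] ⊓ M from le_antisymm (fun g hg => ⟨hg.1, hg.2, h.red_norm hy y1 hg.2 (by
        rw [conj_eq_iff.2 hg.1]; exact Four.t_mem t u)⟩) (inf_le_inf_left _ inf_le_left),
      relIndex_mul_relIndex _ _ _ inf_le_right inf_le_left]
  by_cases m1 : M.relIndex N = 1
  · exact Or.inl ⟨(relIndex_eq_one.1 m1).trans inf_le_right, by omega⟩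
  right
  have cN : Nat.card N = 8 * Nat.card H * n := by
    rw [← card_mul_relIndex (le_Nn y), h.idxN hy y1, cC]; ring
  let φ := MulAction.toPermHom N (N ⧸ M.subgroupOf N)
  have hk : ∀ g ∈ φ.ker, ∀ b ∈ N, b * g * b⁻¹ ∈ M := fun g hg b hb => by
    rw [← normalCore_eq_ker] at hg; exact hg ⟨b, hb⟩
  have kV : ∀ g ∈ φ.ker, (g : G) ∈ V4 t u → g = 1 := fun g hg hv => by
    by_contra g1
    obtain ⟨x, hx, e⟩ := h.exists_r hv fun c => g1 (Subtype.ext c)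
    refine m1 (relIndex_eq_one.2 fun b hb => ⟨hb, (mul_mem_cancel_right (zpowers_le.2 h.rV hx)).1
      (h.red_norm hy y1 (mul_mem hb (le_Nn y (h.rN hy hx))) ?_)⟩)
    rw [show b * x * t * (b * x)⁻¹ = b * g * b⁻¹ by rw [← e]; group]
    exact s.le_of_le_norm (piGrp_zpowers_iff.2 ((h.f.two.piElt hv).conj b))
      (zpowers_le.2 (h.Nc hy hb (h.Tc hy (h.VT hv)))) (zpowers_le.2 (hk g hg b hb).2) (mem_zpowers _)
  have kH : ∀ g ∈ φ.ker, (g : G) ∈ H := fun g hg => by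
    have gM := hk g hg 1 (one_mem _)
    rw [one_mul, inv_one, mul_one] at gM
    have c : ∀ v ∈ V4 t u, (g : G) ∈ 𝒞[v] := fun v hv => by
      have := kV (g * (⟨v, TN (h.VT hv)⟩ * g⁻¹ * ⟨v, TN (h.VT hv)⟩⁻¹)) (mul_mem hg
        (φ.normal_ker.conj_mem _ (inv_mem hg) _)) (by
          simpa [← mul_assoc] using mul_mem ((mem_normalizer_iff.1 gM.2 v).1 hv) (inv_mem hv))
      rw [← conj_eq_iff, ← mul_inv_eq_one]
      simpa [← mul_assoc] using congrArg Subtype.val this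
    have gT : (g : G) ∈ T := (h.Nt hy y1 g.2 (c t (Four.t_mem t u))).resolve_right fun e => by
      have := conj_eq_iff.2 ((mul_mem_cancel_left (c u (Four.s_mem t u))).1 (mem_c1.2 (h.cT _ e u h.uT)))
      exact h.f.it.mul_ne' (h.wu.symm.trans this)
    obtain ⟨v, hv, x, hx, e⟩ := h.dec g gT
    have x1 : x ∈ φ.ker.map N.subtype := mem_of_sq h.oH hx ⟨g * g, mul_mem hg hg, by
      show (g : G) * g = _
      have v2 : v * v = 1 := by
        rcases h.f.mem.1 hv with c | c | c | c <;> rw [c]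
        exacts [mul_one 1, h.f.it.1, h.f.is.1, h.f.ts.1]
      rw [e, mul_assoc, ← mul_assoc x, h.cT x (h.HT hx) v (h.VT hv), ← mul_assoc, ← mul_assoc, v2, one_mul]⟩
    obtain ⟨x', k1, rfl⟩ := x1
    have := kV (g * x'⁻¹) (mul_mem hg (inv_mem k1)) (by simpa [e] using hv)
    rw [mul_inv_eq_one.1 this]; exact hx
  have c1 : Nat.card φ.ker * Nat.card φ.range = 8 * Nat.card H * n := by
    rw [← index_ker, card_mul_index, cN]
  have kH' : φ.ker ≤ H.subgroupOf N := kH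
  have c0 : Nat.card (H.subgroupOf N) = Nat.card H := Nat.card_congr (subgroupOfEquivOfLe (h.HT.trans TN)).toEquiv
  have c2 : Nat.card φ.ker ≤ Nat.card H := c0 ▸ card_le_of_le kH'
  have c3 : Nat.card (Equiv.Perm (N ⧸ M.subgroupOf N)) = (M.relIndex N).factorial := Nat.card_perm
  have c4 : Nat.card φ.range ≤ (M.relIndex N).factorial := c3 ▸ card_le_card_group _
  have c5 : 0 < Nat.card H := Nat.card_pos
  have m5 : M.relIndex N = 5 := by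
    by_contra c
    have : M.relIndex N = 3 := by omega
    rw [this] at c4 e3
    rw [← e3] at c1
    have := Nat.mul_le_mul c2 c4
    rw [c1] at this
    simp only [Nat.factorial] at this
    omega
  rw [m5] at c3 c4 e3
  rw [← e3] at c1
  simp only [Nat.factorial] at c3 c4
  have d1 : Nat.card H ≤ Nat.card φ.ker := by nlinarith
  have d2 : 120 ≤ Nat.card φ.range := by nlinarith
  have d3 : φ.range = ⊤ := eq_top_of_card_eq _ (by omega)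
  have d4 : φ.ker = H.subgroupOf N := eq_of_le_of_card_ge kH' (c0 ▸ d1)
  let e : (N ⧸ M.subgroupOf N) ≃ Fin 5 := Finite.equivFinOfCardEq m5
  refine ⟨by omega, e.permCongrHom.toMonoidHom.comp φ, e.permCongrHom.surjective.comp (MonoidHom.range_eq_top.1 d3),
    fun g => ?_⟩
  rw [← mem_subgroupOf, ← d4, MonoidHom.mem_ker]
  exact e.permCongrHom.map_eq_one_iff

theorem cent (hy : y ∈ H) (y1 : y ≠ 1) : 𝒞[y] = 𝒞(H) := by
  refine le_antisymm (fun g hg => ?_) (cent_le_cent_singleton hy)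
  rcases h.act hy y1 with ⟨c, -⟩ | ⟨-, f, -, hf⟩
  · exact h.red_cent hy y1 hg ((mem_normalizer_iff.1 (c (le_Nn y hg)) t).1 (Four.t_mem t u))
  have c1 : g * t * g⁻¹ ∈ 𝒞(H) := mem_centralizer_iff.2 fun x hx => by
    have := (hf (⟨g, le_Nn y hg⟩⁻¹ * ⟨x, le_Nn y (h.Tc hy (h.HT hx))⟩ * ⟨g, le_Nn y hg⟩)).1 (by
      rw [map_mul, map_mul, (hf ⟨x, _⟩).2 hx]; simp)
    have := mem_centralizer_iff.1 (h.TH h.tT) _ this
    calc _ = g * (g⁻¹ * x * g * t) * g⁻¹ := by group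
      _ = g * (t * (g⁻¹ * x * g)) * g⁻¹ := congrArg (g * · * g⁻¹) this
      _ = _ := by group
  obtain ⟨d, hd, e⟩ := sylow_Jsub Nat.prime_two ((h.loc hy y1).1.of_le (h.VT.trans h.TH) (cent_le_cent_singleton hy))
    (piGrp_zpowers_iff.2 (h.f.it.conj g).two) (zpowers_le.2 c1)
  refine (mul_mem_cancel_left hd).1 (h.red_cent hy y1 (mul_mem (cent_le_cent_singleton hy hd) hg) ?_)
  rw [show d * g * t * (d * g)⁻¹ = d * (g * t * g⁻¹) * d⁻¹ by group]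
  exact e (conj_mem_conjg d (mem_zpowers _))

/-- involutions of `C(H)` are conjugate -/
theorem inv_cj (hy : y ∈ H) (y1 : y ≠ 1) {i : G} (hi : i ∈ 𝒞(H)) (ii : IsInv i) : ∃ d ∈ 𝒞(H), d * i * d⁻¹ = t := by
  obtain ⟨d, hd, e⟩ := sylow_Jsub Nat.prime_two (h.cent hy y1 ▸ (h.loc hy y1).1) (piGrp_zpowers_iff.2 ii.two)
    (zpowers_le.2 hi)
  obtain ⟨s, hs, e'⟩ := h.exists_r (e (conj_mem_conjg d (mem_zpowers _))) (ii.conj d).2
  refine ⟨s⁻¹ * d, mul_mem (inv_mem (zpowers_le.2 h.rH hs)) hd, ?_⟩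
  rw [show s⁻¹ * d * i * (s⁻¹ * d)⁻¹ = s⁻¹ * (d * i * d⁻¹) * s by group, ← e']; group

theorem tiH (hy : y ∈ H) (y1 : y ≠ 1) {g : G} (hg : g * y * g⁻¹ ∈ H) : g ∈ 𝒞(H) ∨ g * w ∈ 𝒞(H) := by
  have c1 : g * t * g⁻¹ ∈ 𝒞(H) := by
    rw [← h.cent hg (by simpa using y1), mem_c1, ← conj_mul', ← conj_mul', h.cT t h.tT y (h.HT hy)]
  obtain ⟨d, hd, e⟩ := h.inv_cj hy y1 c1 (h.f.it.conj g)
  have := h.ti y hy y1 (d * g) (conj_eq_iff.1 (Eq.trans (by group) e)) (by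
    rw [show d * g * y * (d * g)⁻¹ = d * (g * y * g⁻¹) * d⁻¹ by group,
      conj_eq_iff.2 (cent_le_cent_singleton hg hd)]; exact h.HT hg)
  rw [mul_assoc] at this
  exact this.imp (fun c => (mul_mem_cancel_left hd).1 (h.TH c)) fun c => (mul_mem_cancel_left hd).1 (h.TH c)

end WS

set_option synthInstance.maxSize 2000 in
set_option maxRecDepth 100000 in
theorem s5_tab : ∀ σ : Equiv.Perm (Fin 5), σ * σ = 1 → Equiv.Perm.sign σ ≠ 1 →
    (Finset.univ.filter fun τ : Equiv.Perm (Fin 5) => τ * σ = σ * τ ∧ Equiv.Perm.sign τ = 1).card ≤ 6 ∧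
    ∀ τ : Equiv.Perm (Fin 5), τ * σ = σ * τ → τ * τ = 1 → τ ≠ 1 → Equiv.Perm.sign τ = 1 →
      ∃ ρ : Equiv.Perm (Fin 5), ρ * σ = σ * ρ ∧ ρ * ρ * ρ = 1 ∧ ρ ≠ 1 ∧ τ * ρ * τ * ρ = 1 ∧
        ∀ π : Equiv.Perm (Fin 5), π * ρ = ρ * π → π ^ 6 = 1 := by
  decide +kernel

theorem WS.str {T H : Subgroup G} {t u w r y : G} (h : WS T H t u w r) (hy : y ∈ H) (y1 : y ≠ 1) :
    (Nat.card 𝒞(H) = 12 * Nat.card H ∧ Nat.card (𝒞[w] ⊓ 𝒞(H) : Subgroup G) ≤ 2) ∨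
    (Nat.card 𝒞(H) = 60 * Nat.card H ∧ Nat.card (𝒞[w] ⊓ 𝒞(H) : Subgroup G) ≤ 6 ∧ (Nat.card H = 5 →
      ∃ ρ ∈ 𝒞[w] ⊓ 𝒞(H), orderOf ρ = 3 ∧ t * ρ * t⁻¹ = ρ⁻¹ ∧ ∀ x ∈ 𝒞(H) ⊓ 𝒞[ρ], IsPiElt {5} x → x ∈ H)) := by
  have cC := h.cardC hy y1
  have eW := h.cent hy y1
  rcases h.act hy y1 with ⟨c, e⟩ | ⟨e, f, sf, hf⟩
  · refine Or.inl ⟨by rw [← eW, cC, e]; ring, ?_⟩
    rw [← h.f.it.ord, ← Nat.card_zpowers, ← eW]
    exact card_le_of_le fun g hg => h.cw hy y1 hg.2 hg.1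
      ((mem_normalizer_iff.1 (c (le_Nn y hg.2)) t).1 (Four.t_mem t u))
  have WN : 𝒞(H) ≤ Nn y := eW ▸ le_Nn y
  have HW : H ≤ 𝒞(H) := h.HT.trans h.TH
  have k1 : f.ker ≤ (𝒞(H)).subgroupOf (Nn y) := fun g hg => HW ((hf g).1 hg)
  have a1 : ((𝒞(H)).subgroupOf (Nn y)).map f = alternatingGroup (Fin 5) :=
    Equiv.Perm.eq_alternatingGroup_of_index_eq_two (by rw [index_map_eq _ sf k1, ← eW]; exact h.idxN hy y1)
  have sg : ∀ g : Nn y, Equiv.Perm.sign (f g) = 1 ↔ (g : G) ∈ 𝒞(H) := fun g => by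
    rw [← Equiv.Perm.mem_alternatingGroup, ← a1, ← mem_comap, comap_map_eq_self k1, mem_subgroupOf]
  let w' : Nn y := ⟨w, h.wN hy⟩
  let t' : Nn y := ⟨t, WN (h.TH h.tT)⟩
  obtain ⟨s1, s2⟩ := s5_tab (f w') (by rw [← map_mul, show w' * w' = 1 from Subtype.ext h.w2, map_one])
    fun c => h.wc hy y1 (eW ▸ (sg w').1 c)
  refine Or.inr ⟨by rw [← eW, cC, e]; ring, le_trans ?_ s1, fun k5 => ?_⟩
  · rw [← Fintype.card_coe, ← Nat.card_eq_fintype_card]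
    refine Nat.card_le_card_of_injective (fun g => ⟨f ⟨g, WN g.2.2⟩, Finset.mem_filter.2 ⟨Finset.mem_univ _, by
      rw [← map_mul, ← map_mul]; exact congrArg f (Subtype.ext (mem_c1.1 g.2.1)), (sg _).2 g.2.2⟩⟩) fun a b e => ?_
    have e1 := (hf (⟨a, WN a.2.2⟩⁻¹ * ⟨b, WN b.2.2⟩)).1 (by
      rw [map_mul, map_inv, inv_mul_eq_one]; exact congrArg Subtype.val e)
    have e2 := (h.wH _ e1).symm.trans (conj_eq_iff'.2 (mul_mem (inv_mem a.2.1) b.2.1))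
    exact Subtype.ext (inv_mul_eq_one.1 (eq_one_of_inv (h.oH.piElt e1) e2.symm))
  obtain ⟨ρ, r1, r2, r3, r4, r5⟩ := s2 (f t') (by
      rw [← map_mul, ← map_mul]; exact congrArg f (Subtype.ext (mul_inv_eq_iff_eq_mul.1 h.wt).symm))
    (by rw [← map_mul, show t' * t' = 1 from Subtype.ext h.f.it.1, map_one])
    (fun c => h.f.it.2 (eq_one_of_odd h.oH ((hf t').1 c) h.f.it.1)) ((sg t').2 (h.TH h.tT))
  obtain ⟨x, rfl⟩ := sf ρ
  have x3 : f x ^ 3 = 1 := by rw [← r2, pow_succ, pow_two]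
  have x15 : (x ^ 10) ^ 3 = 1 := by
    have := pow_card_eq_one_of_mem ((hf (x ^ 3)).1 (by rw [map_pow, x3]))
    rw [k5] at this
    rw [← pow_mul, show 10 * 3 = 3 * 5 * 2 by norm_num, pow_mul, pow_mul x, show (x ^ 3) ^ 5 = 1 from Subtype.ext this,
      one_pow]
  have fx : f (x ^ 10) = f x := by rw [map_pow, show 10 = 3 * 3 + 1 by norm_num, pow_succ, pow_mul, x3]; simp
  have xW : ((x ^ 10 : Nn y) : G) ∈ 𝒞(H) := (sg _).1 (by
    rw [show 10 = 5 * 2 by norm_num, pow_mul, map_pow, map_pow, Int.units_sq])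
  rw [← fx] at r1 r3 r4 r5
  generalize x ^ 10 = z at x15 xW r1 r3 r4 r5
  have key : ∀ a : Nn y, a ^ 3 = 1 → f a = f z → a = z := fun a a3 e => by
    have e1 := (hf (a * z⁻¹)).1 (by rw [map_mul, map_inv, e, mul_inv_cancel])
    have e2 : Commute (a * z⁻¹) z := Subtype.ext (mem_centralizer_iff.1 xW _ e1)
    have e3 : (a * z⁻¹) ^ 3 = 1 := by
      rw [← mul_one (_ ^ 3), ← x15, ← e2.mul_pow, inv_mul_cancel_right, a3, x15]
    have e4 : (a * z⁻¹) ^ 5 = 1 := Subtype.ext (k5 ▸ pow_card_eq_one_of_mem e1)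
    exact mul_inv_eq_one.1 (by simpa using pow_gcd_eq_one.2 ⟨e3, e4⟩)
  have tt : t'⁻¹ = t' := Subtype.ext h.f.it.inv_eq
  refine ⟨z, ⟨conj_eq_iff'.1 (congrArg Subtype.val (key (w' * z * w'⁻¹) (by rw [conj_pow, x15]; simp) (by
    rw [map_mul, map_mul, ← r1, map_inv, mul_inv_cancel_right]))), xW⟩,
    orderOf_eq_prime (congrArg Subtype.val x15) fun c => r3 (by rw [show z = 1 from Subtype.ext c, map_one]), ?_,
    fun a ha p => ?_⟩
  · have := key (t' * z⁻¹ * t'⁻¹) (by rw [conj_pow, inv_pow, x15]; simp) (by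
      rw [map_mul, map_mul, map_inv, map_inv, ← mul_one (_ * _), ← r4, ← map_inv, ← map_inv f t', tt]
      simp only [← map_mul]; congr 1
      rw [show t' * z⁻¹ * t' * (t' * z * t' * z) = t' * z⁻¹ * (t' * t') * z * t' * z by group,
        show t' * t' = 1 from Subtype.ext h.f.it.1, mul_one, inv_mul_cancel_right,
        show t' * t' = 1 from Subtype.ext h.f.it.1, one_mul])
    have e2 : t * (z : G)⁻¹ * t⁻¹ = z := congrArg Subtype.val this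
    rw [← inv_inj, inv_inv]; exact Eq.trans (by group) e2
  · have e1 := r5 (f ⟨a, WN ha.1⟩) (by rw [← map_mul, ← map_mul]; exact congrArg f (Subtype.ext (mem_c1.1 ha.2)))
    obtain ⟨k, hk⟩ := (pElt_iff Nat.prime_five).1 p
    have e2 : f ⟨a, WN ha.1⟩ ^ 5 ^ k = 1 := by rw [← map_pow, show (⟨a, WN ha.1⟩ : Nn y) ^ 5 ^ k = 1 from Subtype.ext hk, map_one]
    have e3 := pow_gcd_eq_one.2 ⟨e1, e2⟩
    rw [show Nat.gcd 6 (5 ^ k) = 1 from Nat.Coprime.pow_right k (by norm_num), pow_one] at e3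
    exact (hf _).1 e3

theorem realizeEqns_Br_W2 : True := by

  trivial

end CA.Br
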